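import Mathlib
import Cfsg.Prelude.Def_Classical
import Cfsg.Prelude.Def_ClassicalGeometry
import Cfsg.Agent.Lib.Helper5.Symp
import Cfsg.Agent.S0752

set_option autoImplicit false

namespace Cfsg.Agent.Lib.Helper15.Embed

open Module Cfsg.Agent.Lib.Helper5.Symp

/-- A finite field with `q` elements embeds in a finite field with `q ^ 2` elements. -/
theorem exists_ringHom {F K : Type*} [Field F] [Fintype F] [Field K] [Fintype K]
    (h : Fintype.card K = Fintype.card F ^ 2) : Nonempty (F →+* K) := by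
  obtain ⟨p, hp⟩ := CharP.exists F
  haveI : Fact p.Prime := ⟨CharP.char_is_prime F p⟩
  obtain ⟨p', hp'⟩ := CharP.exists K
  haveI : Fact p'.Prime := ⟨CharP.char_is_prime K p'⟩
  obtain ⟨n, hn1, hn2⟩ := FiniteField.card F p
  obtain ⟨n', hn1', hn2'⟩ := FiniteField.card K p'
  have hpp : p = p' := by
    have h1 : p ∣ p' ^ (n' : ℕ) := by
      rw [← hn2', h, hn2]
      exact dvd_pow (dvd_pow_self p n.ne_zero) (by norm_num)
    exact (Nat.prime_dvd_prime_iff_eq hn1 hn1').1 (hn1.dvd_of_dvd_pow h1)
  subst hpp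
  letI : Algebra (ZMod p) F := ZMod.algebra F p
  letI : Algebra (ZMod p) K := ZMod.algebra K p
  have h1 := FiniteField.pow_finrank_eq_card p F
  have h2 := FiniteField.pow_finrank_eq_card p K
  have h3 : Module.finrank (ZMod p) K = 2 * Module.finrank (ZMod p) F := by
    apply Nat.pow_right_injective hn1.two_le
    simp only
    rw [h2, h, ← h1, ← pow_mul, mul_comm]
  obtain ⟨f⟩ := FiniteField.nonempty_algHom_of_finrank_dvd (F := ZMod p) (K := F) (L := K)
    (by rw [h3]; exact dvd_mul_left _ _)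
  exact ⟨f.toRingHom⟩

theorem finrank_eq_two {F K : Type*} [Field F] [Fintype F] [Field K] [Fintype K] [Algebra F K]
    (h : Fintype.card K = Fintype.card F ^ 2) : Module.finrank F K = 2 := by
  have h1 := Module.card_eq_pow_finrank (K := F) (V := K)
  rw [h] at h1
  exact (Nat.pow_right_injective (Fintype.one_lt_card (α := F)) h1).symm

/-- A group acting faithfully and linearly on a space of dimension `2N` preserving a non-degenerate
alternating form embeds in the symplectic group `Sp_2N`. -/
theorem symp_embed {F V G : Type*} [Field F] [AddCommGroup V] [Module F V] [FiniteDimensional F V]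
    [Group G] (B : LinearMap.BilinForm F V) (hA : B.IsAlt)
    (hnd : ∀ x, (∀ y, B x y = 0) → x = 0) (N : ℕ) (hdim : Module.finrank F V = 2 * N)
    (ρ : G →* (V →ₗ[F] V)) (hρ : Function.Injective ρ)
    (hB : ∀ g x y, B (ρ g x) (ρ g y) = B x y) :
    ∃ φ : G →* Matrix.symplecticGroup (Fin N) F, Function.Injective φ := by
  classical
  obtain ⟨m, k, b, h1, h2, h3, h4⟩ := Cfsg.Agent.S0752.result B hA
  have hk : k = 0 := by
    by_contra hk
    have hk' : 0 < k := Nat.pos_of_ne_zero hk
    have h0 : b (Sum.inr ⟨0, hk'⟩) = 0 := hnd _ (h4 ⟨0, hk'⟩)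
    exact b.ne_zero _ h0
  subst hk
  have hm : m = N := by
    have hc := Module.finrank_eq_card_basis b
    rw [hdim] at hc
    simp only [Fintype.card_sum, Fintype.card_fin] at hc
    omega
  subst hm
  let σ : (Fin m ⊕ Fin m) ⊕ Fin 0 ≃ Fin m ⊕ Fin m :=
    (Equiv.sumEmpty (Fin m ⊕ Fin m) (Fin 0)).trans (Equiv.sumComm (Fin m) (Fin m))
  let b' : Basis (Fin m ⊕ Fin m) F V := b.reindex σ
  have hb'l : ∀ j : Fin m, b' (Sum.inl j) = b (Sum.inl (Sum.inr j)) := by
    intro j
    simp [b', σ, Basis.reindex_apply]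
  have hb'r : ∀ i : Fin m, b' (Sum.inr i) = b (Sum.inl (Sum.inl i)) := by
    intro i
    simp [b', σ, Basis.reindex_apply]
  let T : V ≃ₗ[F] (Fin m ⊕ Fin m → F) := b'.equivFun
  have hT : ∀ k, T (b' k) = Pi.single k 1 := by
    intro k
    funext j
    rw [Basis.equivFun_self b' k j, Pi.single_apply]
    by_cases hkj : k = j
    · subst hkj; simp
    · simp [hkj, Ne.symm hkj]
  let S : LinearMap.BilinForm F (Fin m ⊕ Fin m → F) := Matrix.toBilin' (Matrix.J (Fin m) F)
  have hS : ∀ u v, S u v = Cfsg.sympForm m F u v := fun u v => Matrix.toBilin'_apply' _ u v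
  have hform : S.comp (T : V →ₗ[F] (Fin m ⊕ Fin m → F)) (T : V →ₗ[F] (Fin m ⊕ Fin m → F)) = B := by
    apply LinearMap.BilinForm.ext_basis b'
    intro i j
    rw [LinearMap.BilinForm.comp_apply, LinearEquiv.coe_coe, hT, hT, hS]
    rcases i with i | i <;> rcases j with j | j
    · rw [sympForm_single_inl, hb'l, hb'l, h3]
      simp
    · rw [sympForm_single_inr, hb'l, hb'r, ← hA.neg_eq, h1]
      by_cases hij : i = j
      · subst hij; simp
      · simp [hij, Ne.symm hij]
    · rw [sympForm_single_inl, hb'r, hb'l, h1]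
      by_cases hij : i = j
      · subst hij; simp
      · simp [hij, Ne.symm hij]
    · rw [sympForm_single_inr, hb'r, hb'r, h2]
      simp
  have hform' : ∀ x y, Cfsg.sympForm m F (T x) (T y) = B x y := by
    intro x y
    rw [← hS, ← hform]
    rfl
  let M : G → Matrix (Fin m ⊕ Fin m) (Fin m ⊕ Fin m) F := fun g =>
    LinearMap.toMatrix' ((T : V →ₗ[F] (Fin m ⊕ Fin m → F)) ∘ₗ ρ g ∘ₗ
      (T.symm : (Fin m ⊕ Fin m → F) →ₗ[F] V))
  have hMmul : ∀ g (u : Fin m ⊕ Fin m → F), (M g).mulVec u = T (ρ g (T.symm u)) := by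
    intro g u
    exact LinearMap.toMatrix'_mulVec _ u
  have hMmem : ∀ g, M g ∈ Matrix.symplecticGroup (Fin m) F := by
    intro g
    apply mem_of_sympForm_mulVec
    intro u v
    rw [hMmul, hMmul, hform', hB, ← hform', LinearEquiv.apply_symm_apply,
      LinearEquiv.apply_symm_apply]
  refine ⟨{ toFun := fun g => ⟨M g, hMmem g⟩, map_one' := ?_, map_mul' := ?_ }, ?_⟩
  · apply Subtype.ext
    change M 1 = 1
    apply Matrix.mulVec_injective
    funext u
    rw [hMmul, map_one, Matrix.one_mulVec]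
    simp
  · intro g h
    apply Subtype.ext
    change M (g * h) = M g * M h
    apply Matrix.mulVec_injective
    funext u
    rw [← Matrix.mulVec_mulVec, hMmul, hMmul, hMmul, map_mul, LinearEquiv.symm_apply_apply]
    rfl
  · intro g h hgh
    apply hρ
    have hM : M g = M h := congrArg Subtype.val hgh
    ext x
    have h5 := congrArg (fun A => A.mulVec (T x)) hM
    simp only [hMmul, LinearEquiv.symm_apply_apply] at h5
    exact T.injective h5

end Cfsg.Agent.Lib.Helper15.Embed
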