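import Mathlib
import Cfsg.Agent.Lib.Helper15.HypPair
import Cfsg.Agent.Lib.Helper15.RankParity

/-!
# The centre of `Ω`

For a quadratic form with non-degenerate polar form in dimension at least five over a finite
field, having a non-zero singular vector, an isometry commuting with every element of
`Ω = [O, O]` is `±1` (`central_scalar`).  Consequently `Z(Ω) = Ω ∩ {±1}` and

* `card_pomega_char2`: `2 |PΩ| = |O|` in characteristic two;
* `card_pomega_odd_in`: `8 |PΩ| = |O|` in odd characteristic when `-1 ∈ Ω`;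
* `card_pomega_odd_out`: `4 |PΩ| = |O|` in odd characteristic when `-1 ∉ Ω`.
-/

set_option autoImplicit false

namespace Cfsg.Agent.Lib.Helper15.CenterOmega

open Module Cfsg.Agent.Lib.Helper15.Spinor Cfsg.Agent.Lib.Helper15.CD2
  Cfsg.Agent.Lib.Helper15.Parity Cfsg.Agent.Lib.Helper15.Witt Cfsg.Agent.Lib.Helper15.WittInf
  Cfsg.Agent.Lib.Helper15.HypPair

variable {F : Type*} [Field F] [Fintype F] {ι : Type} [Fintype ι] [DecidableEq ι]

omit [Fintype F] in
theorem Q_shift (Q : QuadraticForm F (ι → F)) (e y : ι → F) (he : Q e = 0)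
    (hey : QuadraticMap.polar ⇑Q e y = 0) : Q (y - Q y • e) = Q y := by
  rw [sub_eq_add_neg, ← neg_smul, QuadraticMap.map_add ⇑Q, QuadraticMap.map_smul, he,
    QuadraticMap.polar_smul_right, QuadraticMap.polar_comm ⇑Q y e, hey]
  simp

omit [Fintype F] in
/-- The Eichler transformation `E(e, y)` is the product of the reflections in `y - Q(y) e` and
`y` when `y` is non-singular. -/
theorem eich_eq_refl (Q : QuadraticForm F (ι → F)) (e y : ι → F) (he : Q e = 0)
    (hey : QuadraticMap.polar ⇑Q e y = 0) (hy : Q y ≠ 0) (x : ι → F) :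
    act Q (reflO Q (y - Q y • e) * reflO Q y) x = eichLin Q e y x := by
  have hy' := Q_shift Q e y he hey
  rw [act_mul, act_reflO Q y hy, act_reflO Q _ (by rw [hy']; exact hy), hy', eichLin_apply]
  simp only [QuadraticMap.polar_sub_left, QuadraticMap.polar_sub_right,
    QuadraticMap.polar_smul_left, QuadraticMap.polar_smul_right, QuadraticMap.polar_self, hey]
  funext i
  simp only [Pi.add_apply, Pi.sub_apply, Pi.smul_apply, smul_eq_mul, nsmul_eq_mul,
    Nat.cast_ofNat]
  field_simp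
  ring

/-- The Eichler transformations with non-singular `y` lie in `Ω`. -/
theorem eich_mem (Q : QuadraticForm F (ι → F))
    (hQ : (QuadraticMap.polarBilin Q).Nondegenerate)
    (hc : Fintype.card F ≠ 2 ∨ Fintype.card ι ≠ 4) (e y : ι → F) (he : Q e = 0)
    (hey : QuadraticMap.polar ⇑Q e y = 0) (hy : Q y ≠ 0) :
    reflO Q (y - Q y • e) * reflO Q y ∈ commutator ↥(Cfsg.isometryGroup F ⇑Q) := by
  have hnd : ∀ x, (∀ y, QuadraticMap.polar ⇑Q x y = 0) → x = 0 := fun x hx => hQ.1 x hx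
  have hy' := Q_shift Q e y he hey
  have e1 : reflO Q (y - Q y • e) * reflO Q y = prodRefl Q [y - Q y • e, y] := by
    rw [prodRefl_cons, prodRefl_cons, prodRefl_nil, mul_one]
  have hvs : ∀ v ∈ [y - Q y • e, y], Q v ≠ 0 := by
    intro v hv
    rw [List.mem_cons, List.mem_singleton] at hv
    rcases hv with rfl | rfl
    · rw [hy']; exact hy
    · exact hy
  rw [e1]
  by_cases h2 : (2 : F) = 0
  · have hchar : CharP F 2 := CharTwo.of_one_ne_zero_of_two_eq_zero one_ne_zero h2
    exact (Cfsg.Agent.Lib.Helper15.Dickson.prodRefl_mem_commutator_iff Q hnd hc _ hvs).2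
      ⟨1, rfl⟩
  · exact (prodRefl_mem_omega_iff h2 Q _ hvs).2 ⟨⟨1, rfl⟩, ⟨Q y, by
      simp only [List.map_cons, List.map_nil, List.prod_cons, List.prod_nil, mul_one]
      rw [hy']⟩⟩

omit [Fintype F] [DecidableEq ι] in
theorem finrank_pair_le (a b : ι → F) :
    finrank F ↥(Submodule.span F ({a, b} : Set (ι → F))) ≤ 2 := by
  classical
  have h := finrank_span_finset_le_card (R := F) ({a, b} : Finset (ι → F))
  have h2 : ({a, b} : Finset (ι → F)).card ≤ 2 := Finset.card_le_two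
  rw [Finset.coe_insert, Finset.coe_singleton] at h
  exact le_trans h h2

/-- An isometry centralising `Ω` maps every singular vector `e` into `(e^⊥)^⊥`. -/
theorem central_sing (Q : QuadraticForm F (ι → F))
    (hQ : (QuadraticMap.polarBilin Q).Nondegenerate)
    (hc : Fintype.card F ≠ 2 ∨ Fintype.card ι ≠ 4) (hn : 5 ≤ Fintype.card ι)
    (z : ↥(Cfsg.isometryGroup F ⇑Q))
    (hz : ∀ g ∈ commutator ↥(Cfsg.isometryGroup F ⇑Q), z * g = g * z)
    (e : ι → F) (he : Q e = 0) (x : ι → F) (hx : QuadraticMap.polar ⇑Q e x = 0) :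
    QuadraticMap.polar ⇑Q (act Q z e) x = 0 := by
  have hW := finrank_pair_le e x
  obtain ⟨y, hyW, hy⟩ := exists_nonsing_perp Q hQ (Submodule.span F ({e, x} : Set (ι → F)))
    (by omega)
  have hye : QuadraticMap.polar ⇑Q y e = 0 :=
    (mem_perp Q _ y).1 hyW e (Submodule.subset_span (by simp))
  have hyx : QuadraticMap.polar ⇑Q y x = 0 :=
    (mem_perp Q _ y).1 hyW x (Submodule.subset_span (by simp))
  have hey : QuadraticMap.polar ⇑Q e y = 0 := by rw [QuadraticMap.polar_comm]; exact hye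
  obtain ⟨gE, hgEdef⟩ : ∃ gE, gE = reflO Q (y - Q y • e) * reflO Q y := ⟨_, rfl⟩
  have hgE : gE ∈ commutator ↥(Cfsg.isometryGroup F ⇑Q) := by
    rw [hgEdef]
    exact eich_mem Q hQ hc e y he hey hy
  have hact : ∀ t, act Q gE t = eichLin Q e y t := fun t => by
    rw [hgEdef]
    exact eich_eq_refl Q e y he hey hy t
  have hcomm := hz gE hgE
  have hcomm' : gE * z⁻¹ = z⁻¹ * gE := by
    calc gE * z⁻¹ = z⁻¹ * (z * gE) * z⁻¹ := by group
      _ = z⁻¹ * (gE * z) * z⁻¹ := by rw [hcomm]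
      _ = z⁻¹ * gE := by group
  have hEx : act Q gE x = x := by
    rw [hact, eichLin_apply, hx, hyx]
    simp
  have hEz : act Q gE (act Q z⁻¹ x) = act Q z⁻¹ x := by
    rw [← act_mul, hcomm', act_mul, hEx]
  rw [hact, eichLin_apply] at hEz
  obtain ⟨α, hαdef⟩ : ∃ α, α = QuadraticMap.polar ⇑Q e (act Q z⁻¹ x) := ⟨_, rfl⟩
  rw [← hαdef] at hEz
  have hα : α = 0 := by
    by_contra hα0
    have h1 : α • y = (QuadraticMap.polar ⇑Q y (act Q z⁻¹ x) + Q y * α) • e := by
      have h0 := hEz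
      rw [add_sub_assoc, add_eq_left] at h0
      exact sub_eq_zero.1 h0
    have h2 : y = (α⁻¹ * (QuadraticMap.polar ⇑Q y (act Q z⁻¹ x) + Q y * α)) • e := by
      rw [← smul_smul, ← h1, smul_smul, inv_mul_cancel₀ hα0, one_smul]
    apply hy
    rw [h2, QuadraticMap.map_smul, he, smul_zero]
  have h3 := act_polar Q z e (act Q z⁻¹ x)
  rw [act_act_inv] at h3
  rw [h3, ← hαdef]
  exact hα

/-- An isometry centralising `Ω` fixes every singular line. -/
theorem central_eigen (Q : QuadraticForm F (ι → F))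
    (hQ : (QuadraticMap.polarBilin Q).Nondegenerate)
    (hc : Fintype.card F ≠ 2 ∨ Fintype.card ι ≠ 4) (hn : 5 ≤ Fintype.card ι)
    (z : ↥(Cfsg.isometryGroup F ⇑Q))
    (hz : ∀ g ∈ commutator ↥(Cfsg.isometryGroup F ⇑Q), z * g = g * z)
    (e : ι → F) (he : Q e = 0) : ∃ c : F, act Q z e = c • e := by
  have hmem : act Q z e ∈ perp Q (perp Q (Submodule.span F {e})) := by
    rw [mem_perp]
    intro s hs
    have hse : QuadraticMap.polar ⇑Q s e = 0 :=
      (mem_perp Q _ s).1 hs e (Submodule.subset_span rfl)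
    exact central_sing Q hQ hc hn z hz e he s (by rw [QuadraticMap.polar_comm]; exact hse)
  rw [perp_perp Q hQ] at hmem
  obtain ⟨c, hc'⟩ := Submodule.mem_span_singleton.1 hmem
  exact ⟨c, hc'.symm⟩

/-- An isometry centralising `Ω` is `±1`. -/
theorem central_scalar (Q : QuadraticForm F (ι → F))
    (hQ : (QuadraticMap.polarBilin Q).Nondegenerate)
    (hc : Fintype.card F ≠ 2 ∨ Fintype.card ι ≠ 4) (hn : 5 ≤ Fintype.card ι)
    (z : ↥(Cfsg.isometryGroup F ⇑Q))
    (hz : ∀ g ∈ commutator ↥(Cfsg.isometryGroup F ⇑Q), z * g = g * z)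
    (e f : ι → F) (he : Q e = 0) (hf : Q f = 0) (hef : QuadraticMap.polar ⇑Q e f = 1) :
    (∀ x, act Q z x = x) ∨ (∀ x, act Q z x = -x) := by
  obtain ⟨lam, hlam⟩ := central_eigen Q hQ hc hn z hz e he
  obtain ⟨mu, hmu⟩ := central_eigen Q hQ hc hn z hz f hf
  have hfe : QuadraticMap.polar ⇑Q f e = 1 := by rw [QuadraticMap.polar_comm]; exact hef
  have hee : QuadraticMap.polar ⇑Q e e = 0 := by rw [QuadraticMap.polar_self, he, smul_zero]
  have hff : QuadraticMap.polar ⇑Q f f = 0 := by rw [QuadraticMap.polar_self, hf, smul_zero]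
  have hlm : lam * mu = 1 := by
    have h := act_polar Q z e f
    rw [hlam, hmu, QuadraticMap.polar_smul_left, QuadraticMap.polar_smul_right, hef] at h
    simpa using h
  have hlam0 : lam ≠ 0 := left_ne_zero_of_mul_eq_one hlm
  have hmu0 : mu ≠ 0 := right_ne_zero_of_mul_eq_one hlm
  have key : ∀ w, QuadraticMap.polar ⇑Q w e = 0 → QuadraticMap.polar ⇑Q w f = 0 →
      act Q z w = mu • w ∧ (Q w ≠ 0 → lam = mu) := by
    intro w hwe hwf
    have hv : Q (f + w - Q w • e) = 0 := by
      rw [sub_eq_add_neg, ← neg_smul, QuadraticMap.map_add ⇑Q, QuadraticMap.map_add ⇑Q,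
        QuadraticMap.map_smul, hf, he, QuadraticMap.polar_smul_right,
        QuadraticMap.polar_add_left, hfe, hwe, QuadraticMap.polar_comm ⇑Q f w, hwf]
      simp
    obtain ⟨nu, hnu⟩ := central_eigen Q hQ hc hn z hz (f + w - Q w • e) hv
    have hzw : act Q z w = nu • (f + w - Q w • e) - mu • f + (Q w * lam) • e := by
      have h := hnu
      rw [map_sub, map_add, map_smul, hlam, hmu] at h
      rw [← h, smul_smul]
      abel
    have h1 : QuadraticMap.polar ⇑Q (act Q z w) e = 0 := by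
      have h := act_polar Q z w e
      rw [hlam, QuadraticMap.polar_smul_right, hwe] at h
      rcases smul_eq_zero.1 h with h' | h'
      · exact absurd h' hlam0
      · exact h'
    have h2 : QuadraticMap.polar ⇑Q (act Q z w) f = 0 := by
      have h := act_polar Q z w f
      rw [hmu, QuadraticMap.polar_smul_right, hwf] at h
      rcases smul_eq_zero.1 h with h' | h'
      · exact absurd h' hmu0
      · exact h'
    have h1' : nu = mu := by
      rw [hzw] at h1
      simp only [QuadraticMap.polar_add_left, QuadraticMap.polar_sub_left,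
        QuadraticMap.polar_smul_left, hfe, hwe, hee, smul_eq_mul, mul_zero, mul_one, add_zero,
        sub_zero] at h1
      exact sub_eq_zero.1 h1
    have h2' : Q w * (lam - nu) = 0 := by
      rw [hzw] at h2
      simp only [QuadraticMap.polar_add_left, QuadraticMap.polar_sub_left,
        QuadraticMap.polar_smul_left, hff, hwf, hef, smul_eq_mul, mul_zero, mul_one, add_zero,
        zero_sub, sub_zero] at h2
      linear_combination h2
    constructor
    · rw [hzw, h1']
      rw [h1'] at h2'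
      have h5 : (Q w * lam) • e = (Q w * mu) • e := by
        have h6 : Q w * lam = Q w * mu := by linear_combination h2'
        rw [h6]
      rw [h5, smul_sub, smul_add, smul_smul, mul_comm mu (Q w)]
      abel
    · intro hQw
      rcases mul_eq_zero.1 h2' with h | h
      · exact absurd h hQw
      · rw [← h1']
        exact sub_eq_zero.1 h
  obtain ⟨w, hwW, hQw⟩ := exists_nonsing_perp Q hQ (Submodule.span F ({e, f} : Set (ι → F)))
    (by have := finrank_pair_le e f; omega)
  have hwe : QuadraticMap.polar ⇑Q w e = 0 :=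
    (mem_perp Q _ w).1 hwW e (Submodule.subset_span (by simp))
  have hwf : QuadraticMap.polar ⇑Q w f = 0 :=
    (mem_perp Q _ w).1 hwW f (Submodule.subset_span (by simp))
  have hlm' : lam = mu := (key w hwe hwf).2 hQw
  rw [hlm'] at hlm hlam
  have hall : ∀ x, act Q z x = mu • x := by
    intro x
    obtain ⟨wx, hwxdef⟩ : ∃ wx, wx = x - QuadraticMap.polar ⇑Q x f • e
        - QuadraticMap.polar ⇑Q x e • f := ⟨_, rfl⟩
    have hwxe : QuadraticMap.polar ⇑Q wx e = 0 := by
      rw [hwxdef]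
      simp only [QuadraticMap.polar_sub_left, QuadraticMap.polar_smul_left, hee, hfe,
        smul_eq_mul, mul_zero, mul_one, sub_zero, sub_self]
    have hwxf : QuadraticMap.polar ⇑Q wx f = 0 := by
      rw [hwxdef]
      simp only [QuadraticMap.polar_sub_left, QuadraticMap.polar_smul_left, hff, hef,
        smul_eq_mul, mul_zero, mul_one, sub_zero, sub_self]
    have hx : x = wx + QuadraticMap.polar ⇑Q x f • e + QuadraticMap.polar ⇑Q x e • f := by
      rw [hwxdef]
      abel
    conv_lhs => rw [hx]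
    rw [map_add, map_add, map_smul, map_smul, (key wx hwxe hwxf).1, hlam, hmu]
    conv_rhs => rw [hx]
    rw [smul_add, smul_add, smul_smul, smul_smul, smul_smul, smul_smul, mul_comm mu, mul_comm mu]
  have hmu2 : (mu - 1) * (mu + 1) = 0 := by linear_combination hlm
  rcases mul_eq_zero.1 hmu2 with h | h
  · left
    intro x
    rw [hall, sub_eq_zero.1 h, one_smul]
  · right
    intro x
    rw [hall, eq_neg_of_add_eq_zero_left h, neg_smul, one_smul]

/-- A central element of `Ω` is `±1`. -/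
theorem center_cases (Q : QuadraticForm F (ι → F))
    (hQ : (QuadraticMap.polarBilin Q).Nondegenerate)
    (hc : Fintype.card F ≠ 2 ∨ Fintype.card ι ≠ 4) (hn : 5 ≤ Fintype.card ι)
    (u : ι → F) (hu0 : u ≠ 0) (hQu : Q u = 0)
    (z : ↥(commutator ↥(Cfsg.isometryGroup F ⇑Q)))
    (hz : z ∈ Subgroup.center ↥(commutator ↥(Cfsg.isometryGroup F ⇑Q))) :
    (∀ x, act Q (z : ↥(Cfsg.isometryGroup F ⇑Q)) x = x) ∨
      (∀ x, act Q (z : ↥(Cfsg.isometryGroup F ⇑Q)) x = -x) := by
  have hnd : ∀ x, (∀ y, QuadraticMap.polar ⇑Q x y = 0) → x = 0 := fun x hx => hQ.1 x hx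
  obtain ⟨v, -, hQv, huv⟩ := sing_partner Q hnd ⊥ (splits_bot Q) u (mem_perp_bot Q u) hu0 hQu
  apply central_scalar Q hQ hc hn (z : ↥(Cfsg.isometryGroup F ⇑Q)) _ u v hQu hQv huv
  intro g hg
  have h := Subgroup.mem_center_iff.1 hz ⟨g, hg⟩
  have h' := congrArg Subtype.val h
  exact h'.symm

/-- In characteristic two, `2 |PΩ| = |O|`. -/
theorem card_pomega_char2 [CharP F 2] (Q : QuadraticForm F (ι → F))
    (hQ : (QuadraticMap.polarBilin Q).Nondegenerate)
    (hc : Fintype.card F ≠ 2 ∨ Fintype.card ι ≠ 4) (hn : 5 ≤ Fintype.card ι)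
    (u : ι → F) (hu0 : u ≠ 0) (hQu : Q u = 0) :
    2 * Nat.card (Cfsg.POmega F ⇑Q) = Nat.card ↥(Cfsg.isometryGroup F ⇑Q) := by
  have hnd : ∀ x, (∀ y, QuadraticMap.polar ⇑Q x y = 0) → x = 0 := fun x hx => hQ.1 x hx
  have hcen : Subgroup.center ↥(commutator ↥(Cfsg.isometryGroup F ⇑Q)) = ⊥ := by
    rw [Subgroup.eq_bot_iff_forall]
    intro z hz
    apply Subtype.ext
    apply act_ext Q
    intro x
    rw [Subgroup.coe_one, act_one]
    rcases center_cases Q hQ hc hn u hu0 hQu z hz with h | h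
    · exact h x
    · rw [h x]
      exact neg_eq_of_add_eq_zero_left (vec_add_self x)
  have h1 := Subgroup.card_eq_card_quotient_mul_card_subgroup
    (Subgroup.center ↥(commutator ↥(Cfsg.isometryGroup F ⇑Q)))
  have hZ : Nat.card ↥(Subgroup.center ↥(commutator ↥(Cfsg.isometryGroup F ⇑Q))) = 1 := by
    rw [hcen, Subgroup.card_bot]
  rw [hZ, mul_one] at h1
  have hidx : (commutator ↥(Cfsg.isometryGroup F ⇑Q)).index = 2 := by
    obtain ⟨w, -, hw⟩ := exists_nonsing_perp Q hQ ⊥ (by rw [finrank_bot]; omega)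
    refine Subgroup.index_eq_two_iff.2 ⟨reflO Q w, fun b => ?_⟩
    obtain ⟨vs, hvs, rfl⟩ := Cfsg.Agent.Lib.Helper15.OrthGen.cd_all Q hnd hc b
    have e : prodRefl Q vs * reflO Q w = prodRefl Q (vs ++ [w]) := by
      rw [prodRefl_append, prodRefl_cons, prodRefl_nil, mul_one]
    have hvs' : ∀ v ∈ vs ++ [w], Q v ≠ 0 := by
      intro v hv
      rw [List.mem_append, List.mem_singleton] at hv
      rcases hv with hv | rfl
      · exact hvs v hv
      · exact hw
    have h1 := Cfsg.Agent.Lib.Helper15.Dickson.prodRefl_mem_commutator_iff Q hnd hc vs hvs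
    have h2 := Cfsg.Agent.Lib.Helper15.Dickson.prodRefl_mem_commutator_iff Q hnd hc
      (vs ++ [w]) hvs'
    rw [e, h1, h2, List.length_append, List.length_singleton, Nat.even_add_one]
    unfold Xor
    tauto
  have h2 := Subgroup.card_mul_index (commutator ↥(Cfsg.isometryGroup F ⇑Q))
  rw [hidx] at h2
  change 2 * Nat.card (↥(commutator ↥(Cfsg.isometryGroup F ⇑Q))
    ⧸ Subgroup.center ↥(commutator ↥(Cfsg.isometryGroup F ⇑Q))) = _
  rw [← h1, ← h2, mul_comm]

/-- In odd characteristic, `4 |PΩ| |Z(Ω)| = |O|`. -/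
theorem card_pomega_odd (h2 : (2 : F) ≠ 0) (Q : QuadraticForm F (ι → F))
    (hQ : (QuadraticMap.polarBilin Q).Nondegenerate) (hn : 5 ≤ Fintype.card ι) :
    4 * (Nat.card (Cfsg.POmega F ⇑Q)
      * Nat.card ↥(Subgroup.center ↥(commutator ↥(Cfsg.isometryGroup F ⇑Q))))
      = Nat.card ↥(Cfsg.isometryGroup F ⇑Q) := by
  have h1 := Subgroup.card_eq_card_quotient_mul_card_subgroup
    (Subgroup.center ↥(commutator ↥(Cfsg.isometryGroup F ⇑Q)))
  have hidx := Cfsg.Agent.Lib.Helper15.CartanD.omega_index h2 Q hQ (by omega)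
  have h3 := Subgroup.card_mul_index (commutator ↥(Cfsg.isometryGroup F ⇑Q))
  change (commutator ↥(Cfsg.isometryGroup F ⇑Q)).index = 4 at hidx
  rw [hidx] at h3
  change 4 * (Nat.card (↥(commutator ↥(Cfsg.isometryGroup F ⇑Q))
    ⧸ Subgroup.center ↥(commutator ↥(Cfsg.isometryGroup F ⇑Q))) * _) = _
  rw [← h1, ← h3, mul_comm]

/-- In odd characteristic with `-1 ∉ Ω`, the centre of `Ω` is trivial. -/
theorem card_center_out (h2 : (2 : F) ≠ 0) (Q : QuadraticForm F (ι → F))
    (hQ : (QuadraticMap.polarBilin Q).Nondegenerate) (hn : 5 ≤ Fintype.card ι)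
    (u : ι → F) (hu0 : u ≠ 0) (hQu : Q u = 0)
    (hneg : ¬ ∃ g : ↥(Cfsg.isometryGroup F ⇑Q), g ∈ Cfsg.Omega F ⇑Q ∧
      ((g : Matrix.GeneralLinearGroup ι F) : Matrix ι ι F) = -1) :
    Nat.card ↥(Subgroup.center ↥(commutator ↥(Cfsg.isometryGroup F ⇑Q))) = 1 := by
  have hc : Fintype.card F ≠ 2 ∨ Fintype.card ι ≠ 4 := Or.inr (by omega)
  have hcen : Subgroup.center ↥(commutator ↥(Cfsg.isometryGroup F ⇑Q)) = ⊥ := by
    rw [Subgroup.eq_bot_iff_forall]
    intro z hz
    apply Subtype.ext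
    apply act_ext Q
    intro x
    rw [Subgroup.coe_one, act_one]
    rcases center_cases Q hQ hc hn u hu0 hQu z hz with h | h
    · exact h x
    · exfalso
      apply hneg
      refine ⟨z.1, z.2, ?_⟩
      apply mat_ext
      intro y
      rw [← act_apply, h y, Matrix.neg_mulVec, Matrix.one_mulVec]
  rw [hcen, Subgroup.card_bot]

/-- In odd characteristic with `-1 ∈ Ω`, the centre of `Ω` has order two. -/
theorem card_center_in (h2 : (2 : F) ≠ 0) (Q : QuadraticForm F (ι → F))
    (hQ : (QuadraticMap.polarBilin Q).Nondegenerate) (hn : 5 ≤ Fintype.card ι)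
    (u : ι → F) (hu0 : u ≠ 0) (hQu : Q u = 0)
    (hneg : ∃ g : ↥(Cfsg.isometryGroup F ⇑Q), g ∈ Cfsg.Omega F ⇑Q ∧
      ((g : Matrix.GeneralLinearGroup ι F) : Matrix ι ι F) = -1) :
    Nat.card ↥(Subgroup.center ↥(commutator ↥(Cfsg.isometryGroup F ⇑Q))) = 2 := by
  have hc : Fintype.card F ≠ 2 ∨ Fintype.card ι ≠ 4 := Or.inr (by omega)
  obtain ⟨g₀, hg₀, hmat⟩ := hneg
  have hg₀act : ∀ x, act Q g₀ x = -x := by
    intro x
    rw [act_apply, hmat, Matrix.neg_mulVec, Matrix.one_mulVec]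
  have hg₀c : (⟨g₀, hg₀⟩ : ↥(commutator ↥(Cfsg.isometryGroup F ⇑Q)))
      ∈ Subgroup.center ↥(commutator ↥(Cfsg.isometryGroup F ⇑Q)) := by
    rw [Subgroup.mem_center_iff]
    intro h
    apply Subtype.ext
    apply act_ext Q
    intro x
    change act Q ((h : ↥(Cfsg.isometryGroup F ⇑Q)) * g₀) x
      = act Q (g₀ * (h : ↥(Cfsg.isometryGroup F ⇑Q))) x
    rw [act_mul, act_mul, hg₀act, hg₀act, map_neg]
  rw [Nat.card_eq_two_iff]
  refine ⟨1, ⟨⟨g₀, hg₀⟩, hg₀c⟩, ?_, ?_⟩
  · intro h
    have h1 : (1 : ↥(Cfsg.isometryGroup F ⇑Q)) = g₀ := by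
      have h' := congrArg (fun t : ↥(Subgroup.center ↥(commutator ↥(Cfsg.isometryGroup F ⇑Q)))
        => ((t : ↥(commutator ↥(Cfsg.isometryGroup F ⇑Q))) : ↥(Cfsg.isometryGroup F ⇑Q))) h
      exact h'
    have h3 := hg₀act u
    rw [← h1, act_one] at h3
    apply hu0
    have h4 : (2 : F) • u = 0 := by
      rw [two_smul]
      nth_rewrite 1 [h3]
      exact neg_add_cancel u
    rcases smul_eq_zero.1 h4 with h5 | h5
    · exact absurd h5 h2
    · exact h5
  · apply Set.eq_univ_of_forall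
    rintro ⟨z, hz⟩
    rcases center_cases Q hQ hc hn u hu0 hQu z hz with h | h
    · refine Or.inl (Subtype.ext (Subtype.ext ?_))
      apply act_ext Q
      intro x
      rw [h x]
      exact (act_one Q x).symm
    · refine Or.inr (Subtype.ext (Subtype.ext ?_))
      apply act_ext Q
      intro x
      rw [h x]
      exact (hg₀act x).symm

omit [Fintype ι] [DecidableEq ι] in
/-- A finite field has characteristic two and even order, or `2 ≠ 0` and odd order. -/
theorem char_cases {q : ℕ} (hF : Fintype.card F = q) :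
    (CharP F 2 ∧ Even q) ∨ ((2 : F) ≠ 0 ∧ Odd q) := by
  by_cases hch : ringChar F = 2
  · refine Or.inl ⟨ringChar.eq_iff.1 hch, ?_⟩
    rw [← hF, Nat.even_iff]
    exact FiniteField.even_card_of_char_two hch
  · refine Or.inr ⟨Ring.two_ne_zero hch, ?_⟩
    rw [← hF, Nat.odd_iff]
    exact FiniteField.odd_card_of_char_ne_two hch

/-- `gcd(4, N) |PΩ|` in terms of `|O| = 2 X`, where `N` is odd in characteristic two and
`4 ∣ N ↔ -1 ∈ Ω` otherwise (with `N` even). -/
theorem card_pomega_gcd {q : ℕ} (hF : Fintype.card F = q) (Q : QuadraticForm F (ι → F))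
    (hQ : (QuadraticMap.polarBilin Q).Nondegenerate) (hn : 5 ≤ Fintype.card ι)
    (u : ι → F) (hu0 : u ≠ 0) (hQu : Q u = 0) (N X : ℕ)
    (hO : Nat.card ↥(Cfsg.isometryGroup F ⇑Q) = 2 * X)
    (hN2 : Even q → Odd N) (hN1 : Odd q → Even N)
    (hneg : Odd q → ((∃ g : ↥(Cfsg.isometryGroup F ⇑Q), g ∈ Cfsg.Omega F ⇑Q ∧
      ((g : Matrix.GeneralLinearGroup ι F) : Matrix ι ι F) = -1) ↔ 4 ∣ N)) :
    Nat.gcd 4 N * Nat.card (Cfsg.POmega F ⇑Q) = X := by
  have hc : Fintype.card F ≠ 2 ∨ Fintype.card ι ≠ 4 := Or.inr (by omega)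
  rcases char_cases hF with ⟨hch, hq⟩ | ⟨h2, hodd⟩
  · have hgcd : Nat.gcd 4 N = 1 := by
      have h5 : Nat.Coprime (2 ^ 2) N :=
        Nat.Coprime.pow_left 2 (Nat.coprime_two_left.2 (hN2 hq))
      exact h5
    have h := card_pomega_char2 Q hQ hc hn u hu0 hQu
    rw [hgcd]
    omega
  · have hP := card_pomega_odd h2 Q hQ hn
    by_cases h4 : 4 ∣ N
    · have hZ := card_center_in h2 Q hQ hn u hu0 hQu ((hneg hodd).2 h4)
      rw [hZ] at hP
      rw [Nat.gcd_eq_left h4]
      omega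
    · have hZ := card_center_out h2 Q hQ hn u hu0 hQu (fun h => h4 ((hneg hodd).1 h))
      rw [hZ] at hP
      have hgcd : Nat.gcd 4 N = 2 := by
        obtain ⟨t, ht⟩ := hN1 hodd
        obtain ⟨s, hs⟩ : ∃ s, N = 4 * s + 2 := ⟨N / 4, by omega⟩
        rw [hs]
        simp
      rw [hgcd]
      omega

end Cfsg.Agent.Lib.Helper15.CenterOmega
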