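import Mathlib
import Cfsg.Agent.Lib.Helper15.CenterOmega

/-!
# Eichler transformations as elements of the isometry group

`eich Q e y` is the isometry `x ↦ x + B(e,x) y - (B(y,x) + Q(y) B(e,x)) e` for a singular vector
`e` and a vector `y` orthogonal to it.  We record its algebra: additivity in `y`, conjugation,
rescaling, and membership in `Ω`.
-/

set_option autoImplicit false

namespace Cfsg.Agent.Lib.Helper15.Eichler

open Module Cfsg.Agent.Lib.Helper15.Spinor Cfsg.Agent.Lib.Helper15.CD2
  Cfsg.Agent.Lib.Helper15.Parity Cfsg.Agent.Lib.Helper15.Witt Cfsg.Agent.Lib.Helper15.WittInf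
  Cfsg.Agent.Lib.Helper15.OrthGen Cfsg.Agent.Lib.Helper15.HypPair
  Cfsg.Agent.Lib.Helper15.CenterOmega

variable {F : Type*} [Field F] [Fintype F] {ι : Type} [Fintype ι] [DecidableEq ι]

open Classical in
/-- The Eichler transformation as an isometry (the identity when it is not defined). -/
noncomputable def eich (Q : QuadraticForm F (ι → F)) (e y : ι → F) :
    ↥(Cfsg.isometryGroup F ⇑Q) :=
  if h : Q e = 0 ∧ QuadraticMap.polar ⇑Q e y = 0 then (exists_eich Q e y h.1 h.2).choose else 1

theorem act_eich (Q : QuadraticForm F (ι → F)) (e y : ι → F) (he : Q e = 0)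
    (hey : QuadraticMap.polar ⇑Q e y = 0) (x : ι → F) :
    act Q (eich Q e y) x = x + QuadraticMap.polar ⇑Q e x • y
      - (QuadraticMap.polar ⇑Q y x + Q y * QuadraticMap.polar ⇑Q e x) • e := by
  unfold eich
  rw [dif_pos ⟨he, hey⟩, (exists_eich Q e y he hey).choose_spec x, eichLin_apply]

theorem eich_zero (Q : QuadraticForm F (ι → F)) (e : ι → F) (he : Q e = 0) :
    eich Q e 0 = 1 := by
  apply act_ext
  intro x
  rw [act_eich Q e 0 he (by simp [QuadraticMap.polar]), act_one]
  simp [QuadraticMap.polar]

theorem eich_zero_left (Q : QuadraticForm F (ι → F)) (y : ι → F) :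
    eich Q 0 y = 1 := by
  apply act_ext
  intro x
  rw [act_eich Q 0 y (map_zero Q) (by simp [QuadraticMap.polar]), act_one]
  simp [QuadraticMap.polar]

theorem eich_mul (Q : QuadraticForm F (ι → F)) (e y y' : ι → F) (he : Q e = 0)
    (hey : QuadraticMap.polar ⇑Q e y = 0) (hey' : QuadraticMap.polar ⇑Q e y' = 0) :
    eich Q e y * eich Q e y' = eich Q e (y + y') := by
  have hee := polar_self_of_sing Q e he
  have hye : QuadraticMap.polar ⇑Q y e = 0 := by rw [QuadraticMap.polar_comm]; exact hey
  have hye' : QuadraticMap.polar ⇑Q y' e = 0 := by rw [QuadraticMap.polar_comm]; exact hey'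
  apply act_ext
  intro x
  rw [act_mul, act_eich Q e y' he hey' x, act_eich Q e y he hey,
    act_eich Q e (y + y') he (by rw [QuadraticMap.polar_add_right, hey, hey', add_zero])]
  simp only [QuadraticMap.polar_add_right, QuadraticMap.polar_sub_right,
    QuadraticMap.polar_smul_right, QuadraticMap.polar_add_left, hee, hey, hey', hye,
    QuadraticMap.map_add ⇑Q, smul_eq_mul, mul_zero, add_zero, sub_zero]
  module

theorem eich_inv (Q : QuadraticForm F (ι → F)) (e y : ι → F) (he : Q e = 0)
    (hey : QuadraticMap.polar ⇑Q e y = 0) :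
    (eich Q e y)⁻¹ = eich Q e (-y) := by
  have hey' : QuadraticMap.polar ⇑Q e (-y) = 0 := by
    rw [QuadraticMap.polar_neg_right, hey, neg_zero]
  apply inv_eq_of_mul_eq_one_right
  rw [eich_mul Q e y (-y) he hey hey', add_neg_cancel, eich_zero Q e he]

theorem eich_comm (Q : QuadraticForm F (ι → F)) (e y y' : ι → F) (he : Q e = 0)
    (hey : QuadraticMap.polar ⇑Q e y = 0) (hey' : QuadraticMap.polar ⇑Q e y' = 0) :
    eich Q e y * eich Q e y' = eich Q e y' * eich Q e y := by
  rw [eich_mul Q e y y' he hey hey', eich_mul Q e y' y he hey' hey, add_comm]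

/-- Conjugating an Eichler transformation by an isometry. -/
theorem eich_conj (Q : QuadraticForm F (ι → F)) (g : ↥(Cfsg.isometryGroup F ⇑Q)) (e y : ι → F)
    (he : Q e = 0) (hey : QuadraticMap.polar ⇑Q e y = 0) :
    g * eich Q e y * g⁻¹ = eich Q (act Q g e) (act Q g y) := by
  apply act_ext
  intro x
  have h1 : QuadraticMap.polar ⇑Q e (act Q g⁻¹ x) = QuadraticMap.polar ⇑Q (act Q g e) x := by
    have h := act_polar Q g e (act Q g⁻¹ x)
    rw [act_act_inv] at h
    exact h.symm
  have h2 : QuadraticMap.polar ⇑Q y (act Q g⁻¹ x) = QuadraticMap.polar ⇑Q (act Q g y) x := by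
    have h := act_polar Q g y (act Q g⁻¹ x)
    rw [act_act_inv] at h
    exact h.symm
  rw [act_mul, act_mul, act_eich Q e y he hey, h1, h2,
    act_eich Q (act Q g e) (act Q g y) (by rw [act_Q]; exact he) (by rw [act_polar]; exact hey),
    map_sub, map_add, map_smul, map_smul, act_act_inv, act_Q]

/-- Rescaling the singular vector. -/
theorem eich_smul (Q : QuadraticForm F (ι → F)) (c : F) (e y : ι → F) (he : Q e = 0)
    (hey : QuadraticMap.polar ⇑Q e y = 0) :
    eich Q (c • e) y = eich Q e (c • y) := by
  apply act_ext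
  intro x
  rw [act_eich Q (c • e) y (by rw [QuadraticMap.map_smul, he, smul_zero])
      (by rw [QuadraticMap.polar_smul_left, hey, smul_zero]),
    act_eich Q e (c • y) he (by rw [QuadraticMap.polar_smul_right, hey, smul_zero])]
  simp only [QuadraticMap.polar_smul_left, QuadraticMap.map_smul, smul_eq_mul]
  module

/-- Adding a multiple of the singular vector to `y` does not change the transformation. -/
theorem eich_add_smul (Q : QuadraticForm F (ι → F)) (a : F) (e y : ι → F) (he : Q e = 0)
    (hey : QuadraticMap.polar ⇑Q e y = 0) :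
    eich Q e (y + a • e) = eich Q e y := by
  have hee := polar_self_of_sing Q e he
  have hye : QuadraticMap.polar ⇑Q y e = 0 := by rw [QuadraticMap.polar_comm]; exact hey
  apply act_ext
  intro x
  rw [act_eich Q e (y + a • e) he
      (by rw [QuadraticMap.polar_add_right, QuadraticMap.polar_smul_right, hey, hee, smul_zero,
        add_zero]),
    act_eich Q e y he hey]
  simp only [QuadraticMap.polar_add_left, QuadraticMap.polar_smul_left,
    QuadraticMap.polar_smul_right, QuadraticMap.map_add ⇑Q, QuadraticMap.map_smul, he, hye,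
    smul_eq_mul, mul_zero, add_zero]
  module

/-- An Eichler transformation fixes its singular vector. -/
theorem eich_fix_e (Q : QuadraticForm F (ι → F)) (e y : ι → F) (he : Q e = 0)
    (hey : QuadraticMap.polar ⇑Q e y = 0) : act Q (eich Q e y) e = e := by
  have hee := polar_self_of_sing Q e he
  have hye : QuadraticMap.polar ⇑Q y e = 0 := by rw [QuadraticMap.polar_comm]; exact hey
  rw [act_eich Q e y he hey, hee, hye]
  simp

/-- An Eichler transformation fixes the vectors orthogonal to `e` and `y`. -/
theorem eich_fix (Q : QuadraticForm F (ι → F)) (e y x : ι → F) (he : Q e = 0)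
    (hey : QuadraticMap.polar ⇑Q e y = 0) (hex : QuadraticMap.polar ⇑Q e x = 0)
    (hyx : QuadraticMap.polar ⇑Q y x = 0) : act Q (eich Q e y) x = x := by
  rw [act_eich Q e y he hey, hex, hyx]
  simp

/-- An Eichler transformation carrying one singular partner of `e` to another. -/
theorem eich_partner (Q : QuadraticForm F (ι → F)) (e p p' : ι → F) (he : Q e = 0)
    (hp : Q p = 0) (hp' : Q p' = 0) (hep : QuadraticMap.polar ⇑Q e p = 1)
    (hep' : QuadraticMap.polar ⇑Q e p' = 1) :
    QuadraticMap.polar ⇑Q e (p' - p) = 0 ∧ act Q (eich Q e (p' - p)) p = p' := by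
  have hperp : QuadraticMap.polar ⇑Q e (p' - p) = 0 := by
    rw [QuadraticMap.polar_sub_right, hep, hep', sub_self]
  refine ⟨hperp, ?_⟩
  rw [act_eich Q e (p' - p) he hperp, hep, one_smul, mul_one]
  have h0 : QuadraticMap.polar ⇑Q (p' - p) p + Q (p' - p) = 0 := by
    rw [QuadraticMap.polar_sub_left, QuadraticMap.polar_self, hp, sub_eq_add_neg p' p,
      QuadraticMap.map_add ⇑Q, QuadraticMap.map_neg, hp', hp, QuadraticMap.polar_neg_right]
    simp
  rw [h0, zero_smul, sub_zero]
  abel

/-- For non-singular `y`, the Eichler transformation is a product of two reflections. -/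
theorem eich_eq_reflO (Q : QuadraticForm F (ι → F)) (e y : ι → F) (he : Q e = 0)
    (hey : QuadraticMap.polar ⇑Q e y = 0) (hy : Q y ≠ 0) :
    eich Q e y = reflO Q (y - Q y • e) * reflO Q y := by
  apply act_ext
  intro x
  rw [eich_eq_refl Q e y he hey hy x, act_eich Q e y he hey, eichLin_apply]

/-- Eichler transformations lie in `Ω`. -/
theorem eich_mem_omega (Q : QuadraticForm F (ι → F))
    (hQ : (QuadraticMap.polarBilin Q).Nondegenerate) (hn : 5 ≤ Fintype.card ι) (e y : ι → F)
    (he : Q e = 0) (hey : QuadraticMap.polar ⇑Q e y = 0) :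
    eich Q e y ∈ commutator ↥(Cfsg.isometryGroup F ⇑Q) := by
  have hc : Fintype.card F ≠ 2 ∨ Fintype.card ι ≠ 4 := Or.inr (by omega)
  have key : ∀ z, QuadraticMap.polar ⇑Q e z = 0 → Q z ≠ 0 →
      eich Q e z ∈ commutator ↥(Cfsg.isometryGroup F ⇑Q) := by
    intro z hez hz
    rw [eich_eq_reflO Q e z he hez hz]
    exact eich_mem Q hQ hc e z he hez hz
  by_cases hy : Q y ≠ 0
  · exact key y hey hy
  · rw [not_not] at hy
    obtain ⟨z, hzW, hQz⟩ := exists_nonsing_perp Q hQ (Submodule.span F ({e, y} : Set (ι → F)))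
      (by have := finrank_pair_le e y; omega)
    have hze : QuadraticMap.polar ⇑Q z e = 0 :=
      (mem_perp Q _ z).1 hzW e (Submodule.subset_span (by simp))
    have hzy : QuadraticMap.polar ⇑Q z y = 0 :=
      (mem_perp Q _ z).1 hzW y (Submodule.subset_span (by simp))
    have hez : QuadraticMap.polar ⇑Q e z = 0 := by rw [QuadraticMap.polar_comm]; exact hze
    have hez' : QuadraticMap.polar ⇑Q e (y - z) = 0 := by
      rw [QuadraticMap.polar_sub_right, hey, hez, sub_zero]
    have hQ' : Q (y - z) ≠ 0 := by
      rw [sub_eq_add_neg, QuadraticMap.map_add ⇑Q, QuadraticMap.map_neg, hy,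
        QuadraticMap.polar_neg_right, QuadraticMap.polar_comm ⇑Q y z, hzy]
      simpa using hQz
    have hsum : eich Q e y = eich Q e z * eich Q e (y - z) := by
      rw [eich_mul Q e z (y - z) he hez hez', add_sub_cancel]
    rw [hsum]
    exact Subgroup.mul_mem _ (key z hez hQz) (key (y - z) hez' hQ')

end Cfsg.Agent.Lib.Helper15.Eichler
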