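import Mathlib
import Cfsg.Agent.Lib.Helper15.Spinor
import Cfsg.Agent.Lib.Helper15.CD2
import Cfsg.Agent.Lib.Helper15.CartanD
import Cfsg.Agent.Lib.Helper15.Parity
import Cfsg.Agent.Lib.Helper15.Witt

set_option autoImplicit false

namespace Cfsg.Agent.Lib.Helper15.Witt2

open Module Cfsg.Agent.Lib.Helper15.Spinor Cfsg.Agent.Lib.Helper15.CD2
  Cfsg.Agent.Lib.Helper15.Parity Cfsg.Agent.Lib.Helper15.Witt

variable {F : Type*} [Field F] [Fintype F] {ι : Type} [Fintype ι] [DecidableEq ι]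

omit [Fintype F] [Fintype ι] [DecidableEq ι] in
/-- Adding a non-degenerate pair of the complement keeps the subspace split. -/
theorem splits_pair2 (Q : QuadraticForm F (ι → F)) (S : Submodule F (ι → F)) (hS : Splits Q S)
    (u v : ι → F) (huS : u ∈ perp Q S) (hvS : v ∈ perp Q S)
    (huu : QuadraticMap.polar ⇑Q u u = 0) (hvv : QuadraticMap.polar ⇑Q v v = 0)
    (huv : QuadraticMap.polar ⇑Q u v = 1) : Splits Q (S ⊔ Submodule.span F {u, v}) := by
  intro x
  obtain ⟨s, hs, hxs⟩ := hS x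
  obtain ⟨y, hy⟩ : ∃ y, y = x + s := ⟨_, rfl⟩
  rw [← hy] at hxs
  have htspan : -(QuadraticMap.polar ⇑Q y v) • u + -(QuadraticMap.polar ⇑Q y u) • v
      ∈ Submodule.span F {u, v} := Submodule.mem_span_pair.2 ⟨_, _, rfl⟩
  refine ⟨s + (-(QuadraticMap.polar ⇑Q y v) • u + -(QuadraticMap.polar ⇑Q y u) • v),
    Submodule.add_mem _ (Submodule.mem_sup_left hs) (Submodule.mem_sup_right htspan), ?_⟩
  rw [← add_assoc, ← hy, mem_perp_pair]
  refine ⟨(perp Q S).add_mem hxs ((perp Q S).add_mem ((perp Q S).smul_mem _ huS)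
    ((perp Q S).smul_mem _ hvS)), ?_, ?_⟩
  · rw [QuadraticMap.polar_add_left, QuadraticMap.polar_add_left, QuadraticMap.polar_smul_left,
      QuadraticMap.polar_smul_left, huu, QuadraticMap.polar_comm ⇑Q v u, huv]
    simp
  · rw [QuadraticMap.polar_add_left, QuadraticMap.polar_add_left, QuadraticMap.polar_smul_left,
      QuadraticMap.polar_smul_left, hvv, huv]
    simp

omit [Fintype F] [Fintype ι] [DecidableEq ι] in
/-- The polar form is preserved by a linear map preserving the form on a subspace. -/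
theorem polar_of_Q (Q : QuadraticForm F (ι → F)) (U : Submodule F (ι → F))
    (σ : (ι → F) →ₗ[F] (ι → F)) (hσ : ∀ x ∈ U, Q (σ x) = Q x) (x y : ι → F) (hx : x ∈ U)
    (hy : y ∈ U) : QuadraticMap.polar ⇑Q (σ x) (σ y) = QuadraticMap.polar ⇑Q x y := by
  unfold QuadraticMap.polar
  rw [← map_add, hσ _ (U.add_mem hx hy), hσ x hx, hσ y hy]

omit [Fintype F] [Fintype ι] [DecidableEq ι] in
/-- A non-singular vector in a non-zero subspace on which the polar form is non-degenerate. -/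
theorem exists_nonsing_in (Q : QuadraticForm F (ι → F)) (U : Submodule F (ι → F))
    (hUnd : ∀ x ∈ U, (∀ y ∈ U, QuadraticMap.polar ⇑Q x y = 0) → x = 0) (hUne : U ≠ ⊥) :
    ∃ u ∈ U, Q u ≠ 0 := by
  obtain ⟨y, hyU, hy0⟩ := Submodule.exists_mem_ne_zero_of_ne_bot hUne
  by_cases hQy : Q y ≠ 0
  · exact ⟨y, hyU, hQy⟩
  rw [not_not] at hQy
  have hex : ∃ x ∈ U, QuadraticMap.polar ⇑Q y x ≠ 0 := by
    by_contra hno
    exact hy0 (hUnd y hyU (fun x hx => by
      by_contra h
      exact hno ⟨x, hx, h⟩))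
  obtain ⟨x, hxU, hx⟩ := hex
  by_cases hQx : Q x ≠ 0
  · exact ⟨x, hxU, hQx⟩
  rw [not_not] at hQx
  refine ⟨y + x, U.add_mem hyU hxU, ?_⟩
  rw [QuadraticMap.map_add ⇑Q, hQy, hQx, zero_add, zero_add]
  exact hx

section CharTwo

variable [CharP F 2]

/-- Witt's theorem for non-singular vectors of the complement of a split subspace, in
characteristic two: a product of reflections fixing `S` pointwise carries `u` to `v`. -/
theorem move_fix (Q : QuadraticForm F (ι → F))
    (hnd : ∀ x, (∀ y, QuadraticMap.polar ⇑Q x y = 0) → x = 0) (S : Submodule F (ι → F))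
    (hS : Splits Q S) (hcase : Fintype.card F ≠ 2 ∨ Fintype.card ι ≠ 4 ∨ S ≠ ⊥)
    (u v : ι → F) (huS : u ∈ perp Q S) (hvS : v ∈ perp Q S) (hQu : Q u = Q v) (hQv : Q v ≠ 0) :
    ∃ vs : List (ι → F), (∀ y ∈ vs, Q y ≠ 0) ∧
      (∀ s ∈ S, act Q (prodRefl Q vs) s = s) ∧ act Q (prodRefl Q vs) u = v := by
  classical
  have hQu0 : Q u ≠ 0 := by rw [hQu]; exact hQv
  have hu0 : u ≠ 0 := by
    rintro rfl
    rw [map_zero] at hQu
    exact hQv hQu.symm
  have hv0 : v ≠ 0 := by
    rintro rfl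
    exact hQv (map_zero Q)
  have hSu : ∀ s ∈ S, QuadraticMap.polar ⇑Q s u = 0 := fun s hs => by
    rw [QuadraticMap.polar_comm]; exact huS s hs
  have hSv : ∀ s ∈ S, QuadraticMap.polar ⇑Q s v = 0 := fun s hs => by
    rw [QuadraticMap.polar_comm]; exact hvS s hs
  by_cases huv : u = v
  · exact ⟨[], by simp, fun s _ => act_nil Q s, by rw [act_nil, huv]⟩
  by_cases hB : QuadraticMap.polar ⇑Q u v ≠ 0
  · obtain ⟨h1, h2, h3⟩ := move_b Q u v hQu hB
    refine ⟨[u + v], ?_, ?_, ?_⟩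
    · intro y hy
      rw [List.mem_singleton] at hy
      rw [hy]
      exact h1
    · intro s hs
      rw [act_cons, act_nil]
      exact h3 s (by rw [hSu s hs, hSv s hs])
    · rw [act_cons, act_nil]
      exact h2
  rw [not_not] at hB
  obtain ⟨z₀, hz₀S, hα, hβ⟩ := exists_z0 Q hnd S hS u v huS hvS hu0 hv0
  by_cases hA : ∃ z ∈ perp Q S, Q z ≠ 0 ∧ QuadraticMap.polar ⇑Q z u ≠ 0 ∧
      QuadraticMap.polar ⇑Q z v ≠ 0
  · obtain ⟨z, hzS, hQz, hzu, hzv⟩ := hA
    obtain ⟨d, hd, h2, h3⟩ := move_c Q u v z hQu hB hQz hzu hzv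
    refine ⟨[d, z], ?_, ?_, ?_⟩
    · intro y hy
      rw [List.mem_cons, List.mem_singleton] at hy
      rcases hy with rfl | rfl
      · exact hd
      · exact hQz
    · intro s hs
      rw [act_cons, act_cons, act_nil]
      exact h3 s (by rw [QuadraticMap.polar_comm]; exact hzS s hs) (by rw [hSu s hs, hSv s hs])
    · rw [act_cons, act_cons, act_nil]
      exact h2
  have hQz0 : Q z₀ = 0 := by
    by_contra h
    exact hA ⟨z₀, hz₀S, h, hα, hβ⟩
  have hF2 : Fintype.card F = 2 := by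
    by_contra hF
    obtain ⟨c, hc⟩ := exists_c Q hF u z₀ hQu0
    apply hA
    refine ⟨z₀ + c • u, (perp Q S).add_mem hz₀S ((perp Q S).smul_mem c huS), hc, ?_, ?_⟩
    · rw [QuadraticMap.polar_add_left, QuadraticMap.polar_smul_left, polar_self0, smul_zero,
        add_zero]
      exact hα
    · rw [QuadraticMap.polar_add_left, QuadraticMap.polar_smul_left, hB, smul_zero, add_zero]
      exact hβ
  have hSne : S ≠ ⊥ := by
    intro hSb
    have hcard : Fintype.card ι ≠ 4 := by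
      rcases hcase with h | h | h
      · exact absurd hF2 h
      · exact h
      · exact absurd hSb h
    obtain ⟨z, hz, hzu, hzv⟩ := exists_z_bot Q hnd hcard u v z₀ huv hQu hQu0 hB hα hβ hQz0
    apply hA
    refine ⟨z, ?_, hz, hzu, hzv⟩
    intro s hs
    rw [hSb, Submodule.mem_bot] at hs
    rw [hs, QuadraticMap.polar_comm, polar_zero_left]
  obtain ⟨a, haS, wa, hwaS, hQa, hawa⟩ := exists_pair_in Q hnd S hS hSne
  have hz₀a : QuadraticMap.polar ⇑Q z₀ a = 0 := hz₀S a haS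
  have hQz : Q (z₀ + a) ≠ 0 := by
    rw [QuadraticMap.map_add ⇑Q, hQz0, hz₀a, zero_add, add_zero]
    exact hQa
  have hzu : QuadraticMap.polar ⇑Q (z₀ + a) u ≠ 0 := by
    rw [QuadraticMap.polar_add_left, hSu a haS, add_zero]
    exact hα
  have hzv : QuadraticMap.polar ⇑Q (z₀ + a) v ≠ 0 := by
    rw [QuadraticMap.polar_add_left, hSv a haS, add_zero]
    exact hβ
  obtain ⟨d, hd, h2, h3⟩ := move_c Q u v (z₀ + a) hQu hB hQz hzu hzv
  obtain ⟨g₁, hg₁def⟩ : ∃ g₁, g₁ = prodRefl Q [d, z₀ + a] := ⟨_, rfl⟩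
  have hg₁ : ∀ x, act Q g₁ x
      = act Q (reflO Q d) (act Q (reflO Q (z₀ + a)) x) := by
    intro x
    rw [hg₁def, act_cons, act_cons, act_nil]
  have hg₁u : act Q g₁ u = v := by
    rw [hg₁]
    exact h2
  have hg₁s : ∀ s ∈ S, QuadraticMap.polar ⇑Q s a = 0 → act Q g₁ s = s := by
    intro s hs hsa
    rw [hg₁]
    apply h3
    · rw [QuadraticMap.polar_add_right, QuadraticMap.polar_comm ⇑Q s z₀, hz₀S s hs, hsa,
        add_zero]
    · rw [hSu s hs, hSv s hs]
  have hg₁a : act Q g₁ a = a := hg₁s a haS (polar_self0 Q a)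
  obtain ⟨vs₂, hvs₂, hp1, hp2, hp3⟩ := partner Q a wa (act Q g₁ wa) hQa (act_Q Q g₁ wa) (by
      have h := act_polar Q g₁ a wa
      rw [hg₁a] at h
      exact h) (by rw [hawa]; exact one_ne_zero)
  have hg₂ : ∀ x, act Q (prodRefl Q (vs₂ ++ [d, z₀ + a])) x
      = act Q (prodRefl Q vs₂) (act Q g₁ x) := by
    intro x
    rw [prodRefl_append, ← hg₁def, act_mul]
  refine ⟨vs₂ ++ [d, z₀ + a], ?_, ?_, ?_⟩
  · intro y hy
    rw [List.mem_append] at hy
    rcases hy with hy | hy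
    · exact hvs₂ y hy
    · rw [List.mem_cons, List.mem_singleton] at hy
      rcases hy with rfl | rfl
      · exact hd
      · exact hQz
  · intro s hs
    rw [hg₂]
    obtain ⟨s', hs'def⟩ : ∃ s', s' = s + (QuadraticMap.polar ⇑Q s a • wa
        + QuadraticMap.polar ⇑Q s wa • a) := ⟨_, rfl⟩
    have hs'S : s' ∈ S := by
      rw [hs'def]
      exact S.add_mem hs (S.add_mem (S.smul_mem _ hwaS) (S.smul_mem _ haS))
    have hs'a : QuadraticMap.polar ⇑Q s' a = 0 := by
      rw [hs'def, QuadraticMap.polar_add_left, QuadraticMap.polar_add_left,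
        QuadraticMap.polar_smul_left, QuadraticMap.polar_smul_left, polar_self0, smul_zero,
        add_zero, QuadraticMap.polar_comm ⇑Q wa a, hawa, smul_eq_mul, mul_one]
      exact CharTwo.add_self_eq_zero _
    have hs'fix : act Q (prodRefl Q vs₂) (act Q g₁ s') = s' := by
      rw [hg₁s s' hs'S hs'a]
      apply hp3 s' hs'a
      have h := act_polar Q g₁ s' wa
      rw [hg₁s s' hs'S hs'a] at h
      exact h
    have hsdec : s = s' + (QuadraticMap.polar ⇑Q s a • wa + QuadraticMap.polar ⇑Q s wa • a) := by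
      rw [hs'def, add_assoc, vec_add_self, add_zero]
    have ha_fix : act Q (prodRefl Q vs₂) (act Q g₁ a) = a := by
      rw [hg₁a]
      exact hp2
    conv_lhs => rw [hsdec]
    simp only [map_add, map_smul]
    rw [hs'fix, hp1, ha_fix]
    exact hsdec.symm
  · rw [hg₂, hg₁u]
    apply hp3 v (hvS a haS)
    have h := act_polar Q g₁ u wa
    rw [hg₁u] at h
    rw [h, huS wa hwaS, hvS wa hwaS]

/-- **Witt's extension theorem** in characteristic two, inductive form: a form-preserving linear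
map on a non-degenerate subspace of the complement of a split subspace `S` is inverted by a
product of reflections fixing `S` pointwise. -/
theorem witt_nondeg2 (Q : QuadraticForm F (ι → F))
    (hnd : ∀ x, (∀ y, QuadraticMap.polar ⇑Q x y = 0) → x = 0) :
    ∀ (d : ℕ) (S U : Submodule F (ι → F)) (σ : (ι → F) →ₗ[F] (ι → F)), Splits Q S →
      (Fintype.card F ≠ 2 ∨ Fintype.card ι ≠ 4 ∨ S ≠ ⊥) → U ≤ perp Q S →
      (∀ x ∈ U, σ x ∈ perp Q S) →
      (∀ x ∈ U, (∀ y ∈ U, QuadraticMap.polar ⇑Q x y = 0) → x = 0) →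
      (∀ x ∈ U, Q (σ x) = Q x) → finrank F ↥U ≤ d →
      ∃ vs : List (ι → F), (∀ y ∈ vs, Q y ≠ 0) ∧ (∀ s ∈ S, act Q (prodRefl Q vs) s = s) ∧
        ∀ x ∈ U, act Q (prodRefl Q vs) (σ x) = x := by
  classical
  intro d
  induction d with
  | zero =>
    intro S U σ _ _ _ _ _ _ hrank
    have hU' : U = ⊥ := Submodule.finrank_eq_zero.1 (by omega)
    refine ⟨[], by simp, fun s _ => act_nil Q s, ?_⟩
    intro x hx
    rw [hU', Submodule.mem_bot] at hx
    rw [hx, map_zero, map_zero]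
  | succ d ih =>
    intro S U σ hS hcase hUS hσS hUnd hσ hrank
    by_cases hUne : U = ⊥
    · refine ⟨[], by simp, fun s _ => act_nil Q s, ?_⟩
      intro x hx
      rw [hUne, Submodule.mem_bot] at hx
      rw [hx, map_zero, map_zero]
    obtain ⟨u, huU, hQu⟩ := exists_nonsing_in Q U hUnd hUne
    have hu0 : u ≠ 0 := by
      rintro rfl
      exact hQu (map_zero Q)
    have hex : ∃ y ∈ U, QuadraticMap.polar ⇑Q u y ≠ 0 := by
      by_contra hno
      exact hu0 (hUnd u huU (fun y hy => by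
        by_contra h
        exact hno ⟨y, hy, h⟩))
    obtain ⟨y₀, hy₀U, hy₀⟩ := hex
    obtain ⟨u', hu'def⟩ : ∃ u', u' = (QuadraticMap.polar ⇑Q u y₀)⁻¹ • y₀ := ⟨_, rfl⟩
    have hu'U : u' ∈ U := by
      rw [hu'def]
      exact U.smul_mem _ hy₀U
    have huu' : QuadraticMap.polar ⇑Q u u' = 1 := by
      rw [hu'def, QuadraticMap.polar_smul_right, smul_eq_mul, inv_mul_cancel₀ hy₀]
    have hσpol := polar_of_Q Q U σ hσ
    -- Step A: bring `σ u` back to `u`
    obtain ⟨vs₁, hvs₁, hfix₁, hmove₁⟩ := move_fix Q hnd S hS hcase (σ u) u (hσS u huU)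
      (hUS huU) (hσ u huU) hQu
    -- Step B: bring the partner back
    obtain ⟨w', hw'def⟩ : ∃ w', w' = act Q (prodRefl Q vs₁) (σ u') := ⟨_, rfl⟩
    have hw'S : w' ∈ perp Q S := by
      intro s hs
      rw [hw'def]
      have h := act_polar Q (prodRefl Q vs₁) (σ u') s
      rw [hfix₁ s hs] at h
      rw [h]
      exact hσS u' hu'U s hs
    have hQw' : Q w' = Q u' := by rw [hw'def, act_Q, hσ u' hu'U]
    have huw' : QuadraticMap.polar ⇑Q u w' = QuadraticMap.polar ⇑Q u u' := by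
      rw [hw'def]
      have h := act_polar Q (prodRefl Q vs₁) (σ u) (σ u')
      rw [hmove₁] at h
      rw [h, hσpol u u' huU hu'U]
    obtain ⟨vs₂, hvs₂, hp1, hp2, hp3⟩ := partner Q u u' w' hQu hQw' huw'
      (by rw [huu']; exact one_ne_zero)
    have hfix₂ : ∀ s ∈ S, act Q (prodRefl Q vs₂) s = s := by
      intro s hs
      apply hp3 s
      · rw [QuadraticMap.polar_comm]
        exact hUS huU s hs
      · rw [QuadraticMap.polar_comm ⇑Q s w', QuadraticMap.polar_comm ⇑Q s u', hw'S s hs,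
          hUS hu'U s hs]
    -- the combined isometry
    obtain ⟨G, hGdef⟩ : ∃ G, G = prodRefl Q (vs₂ ++ vs₁) := ⟨_, rfl⟩
    have hGact : ∀ x, act Q G x = act Q (prodRefl Q vs₂) (act Q (prodRefl Q vs₁) x) := by
      intro x
      rw [hGdef, prodRefl_append, act_mul]
    have hGfix : ∀ s ∈ S, act Q G s = s := by
      intro s hs
      rw [hGact, hfix₁ s hs, hfix₂ s hs]
    have hGu : act Q G (σ u) = u := by rw [hGact, hmove₁, hp2]
    have hGu' : act Q G (σ u') = u' := by rw [hGact, ← hw'def, hp1]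
    obtain ⟨τ, hτdef⟩ : ∃ τ : (ι → F) →ₗ[F] (ι → F), τ = (act Q G) ∘ₗ σ := ⟨_, rfl⟩
    have hτ : ∀ x, τ x = act Q G (σ x) := by
      intro x
      rw [hτdef]
      rfl
    have hτpol : ∀ x ∈ U, ∀ y ∈ U,
        QuadraticMap.polar ⇑Q (τ x) (τ y) = QuadraticMap.polar ⇑Q x y := by
      intro x hx y hy
      rw [hτ, hτ, act_polar, hσpol x y hx hy]
    -- the new data
    obtain ⟨φ, hφ⟩ : ∃ φ : (ι → F) →ₗ[F] F, ∀ x, φ x = QuadraticMap.polar ⇑Q u x :=
      ⟨QuadraticMap.polarBilin Q u, fun x => rfl⟩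
    obtain ⟨φ', hφ'⟩ : ∃ φ' : (ι → F) →ₗ[F] F, ∀ x, φ' x = QuadraticMap.polar ⇑Q u' x :=
      ⟨QuadraticMap.polarBilin Q u', fun x => rfl⟩
    have hS' := splits_pair2 Q S hS u u' (hUS huU) (hUS hu'U) (polar_self0 Q u)
      (polar_self0 Q u') huu'
    have hcase' : Fintype.card F ≠ 2 ∨ Fintype.card ι ≠ 4 ∨ S ⊔ Submodule.span F {u, u'} ≠ ⊥ := by
      right
      right
      intro hb
      have hmem : u ∈ S ⊔ Submodule.span F {u, u'} :=
        Submodule.mem_sup_right (Submodule.subset_span (by simp))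
      rw [hb, Submodule.mem_bot] at hmem
      exact hu0 hmem
    have hU₁mem : ∀ x, x ∈ U ⊓ LinearMap.ker φ ⊓ LinearMap.ker φ' ↔
        x ∈ U ∧ QuadraticMap.polar ⇑Q u x = 0 ∧ QuadraticMap.polar ⇑Q u' x = 0 := by
      intro x
      simp only [Submodule.mem_inf, LinearMap.mem_ker, hφ, hφ']
      tauto
    have hU₁S : U ⊓ LinearMap.ker φ ⊓ LinearMap.ker φ' ≤ perp Q (S ⊔ Submodule.span F {u, u'}) := by
      intro x hx
      obtain ⟨hxU, hxu, hxu'⟩ := (hU₁mem x).1 hx
      rw [mem_perp_pair]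
      refine ⟨hUS hxU, ?_, ?_⟩
      · rw [QuadraticMap.polar_comm]; exact hxu
      · rw [QuadraticMap.polar_comm]; exact hxu'
    have hτS : ∀ x ∈ U ⊓ LinearMap.ker φ ⊓ LinearMap.ker φ',
        τ x ∈ perp Q (S ⊔ Submodule.span F {u, u'}) := by
      intro x hx
      obtain ⟨hxU, hxu, hxu'⟩ := (hU₁mem x).1 hx
      rw [mem_perp_pair]
      refine ⟨?_, ?_, ?_⟩
      · intro s hs
        rw [hτ]
        have h := act_polar Q G (σ x) s
        rw [hGfix s hs] at h
        rw [h]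
        exact hσS x hxU s hs
      · have h := hτpol x hxU u huU
        rw [hτ u, hGu] at h
        rw [h, QuadraticMap.polar_comm]
        exact hxu
      · have h := hτpol x hxU u' hu'U
        rw [hτ u', hGu'] at h
        rw [h, QuadraticMap.polar_comm]
        exact hxu'
    have hdecomp : ∀ y ∈ U, y + (QuadraticMap.polar ⇑Q u' y • u + QuadraticMap.polar ⇑Q u y • u')
        ∈ U ⊓ LinearMap.ker φ ⊓ LinearMap.ker φ' := by
      intro y hy
      rw [hU₁mem]
      refine ⟨U.add_mem hy (U.add_mem (U.smul_mem _ huU) (U.smul_mem _ hu'U)), ?_, ?_⟩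
      · rw [QuadraticMap.polar_add_right, QuadraticMap.polar_add_right,
          QuadraticMap.polar_smul_right, QuadraticMap.polar_smul_right, polar_self0, huu',
          smul_zero, zero_add, smul_eq_mul, mul_one]
        exact CharTwo.add_self_eq_zero _
      · rw [QuadraticMap.polar_add_right, QuadraticMap.polar_add_right,
          QuadraticMap.polar_smul_right, QuadraticMap.polar_smul_right, polar_self0,
          QuadraticMap.polar_comm ⇑Q u' u, huu', smul_zero, add_zero, smul_eq_mul, mul_one]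
        exact CharTwo.add_self_eq_zero _
    have hU₁nd : ∀ x ∈ U ⊓ LinearMap.ker φ ⊓ LinearMap.ker φ',
        (∀ y ∈ U ⊓ LinearMap.ker φ ⊓ LinearMap.ker φ', QuadraticMap.polar ⇑Q x y = 0) → x = 0 := by
      intro x hx hxy
      obtain ⟨hxU, hxu, hxu'⟩ := (hU₁mem x).1 hx
      apply hUnd x hxU
      intro y hy
      have h := hxy _ (hdecomp y hy)
      rw [QuadraticMap.polar_add_right, QuadraticMap.polar_add_right,
        QuadraticMap.polar_smul_right, QuadraticMap.polar_smul_right,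
        QuadraticMap.polar_comm ⇑Q x u, QuadraticMap.polar_comm ⇑Q x u', hxu, hxu', smul_zero,
        smul_zero, add_zero, add_zero] at h
      exact h
    have hU₁rank : finrank F ↥(U ⊓ LinearMap.ker φ ⊓ LinearMap.ker φ') ≤ d := by
      have h := finrank_inf_ker φ U
      rw [if_neg (fun hle => by
        have h1 := hle hu'U
        rw [LinearMap.mem_ker, hφ, huu'] at h1
        exact one_ne_zero h1)] at h
      have h2 := Submodule.finrank_mono
        (inf_le_left : U ⊓ LinearMap.ker φ ⊓ LinearMap.ker φ' ≤ U ⊓ LinearMap.ker φ)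
      omega
    obtain ⟨vs₃, hvs₃, hfix₃, hinv₃⟩ := ih (S ⊔ Submodule.span F {u, u'})
      (U ⊓ LinearMap.ker φ ⊓ LinearMap.ker φ') τ hS' hcase' hU₁S hτS hU₁nd
      (fun x hx => by rw [hτ, act_Q]; exact hσ x ((hU₁mem x).1 hx).1) hU₁rank
    have hu3 : act Q (prodRefl Q vs₃) u = u :=
      hfix₃ u (Submodule.mem_sup_right (Submodule.subset_span (by simp)))
    have hu3' : act Q (prodRefl Q vs₃) u' = u' :=
      hfix₃ u' (Submodule.mem_sup_right (Submodule.subset_span (by simp)))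
    refine ⟨vs₃ ++ (vs₂ ++ vs₁), ?_, ?_, ?_⟩
    · intro y hy
      rw [List.mem_append, List.mem_append] at hy
      rcases hy with hy | hy | hy
      · exact hvs₃ y hy
      · exact hvs₂ y hy
      · exact hvs₁ y hy
    · intro s hs
      rw [prodRefl_append, act_mul, ← hGdef, hGfix s hs]
      exact hfix₃ s (Submodule.mem_sup_left hs)
    · intro x hx
      rw [prodRefl_append, act_mul, ← hGdef, ← hτ]
      obtain ⟨x₁, hx₁def⟩ : ∃ x₁, x₁ = x + (QuadraticMap.polar ⇑Q u' x • u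
          + QuadraticMap.polar ⇑Q u x • u') := ⟨_, rfl⟩
      have hx₁ : x₁ ∈ U ⊓ LinearMap.ker φ ⊓ LinearMap.ker φ' := by
        rw [hx₁def]
        exact hdecomp x hx
      have hxdec : x = x₁ + (QuadraticMap.polar ⇑Q u' x • u + QuadraticMap.polar ⇑Q u x • u') := by
        rw [hx₁def, add_assoc, vec_add_self, add_zero]
      have hτx : τ x = τ x₁ + (QuadraticMap.polar ⇑Q u' x • u + QuadraticMap.polar ⇑Q u x • u') := by
        conv_lhs => rw [hxdec]
        rw [map_add, map_add, map_smul, map_smul, hτ u, hτ u', hGu, hGu']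
      rw [hτx, map_add, map_add, map_smul, map_smul, hinv₃ x₁ hx₁, hu3, hu3']
      exact hxdec.symm

/-- **Witt's extension theorem** for non-degenerate subspaces in characteristic two. -/
theorem witt2 (Q : QuadraticForm F (ι → F))
    (hnd : ∀ x, (∀ y, QuadraticMap.polar ⇑Q x y = 0) → x = 0)
    (h : Fintype.card F ≠ 2 ∨ Fintype.card ι ≠ 4) (U : Submodule F (ι → F))
    (hUnd : ∀ x ∈ U, (∀ y ∈ U, QuadraticMap.polar ⇑Q x y = 0) → x = 0)
    (σ : (ι → F) →ₗ[F] (ι → F)) (hσ : ∀ x ∈ U, Q (σ x) = Q x) :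
    ∃ g : ↥(Cfsg.isometryGroup F ⇑Q), ∀ x ∈ U, act Q g x = σ x := by
  have hcase : Fintype.card F ≠ 2 ∨ Fintype.card ι ≠ 4 ∨ (⊥ : Submodule F (ι → F)) ≠ ⊥ := by
    rcases h with h | h
    · exact Or.inl h
    · exact Or.inr (Or.inl h)
  obtain ⟨vs, -, -, hinv⟩ := witt_nondeg2 Q hnd (finrank F ↥U) ⊥ U σ (splits_bot Q) hcase
    (fun x _ => mem_perp_bot Q x) (fun x _ => mem_perp_bot Q (σ x)) hUnd hσ le_rfl
  refine ⟨(prodRefl Q vs)⁻¹, fun x hx => ?_⟩
  conv_lhs => rw [← hinv x hx]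
  exact act_inv_act Q _ _

end CharTwo

/-! ### Odd characteristic -/

theorem prodRefl_fix (Q : QuadraticForm F (ι → F)) (ws : List (ι → F)) (x : ι → F)
    (h : ∀ z ∈ ws, QuadraticMap.polar ⇑Q z x = 0) : act Q (prodRefl Q ws) x = x := by
  induction ws with
  | nil => exact act_nil Q x
  | cons z ws ih =>
    rw [act_cons, ih (fun w hw => h w (List.mem_cons_of_mem _ hw))]
    exact act_reflO_fix Q z x (h z (List.mem_cons_self ..))

omit [Fintype F] [Fintype ι] [DecidableEq ι] in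
theorem mem_perp_single (Q : QuadraticForm F (ι → F)) (S : Submodule F (ι → F)) (a x : ι → F) :
    x ∈ perp Q (S ⊔ Submodule.span F {a})
      ↔ x ∈ perp Q S ∧ QuadraticMap.polar ⇑Q x a = 0 := by
  constructor
  · intro h
    exact ⟨fun s hs => h s (Submodule.mem_sup_left hs),
      h a (Submodule.mem_sup_right (Submodule.subset_span (by simp)))⟩
  · rintro ⟨h1, h2⟩ t ht
    obtain ⟨s, hs, p, hp, rfl⟩ := Submodule.mem_sup.1 ht
    obtain ⟨c, rfl⟩ := Submodule.mem_span_singleton.1 hp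
    rw [QuadraticMap.polar_add_right, QuadraticMap.polar_smul_right, h1 s hs, h2]
    simp

omit [Fintype F] [Fintype ι] [DecidableEq ι] in
/-- Splitting off an anisotropic vector of a non-degenerate subspace. -/
theorem split_aniso (Q : QuadraticForm F (ι → F)) (M : Submodule F (ι → F))
    (hMnd : ∀ x ∈ M, (∀ y ∈ M, QuadraticMap.polar ⇑Q x y = 0) → x = 0) (a : ι → F)
    (haM : a ∈ M) (haa : QuadraticMap.polar ⇑Q a a ≠ 0) (φ : (ι → F) →ₗ[F] F)
    (hφ : ∀ x, φ x = QuadraticMap.polar ⇑Q a x) :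
    (∀ y ∈ M, y - (QuadraticMap.polar ⇑Q a y * (QuadraticMap.polar ⇑Q a a)⁻¹) • a
        ∈ M ⊓ LinearMap.ker φ) ∧
      ∀ x ∈ M ⊓ LinearMap.ker φ,
        (∀ y ∈ M ⊓ LinearMap.ker φ, QuadraticMap.polar ⇑Q x y = 0) → x = 0 := by
  have hdec : ∀ y ∈ M, y - (QuadraticMap.polar ⇑Q a y * (QuadraticMap.polar ⇑Q a a)⁻¹) • a
      ∈ M ⊓ LinearMap.ker φ := by
    intro y hy
    refine ⟨M.sub_mem hy (M.smul_mem _ haM), LinearMap.mem_ker.2 ?_⟩
    rw [hφ, QuadraticMap.polar_sub_right, QuadraticMap.polar_smul_right, smul_eq_mul, mul_assoc,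
      inv_mul_cancel₀ haa, mul_one, sub_self]
  refine ⟨hdec, ?_⟩
  rintro x ⟨hxM, hxa⟩ hxy
  have hxa' : QuadraticMap.polar ⇑Q x a = 0 := by
    rw [QuadraticMap.polar_comm, ← hφ]
    exact hxa
  apply hMnd x hxM
  intro y hy
  have h := hxy _ (hdec y hy)
  rw [QuadraticMap.polar_sub_right, QuadraticMap.polar_smul_right, hxa', smul_zero, sub_zero] at h
  exact h

/-- **Witt's extension theorem** in odd characteristic, inductive form. -/
theorem witt_nondeg_odd (h2 : (2 : F) ≠ 0) (Q : QuadraticForm F (ι → F)) :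
    ∀ (d : ℕ) (S U : Submodule F (ι → F)) (σ : (ι → F) →ₗ[F] (ι → F)), U ≤ perp Q S →
      (∀ x ∈ U, σ x ∈ perp Q S) →
      (∀ x ∈ U, (∀ y ∈ U, QuadraticMap.polar ⇑Q x y = 0) → x = 0) →
      (∀ x ∈ U, Q (σ x) = Q x) → finrank F ↥U ≤ d →
      ∃ vs : List (ι → F), (∀ y ∈ vs, Q y ≠ 0) ∧ (∀ s ∈ S, act Q (prodRefl Q vs) s = s) ∧
        ∀ x ∈ U, act Q (prodRefl Q vs) (σ x) = x := by
  classical
  intro d
  induction d with
  | zero =>
    intro S U σ _ _ _ _ hrank
    have hU' : U = ⊥ := Submodule.finrank_eq_zero.1 (by omega)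
    refine ⟨[], by simp, fun s _ => act_nil Q s, ?_⟩
    intro x hx
    rw [hU', Submodule.mem_bot] at hx
    rw [hx, map_zero, map_zero]
  | succ d ih =>
    intro S U σ hUS hσS hUnd hσ hrank
    by_cases hUne : U = ⊥
    · refine ⟨[], by simp, fun s _ => act_nil Q s, ?_⟩
      intro x hx
      rw [hUne, Submodule.mem_bot] at hx
      rw [hx, map_zero, map_zero]
    obtain ⟨u, huU, hQu⟩ := exists_nonsing_in Q U hUnd hUne
    have huu : QuadraticMap.polar ⇑Q u u ≠ 0 := by
      rw [QuadraticMap.polar_self, two_nsmul, ← two_mul]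
      exact mul_ne_zero h2 hQu
    have hσpol := polar_of_Q Q U σ hσ
    obtain ⟨ws, hws, hperp, hmv⟩ := Cfsg.Agent.Lib.Helper15.CartanD.move h2 Q (σ u) u
      (by rw [hσ u huU]; exact hQu) (hσ u huU)
    obtain ⟨G, hGdef⟩ : ∃ G, G = prodRefl Q ws := ⟨_, rfl⟩
    have hGu : act Q G (σ u) = u := by
      rw [hGdef, act_apply, coe_prodRefl Q ws hws]
      exact hmv
    have hGfix : ∀ s ∈ S, act Q G s = s := by
      intro s hs
      rw [hGdef]
      exact prodRefl_fix Q ws s (fun z hz => hperp z hz s (hσS u huU s hs) (hUS huU s hs))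
    obtain ⟨τ, hτdef⟩ : ∃ τ : (ι → F) →ₗ[F] (ι → F), τ = (act Q G) ∘ₗ σ := ⟨_, rfl⟩
    have hτ : ∀ x, τ x = act Q G (σ x) := by
      intro x
      rw [hτdef]
      rfl
    have hτpol : ∀ x ∈ U, ∀ y ∈ U,
        QuadraticMap.polar ⇑Q (τ x) (τ y) = QuadraticMap.polar ⇑Q x y := by
      intro x hx y hy
      rw [hτ, hτ, act_polar, hσpol x y hx hy]
    obtain ⟨φ, hφ⟩ : ∃ φ : (ι → F) →ₗ[F] F, ∀ x, φ x = QuadraticMap.polar ⇑Q u x :=
      ⟨QuadraticMap.polarBilin Q u, fun x => rfl⟩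
    obtain ⟨hdecomp, hU₁nd⟩ := split_aniso Q U hUnd u huU huu φ hφ
    have hU₁S : U ⊓ LinearMap.ker φ ≤ perp Q (S ⊔ Submodule.span F {u}) := by
      rintro x ⟨hxU, hxu⟩
      rw [mem_perp_single]
      refine ⟨hUS hxU, ?_⟩
      rw [QuadraticMap.polar_comm, ← hφ]
      exact hxu
    have hτS : ∀ x ∈ U ⊓ LinearMap.ker φ, τ x ∈ perp Q (S ⊔ Submodule.span F {u}) := by
      rintro x ⟨hxU, hxu⟩
      rw [mem_perp_single]
      refine ⟨?_, ?_⟩
      · intro s hs
        rw [hτ]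
        have h := act_polar Q G (σ x) s
        rw [hGfix s hs] at h
        rw [h]
        exact hσS x hxU s hs
      · have h := hτpol x hxU u huU
        rw [hτ u, hGu] at h
        rw [h, QuadraticMap.polar_comm, ← hφ]
        exact hxu
    have hU₁rank : finrank F ↥(U ⊓ LinearMap.ker φ) ≤ d := by
      have h := finrank_inf_ker φ U
      rw [if_neg (fun hle => by
        have h1 := hle huU
        rw [LinearMap.mem_ker, hφ] at h1
        exact huu h1)] at h
      omega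
    obtain ⟨vs₃, hvs₃, hfix₃, hinv₃⟩ := ih (S ⊔ Submodule.span F {u}) (U ⊓ LinearMap.ker φ) τ
      hU₁S hτS hU₁nd (fun x hx => by rw [hτ, act_Q]; exact hσ x hx.1) hU₁rank
    have hu3 : act Q (prodRefl Q vs₃) u = u :=
      hfix₃ u (Submodule.mem_sup_right (Submodule.subset_span (by simp)))
    refine ⟨vs₃ ++ ws, ?_, ?_, ?_⟩
    · intro y hy
      rw [List.mem_append] at hy
      rcases hy with hy | hy
      · exact hvs₃ y hy
      · exact hws y hy
    · intro s hs
      rw [prodRefl_append, act_mul, ← hGdef, hGfix s hs]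
      exact hfix₃ s (Submodule.mem_sup_left hs)
    · intro x hx
      rw [prodRefl_append, act_mul, ← hGdef, ← hτ]
      obtain ⟨c, hcdef⟩ : ∃ c, c = QuadraticMap.polar ⇑Q u x * (QuadraticMap.polar ⇑Q u u)⁻¹ :=
        ⟨_, rfl⟩
      have hx₁ : x - c • u ∈ U ⊓ LinearMap.ker φ := by
        rw [hcdef]
        exact hdecomp x hx
      have hxdec : x = (x - c • u) + c • u := by abel
      have hτx : τ x = τ (x - c • u) + c • u := by
        conv_lhs => rw [hxdec]
        rw [map_add, map_smul, hτ u, hGu]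
      rw [hτx, map_add, map_smul, hinv₃ _ hx₁, hu3]
      exact hxdec.symm

/-- **Witt's extension theorem** for non-degenerate subspaces in odd characteristic. -/
theorem witt_odd (h2 : (2 : F) ≠ 0) (Q : QuadraticForm F (ι → F)) (U : Submodule F (ι → F))
    (hUnd : ∀ x ∈ U, (∀ y ∈ U, QuadraticMap.polar ⇑Q x y = 0) → x = 0)
    (σ : (ι → F) →ₗ[F] (ι → F)) (hσ : ∀ x ∈ U, Q (σ x) = Q x) :
    ∃ g : ↥(Cfsg.isometryGroup F ⇑Q), ∀ x ∈ U, act Q g x = σ x := by
  obtain ⟨vs, -, -, hinv⟩ := witt_nondeg_odd h2 Q (finrank F ↥U) ⊥ U σ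
    (fun x _ => mem_perp_bot Q x) (fun x _ => mem_perp_bot Q (σ x)) hUnd hσ le_rfl
  refine ⟨(prodRefl Q vs)⁻¹, fun x hx => ?_⟩
  conv_lhs => rw [← hinv x hx]
  exact act_inv_act Q _ _

/-- A non-degenerate subspace of dimension at least two represents every scalar (odd
characteristic). -/
theorem universal_in (h2 : (2 : F) ≠ 0) (Q : QuadraticForm F (ι → F)) (M : Submodule F (ι → F))
    (hMnd : ∀ x ∈ M, (∀ y ∈ M, QuadraticMap.polar ⇑Q x y = 0) → x = 0)
    (hrank : 2 ≤ finrank F ↥M) (c : F) : ∃ x ∈ M, Q x = c := by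
  classical
  have hMne : M ≠ ⊥ := by
    intro hb
    rw [hb, finrank_bot] at hrank
    omega
  obtain ⟨a, haM, hQa⟩ := exists_nonsing_in Q M hMnd hMne
  have haa : QuadraticMap.polar ⇑Q a a ≠ 0 := by
    rw [QuadraticMap.polar_self, two_nsmul, ← two_mul]
    exact mul_ne_zero h2 hQa
  obtain ⟨φ, hφ⟩ : ∃ φ : (ι → F) →ₗ[F] F, ∀ x, φ x = QuadraticMap.polar ⇑Q a x :=
    ⟨QuadraticMap.polarBilin Q a, fun x => rfl⟩
  obtain ⟨-, hM₁nd⟩ := split_aniso Q M hMnd a haM haa φ hφ
  have hM₁ne : M ⊓ LinearMap.ker φ ≠ ⊥ := by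
    intro hb
    have h := finrank_inf_ker φ M
    rw [hb, finrank_bot] at h
    split_ifs at h <;> omega
  obtain ⟨b, hbM, hQb⟩ := exists_nonsing_in Q _ hM₁nd hM₁ne
  have hab : QuadraticMap.polar ⇑Q a b = 0 := by
    rw [← hφ]
    exact hbM.2
  have hcard : Fintype.card F % 2 = 1 := FiniteField.odd_card_of_char_ne_two (ringChar_ne_two h2)
  obtain ⟨x, y, hxy⟩ := FiniteField.exists_root_sum_quadratic
    (f := Polynomial.C (Q a) * Polynomial.X ^ 2 + Polynomial.C 0 * Polynomial.X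
      + Polynomial.C (-c))
    (g := Polynomial.C (Q b) * Polynomial.X ^ 2 + Polynomial.C 0 * Polynomial.X
      + Polynomial.C 0)
    (Polynomial.degree_quadratic hQa) (Polynomial.degree_quadratic hQb) hcard
  refine ⟨x • a + y • b, M.add_mem (M.smul_mem _ haM) (M.smul_mem _ hbM.1), ?_⟩
  rw [QuadraticMap.map_add ⇑Q, QuadraticMap.map_smul, QuadraticMap.map_smul,
    QuadraticMap.polar_smul_left, QuadraticMap.polar_smul_right, hab]
  simp only [Polynomial.eval_add, Polynomial.eval_mul, Polynomial.eval_C, Polynomial.eval_pow,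
    Polynomial.eval_X] at hxy
  simp only [smul_eq_mul]
  linear_combination hxy

omit [Fintype F] in
/-- The reflection in a vector of a subspace stabilises the subspace. -/
theorem map_refl_mem (Q : QuadraticForm F (ι → F)) (W : Submodule F (ι → F)) (x : ι → F)
    (hxW : x ∈ W) : W.map (act Q (reflO Q x)) = W := by
  classical
  apply Submodule.eq_of_le_of_finrank_eq
  · rintro _ ⟨y, hy, rfl⟩
    by_cases hx : Q x ≠ 0
    · rw [act_reflO Q x hx]
      exact W.sub_mem hy (W.smul_mem _ hxW)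
    · unfold reflO
      rw [dif_neg hx, act_one]
      exact hy
  · exact finrank_map_act Q _ W

end Cfsg.Agent.Lib.Helper15.Witt2
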