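import Mathlib
import Cfsg.Agent.Lib.Helper15.Eichler
import Cfsg.Agent.Lib.Helper15.Witt2
import Cfsg.Agent.Lib.Helper15.Aniso2

/-!
# Generation of `Ω` by Eichler transformations, and perfectness

For a non-degenerate quadratic form in dimension at least five containing two orthogonal
hyperbolic pairs, the commutator subgroup `Ω` of the isometry group is generated by the Eichler
transformations, indeed by the long root elements (Siegel transformations), and it is perfect.
-/

set_option autoImplicit false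

namespace Cfsg.Agent.Lib.Helper15.EichGen

open Module Cfsg.Agent.Lib.Helper15.Spinor Cfsg.Agent.Lib.Helper15.CD2
  Cfsg.Agent.Lib.Helper15.Parity Cfsg.Agent.Lib.Helper15.Witt Cfsg.Agent.Lib.Helper15.WittInf
  Cfsg.Agent.Lib.Helper15.OrthGen Cfsg.Agent.Lib.Helper15.HypPair
  Cfsg.Agent.Lib.Helper15.CenterOmega Cfsg.Agent.Lib.Helper15.Eichler
  Cfsg.Agent.Lib.Helper15.Witt2

variable {F : Type*} [Field F] [Fintype F] {ι : Type} [Fintype ι] [DecidableEq ι]

/-- Two orthogonal hyperbolic pairs. -/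
def HP2 (Q : QuadraticForm F (ι → F)) : Prop :=
  ∃ e₁ f₁ e₂ f₂ : ι → F, Q e₁ = 0 ∧ Q f₁ = 0 ∧ QuadraticMap.polar ⇑Q e₁ f₁ = 1 ∧
    Q e₂ = 0 ∧ Q f₂ = 0 ∧ QuadraticMap.polar ⇑Q e₂ f₂ = 1 ∧
    QuadraticMap.polar ⇑Q e₁ e₂ = 0 ∧ QuadraticMap.polar ⇑Q e₁ f₂ = 0 ∧
    QuadraticMap.polar ⇑Q f₁ e₂ = 0 ∧ QuadraticMap.polar ⇑Q f₁ f₂ = 0

/-- A hyperbolic pair orthogonal to a given hyperbolic pair. -/
theorem hp_perp_pair (Q : QuadraticForm F (ι → F))
    (hnd : ∀ x, (∀ y, QuadraticMap.polar ⇑Q x y = 0) → x = 0) (hH : HP2 Q) (e f : ι → F)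
    (he : Q e = 0) (hf : Q f = 0) (hef : QuadraticMap.polar ⇑Q e f = 1) :
    ∃ e' f' : ι → F, Q e' = 0 ∧ Q f' = 0 ∧ QuadraticMap.polar ⇑Q e' f' = 1 ∧
      QuadraticMap.polar ⇑Q e e' = 0 ∧ QuadraticMap.polar ⇑Q e f' = 0 ∧
      QuadraticMap.polar ⇑Q f e' = 0 ∧ QuadraticMap.polar ⇑Q f f' = 0 := by
  obtain ⟨e₁, f₁, e₂, f₂, h1, h2, h3, h4, h5, h6, h7, h8, h9, h10⟩ := hH
  obtain ⟨g, hge, hgf⟩ := hp_trans Q hnd e₁ f₁ e f h1 h2 h3 he hf hef
  refine ⟨act Q g e₂, act Q g f₂, ?_, ?_, ?_, ?_, ?_, ?_, ?_⟩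
  · rw [act_Q]; exact h4
  · rw [act_Q]; exact h5
  · rw [act_polar]; exact h6
  · rw [← hge, act_polar]; exact h7
  · rw [← hge, act_polar]; exact h8
  · rw [← hgf, act_polar]; exact h9
  · rw [← hgf, act_polar]; exact h10

/-- The isometry group is transitive on the vectors of a given non-zero norm. -/
theorem nonsing_trans (Q : QuadraticForm F (ι → F))
    (hnd : ∀ x, (∀ y, QuadraticMap.polar ⇑Q x y = 0) → x = 0) (hn : 5 ≤ Fintype.card ι)
    (u v : ι → F) (huv : Q u = Q v) (hv : Q v ≠ 0) :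
    ∃ g : ↥(Cfsg.isometryGroup F ⇑Q), act Q g u = v := by
  by_cases h2 : (2 : F) = 0
  · have hchar : CharP F 2 := CharTwo.of_one_ne_zero_of_two_eq_zero one_ne_zero h2
    obtain ⟨vs, -, -, hmove⟩ := move_fix Q hnd ⊥ (splits_bot Q) (Or.inr (Or.inl (by omega))) u v
      (mem_perp_bot Q u) (mem_perp_bot Q v) huv hv
    exact ⟨_, hmove⟩
  · by_cases hm : Q (u - v) ≠ 0
    · exact ⟨_, Cfsg.Agent.Lib.Helper15.Aniso2.refl_move Q u v huv hm⟩
    · rw [not_not] at hm
      have hB : QuadraticMap.polar ⇑Q u v = 2 * Q v := by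
        rw [sub_eq_add_neg, QuadraticMap.map_add ⇑Q, QuadraticMap.map_neg,
          QuadraticMap.polar_neg_right, huv] at hm
        linear_combination -hm
      have hp : Q (u + v) ≠ 0 := by
        rw [QuadraticMap.map_add ⇑Q, huv, hB]
        have h4 : Q v + Q v + 2 * Q v = 2 * 2 * Q v := by ring
        rw [h4]
        exact mul_ne_zero (mul_ne_zero h2 h2) hv
      have h1 := Cfsg.Agent.Lib.Helper15.Aniso2.refl_move Q u (-v)
        (by rw [QuadraticMap.map_neg]; exact huv) (by rw [sub_neg_eq_add]; exact hp)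
      refine ⟨reflO Q v * reflO Q (u - -v), ?_⟩
      rw [act_mul, h1, act_reflO Q v hv, QuadraticMap.polar_neg_right, QuadraticMap.polar_self]
      have h5 : (Q v)⁻¹ * -(2 • Q v) = -2 := by
        rw [nsmul_eq_mul]
        field_simp
        norm_num
      rw [h5]
      module

/-- A hyperbolic pair orthogonal to a given non-singular vector. -/
theorem hp_perp_nonsing (Q : QuadraticForm F (ι → F))
    (hnd : ∀ x, (∀ y, QuadraticMap.polar ⇑Q x y = 0) → x = 0) (hn : 5 ≤ Fintype.card ι)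
    (hH : HP2 Q) (u : ι → F) (hu : Q u ≠ 0) :
    ∃ e' f' : ι → F, Q e' = 0 ∧ Q f' = 0 ∧ QuadraticMap.polar ⇑Q e' f' = 1 ∧
      QuadraticMap.polar ⇑Q u e' = 0 ∧ QuadraticMap.polar ⇑Q u f' = 0 := by
  obtain ⟨e₁, f₁, e₂, f₂, h1, h2, h3, h4, h5, h6, h7, h8, h9, h10⟩ := hH
  obtain ⟨u₀, hu₀⟩ : ∃ u₀, u₀ = e₁ + Q u • f₁ := ⟨_, rfl⟩
  have hQu₀ : Q u₀ = Q u := by
    rw [hu₀, QuadraticMap.map_add ⇑Q, QuadraticMap.map_smul, h1, h2,
      QuadraticMap.polar_smul_right, h3]
    simp
  obtain ⟨g, hmove⟩ := nonsing_trans Q hnd hn u₀ u hQu₀ hu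
  have h11 : QuadraticMap.polar ⇑Q u₀ e₂ = 0 := by
    rw [hu₀, QuadraticMap.polar_add_left, QuadraticMap.polar_smul_left, h7, h9, smul_zero,
      add_zero]
  have h12 : QuadraticMap.polar ⇑Q u₀ f₂ = 0 := by
    rw [hu₀, QuadraticMap.polar_add_left, QuadraticMap.polar_smul_left, h8, h10, smul_zero,
      add_zero]
  refine ⟨act Q g e₂, act Q g f₂, ?_, ?_, ?_, ?_, ?_⟩
  · rw [act_Q]; exact h4
  · rw [act_Q]; exact h5
  · rw [act_polar]; exact h6
  · rw [← hmove, act_polar]; exact h11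
  · rw [← hmove, act_polar]; exact h12

/-- The set of Eichler transformations. -/
def eichSet (Q : QuadraticForm F (ι → F)) : Set ↥(Cfsg.isometryGroup F ⇑Q) :=
  {g | ∃ e y : ι → F, Q e = 0 ∧ QuadraticMap.polar ⇑Q e y = 0 ∧ g = eich Q e y}

/-- The set of long root elements. -/
def siegSet (Q : QuadraticForm F (ι → F)) : Set ↥(Cfsg.isometryGroup F ⇑Q) :=
  {g | ∃ e s : ι → F, Q e = 0 ∧ Q s = 0 ∧ QuadraticMap.polar ⇑Q e s = 0 ∧ g = eich Q e s}

/-- The closure of a conjugation-invariant set is normal. -/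
theorem closure_normal_of_conj {G : Type*} [Group G] (S : Set G)
    (h : ∀ s ∈ S, ∀ g : G, g * s * g⁻¹ ∈ S) : (Subgroup.closure S).Normal := by
  constructor
  intro n hn g
  induction hn using Subgroup.closure_induction with
  | mem x hx => exact Subgroup.subset_closure (h x hx g)
  | one => simp
  | mul x y _ _ hx hy =>
    have e : g * (x * y) * g⁻¹ = (g * x * g⁻¹) * (g * y * g⁻¹) := by group
    rw [e]
    exact Subgroup.mul_mem _ hx hy
  | inv x _ hx =>
    have e : g * x⁻¹ * g⁻¹ = (g * x * g⁻¹)⁻¹ := by group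
    rw [e]
    exact Subgroup.inv_mem _ hx

theorem eich_normal (Q : QuadraticForm F (ι → F)) : (Subgroup.closure (eichSet Q)).Normal := by
  apply closure_normal_of_conj
  rintro _ ⟨e, y, he, hey, rfl⟩ g
  exact ⟨act Q g e, act Q g y, by rw [act_Q]; exact he, by rw [act_polar]; exact hey,
    eich_conj Q g e y he hey⟩

/-- The product of the reflections in `u` and `u + s`, for `s` singular and orthogonal to `u`,
is an Eichler transformation. -/
theorem refl_pair_eich (Q : QuadraticForm F (ι → F)) (u s : ι → F) (hu : Q u ≠ 0)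
    (hs : Q s = 0) (hus : QuadraticMap.polar ⇑Q u s = 0) :
    reflO Q u * reflO Q (u + s) ∈ eichSet Q := by
  have hss := polar_self_of_sing Q s hs
  have hsu : QuadraticMap.polar ⇑Q s u = 0 := by rw [QuadraticMap.polar_comm]; exact hus
  have hQy : Q (u + s) = Q u := by
    rw [QuadraticMap.map_add ⇑Q, hs, hus, add_zero, add_zero]
  have he : Q ((Q u)⁻¹ • s) = 0 := by rw [QuadraticMap.map_smul, hs, smul_zero]
  have hey : QuadraticMap.polar ⇑Q ((Q u)⁻¹ • s) (u + s) = 0 := by
    rw [QuadraticMap.polar_smul_left, QuadraticMap.polar_add_right, hsu, hss, add_zero,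
      smul_zero]
  refine ⟨(Q u)⁻¹ • s, u + s, he, hey, ?_⟩
  rw [eich_eq_reflO Q _ _ he hey (by rw [hQy]; exact hu), hQy, smul_smul,
    mul_inv_cancel₀ hu, one_smul, add_sub_cancel_right]

/-- The product of the reflections in two vectors of the same norm lies in the subgroup generated
by the Eichler transformations. -/
theorem refl_pair_mem (Q : QuadraticForm F (ι → F))
    (hQ : (QuadraticMap.polarBilin Q).Nondegenerate) (hn : 5 ≤ Fintype.card ι) (hH : HP2 Q)
    (u u' : ι → F) (hu : Q u ≠ 0) (huu' : Q u' = Q u) :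
    reflO Q u * reflO Q u' ∈ Subgroup.closure (eichSet Q) := by
  have hnd : ∀ x, (∀ y, QuadraticMap.polar ⇑Q x y = 0) → x = 0 := fun x hx => hQ.1 x hx
  have step : ∀ a b : ι → F, Q a ≠ 0 → Q b = Q a → Q (b - a) = 0 →
      reflO Q a * reflO Q b ∈ Subgroup.closure (eichSet Q) := by
    intro a b ha hba hs
    have hab : QuadraticMap.polar ⇑Q a (b - a) = 0 := by
      have h1 := hs
      rw [sub_eq_add_neg, QuadraticMap.map_add ⇑Q, QuadraticMap.map_neg,
        QuadraticMap.polar_neg_right, hba] at h1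
      rw [QuadraticMap.polar_sub_right, QuadraticMap.polar_self, QuadraticMap.polar_comm ⇑Q a b,
        nsmul_eq_mul]
      push_cast
      linear_combination -h1
    have h := refl_pair_eich Q a (b - a) ha hs hab
    rw [add_sub_cancel] at h
    exact Subgroup.subset_closure h
  by_cases hc : Q (u' - u) = 0
  · exact step u u' hu huu' hc
  by_cases hs : ∃ s, Q s = 0 ∧ QuadraticMap.polar ⇑Q u s = 0 ∧ QuadraticMap.polar ⇑Q s u' ≠ 0
  · obtain ⟨s, hs0, hus, hsu'⟩ := hs
    obtain ⟨s', hs'⟩ : ∃ s', s' = (Q (u' - u) * (QuadraticMap.polar ⇑Q s u')⁻¹) • s := ⟨_, rfl⟩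
    have hQs' : Q s' = 0 := by rw [hs', QuadraticMap.map_smul, hs0, smul_zero]
    have hus' : QuadraticMap.polar ⇑Q u s' = 0 := by
      rw [hs', QuadraticMap.polar_smul_right, hus, smul_zero]
    have hs'u' : QuadraticMap.polar ⇑Q s' u' = Q (u' - u) := by
      rw [hs', QuadraticMap.polar_smul_left, smul_eq_mul, mul_assoc, inv_mul_cancel₀ hsu',
        mul_one]
    have hw : Q (u + s') = Q u := by
      rw [QuadraticMap.map_add ⇑Q, hQs', hus', add_zero, add_zero]
    have h1 := step u (u + s') hu hw (by rw [add_sub_cancel_left]; exact hQs')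
    have hQ2 : Q (u' - (u + s')) = 0 := by
      have e : u' - (u + s') = (u' - u) + -s' := by abel
      rw [e, QuadraticMap.map_add ⇑Q, QuadraticMap.map_neg, hQs', QuadraticMap.polar_neg_right,
        QuadraticMap.polar_sub_left, QuadraticMap.polar_comm ⇑Q u' s', hs'u', hus']
      ring
    have h2 := step (u + s') u' (by rw [hw]; exact hu) (by rw [hw]; exact huu') hQ2
    have e : reflO Q u * reflO Q u'
        = (reflO Q u * reflO Q (u + s')) * (reflO Q (u + s') * reflO Q u') := by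
      rw [mul_assoc, ← mul_assoc (reflO Q (u + s')), reflO_mul_self, one_mul]
    rw [e]
    exact Subgroup.mul_mem _ h1 h2
  · have hno : ∀ s, Q s = 0 → QuadraticMap.polar ⇑Q u s = 0 →
        QuadraticMap.polar ⇑Q s u' = 0 := by
      intro s h1 h2
      by_contra h3
      exact hs ⟨s, h1, h2, h3⟩
    obtain ⟨e₀, f₀, he₀, hf₀, hef₀, hue₀, huf₀⟩ := hp_perp_nonsing Q hnd hn hH u hu
    have hee₀ := polar_self_of_sing Q e₀ he₀
    have hff₀ := polar_self_of_sing Q f₀ hf₀
    have hfe₀ : QuadraticMap.polar ⇑Q f₀ e₀ = 1 := by rw [QuadraticMap.polar_comm]; exact hef₀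
    have h5 := hno e₀ he₀ hue₀
    have h6 := hno f₀ hf₀ huf₀
    have hmem : u' ∈ perp Q (perp Q (Submodule.span F {u})) := by
      rw [mem_perp]
      intro v hv
      have hvu : QuadraticMap.polar ⇑Q v u = 0 :=
        (mem_perp Q _ v).1 hv u (Submodule.subset_span rfl)
      have huv : QuadraticMap.polar ⇑Q u v = 0 := by rw [QuadraticMap.polar_comm]; exact hvu
      obtain ⟨v', hv'⟩ : ∃ v', v' = v - QuadraticMap.polar ⇑Q v f₀ • e₀
          - QuadraticMap.polar ⇑Q v e₀ • f₀ := ⟨_, rfl⟩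
      have h1 : QuadraticMap.polar ⇑Q v' e₀ = 0 := by
        rw [hv']
        simp only [QuadraticMap.polar_sub_left, QuadraticMap.polar_smul_left, hee₀, hfe₀,
          smul_eq_mul, mul_zero, mul_one, sub_zero, sub_self]
      have h2 : QuadraticMap.polar ⇑Q v' f₀ = 0 := by
        rw [hv']
        simp only [QuadraticMap.polar_sub_left, QuadraticMap.polar_smul_left, hff₀, hef₀,
          smul_eq_mul, mul_zero, mul_one, sub_zero, sub_self]
      have h3 : QuadraticMap.polar ⇑Q u v' = 0 := by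
        rw [hv']
        simp only [QuadraticMap.polar_sub_right, QuadraticMap.polar_smul_right, huv, hue₀, huf₀,
          smul_eq_mul, mul_zero, sub_zero]
      have hsv : Q (v' + -(Q v') • e₀ + f₀) = 0 := by
        rw [QuadraticMap.map_add ⇑Q, QuadraticMap.map_add ⇑Q, QuadraticMap.map_smul, he₀, hf₀,
          QuadraticMap.polar_smul_right, h1, QuadraticMap.polar_add_left,
          QuadraticMap.polar_smul_left, h2, hef₀]
        simp
      have h4 := hno _ hsv (by
        rw [QuadraticMap.polar_add_right, QuadraticMap.polar_add_right,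
          QuadraticMap.polar_smul_right, h3, hue₀, huf₀, smul_zero, add_zero, add_zero])
      rw [QuadraticMap.polar_add_left, QuadraticMap.polar_add_left,
        QuadraticMap.polar_smul_left, h5, h6, smul_zero, add_zero, add_zero] at h4
      have hv2 : v = v' + QuadraticMap.polar ⇑Q v f₀ • e₀ + QuadraticMap.polar ⇑Q v e₀ • f₀ := by
        rw [hv']
        abel
      rw [QuadraticMap.polar_comm, hv2, QuadraticMap.polar_add_left, QuadraticMap.polar_add_left,
        QuadraticMap.polar_smul_left, QuadraticMap.polar_smul_left, h4, h5, h6, smul_zero,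
        smul_zero, add_zero, add_zero]
    rw [perp_perp Q hQ] at hmem
    obtain ⟨t, ht⟩ := Submodule.mem_span_singleton.1 hmem
    have ht0 : t ≠ 0 := by
      rintro rfl
      rw [zero_smul] at ht
      rw [← ht, map_zero] at huu'
      exact hu huu'.symm
    rw [← ht, Cfsg.Agent.Lib.Helper15.Dickson.reflO_smul Q t ht0 u hu, reflO_mul_self]
    exact Subgroup.one_mem _

/-- `Ω` is contained in the subgroup generated by the Eichler transformations. -/
theorem omega_le_eich (Q : QuadraticForm F (ι → F))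
    (hQ : (QuadraticMap.polarBilin Q).Nondegenerate) (hn : 5 ≤ Fintype.card ι) (hH : HP2 Q) :
    commutator ↥(Cfsg.isometryGroup F ⇑Q) ≤ Subgroup.closure (eichSet Q) := by
  have hnd : ∀ x, (∀ y, QuadraticMap.polar ⇑Q x y = 0) → x = 0 := fun x hx => hQ.1 x hx
  have hc : Fintype.card F ≠ 2 ∨ Fintype.card ι ≠ 4 := Or.inr (by omega)
  have hnorm := eich_normal Q
  rw [← Subgroup.Normal.quotient_commutative_iff_commutator_le]
  have hinv : ∀ u, (reflO Q u)⁻¹ = reflO Q u :=
    fun u => inv_eq_of_mul_eq_one_right (reflO_mul_self Q u)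
  have hpair : ∀ u v : ι → F, Q u ≠ 0 → Q v ≠ 0 →
      Commute ((reflO Q u : ↥(Cfsg.isometryGroup F ⇑Q)) :
        ↥(Cfsg.isometryGroup F ⇑Q) ⧸ Subgroup.closure (eichSet Q)) (reflO Q v) := by
    intro u v hu hv
    have h1 : reflO Q u * reflO Q (act Q (reflO Q v) u) ∈ Subgroup.closure (eichSet Q) :=
      refl_pair_mem Q hQ hn hH u _ hu (act_Q Q _ u)
    have h2 : reflO Q (act Q (reflO Q v) u) = reflO Q v * reflO Q u * reflO Q v := by
      have h3 := conj_reflO Q (reflO Q v) u hu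
      rw [hinv] at h3
      rw [act_apply]
      exact h3.symm
    rw [h2] at h1
    unfold Commute SemiconjBy
    rw [← QuotientGroup.mk_mul, ← QuotientGroup.mk_mul, QuotientGroup.eq]
    have e : (reflO Q u * reflO Q v)⁻¹ * (reflO Q v * reflO Q u)
        = reflO Q v * (reflO Q u * (reflO Q v * reflO Q u * reflO Q v)) * (reflO Q v)⁻¹ := by
      calc (reflO Q u * reflO Q v)⁻¹ * (reflO Q v * reflO Q u)
          = (reflO Q v)⁻¹ * (reflO Q u)⁻¹ * (reflO Q v * reflO Q u) := by rw [mul_inv_rev]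
        _ = reflO Q v * reflO Q u * (reflO Q v * reflO Q u) := by rw [hinv u, hinv v]
        _ = reflO Q v * (reflO Q u * (reflO Q v * reflO Q u * reflO Q v)) * (reflO Q v)⁻¹ := by
          group
    rw [e]
    exact hnorm.conj_mem _ h1 _
  have hlist1 : ∀ vs : List (ι → F), (∀ v ∈ vs, Q v ≠ 0) → ∀ w, Q w ≠ 0 →
      Commute ((prodRefl Q vs : ↥(Cfsg.isometryGroup F ⇑Q)) :
        ↥(Cfsg.isometryGroup F ⇑Q) ⧸ Subgroup.closure (eichSet Q)) (reflO Q w) := by
    intro vs
    induction vs with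
    | nil =>
      intro _ w _
      rw [prodRefl_nil, QuotientGroup.mk_one]
      exact Commute.one_left _
    | cons v vs ih =>
      intro hvs w hw
      rw [prodRefl_cons, QuotientGroup.mk_mul]
      exact Commute.mul_left (hpair v w (hvs v (List.mem_cons_self ..)) hw)
        (ih (fun x hx => hvs x (List.mem_cons_of_mem _ hx)) w hw)
  have hlist2 : ∀ ws : List (ι → F), (∀ w ∈ ws, Q w ≠ 0) → ∀ vs : List (ι → F),
      (∀ v ∈ vs, Q v ≠ 0) →
      Commute ((prodRefl Q vs : ↥(Cfsg.isometryGroup F ⇑Q)) :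
        ↥(Cfsg.isometryGroup F ⇑Q) ⧸ Subgroup.closure (eichSet Q)) (prodRefl Q ws) := by
    intro ws
    induction ws with
    | nil =>
      intro _ vs _
      rw [prodRefl_nil, QuotientGroup.mk_one]
      exact Commute.one_right _
    | cons w ws ih =>
      intro hws vs hvs
      rw [prodRefl_cons, QuotientGroup.mk_mul]
      exact Commute.mul_right (hlist1 vs hvs w (hws w (List.mem_cons_self ..)))
        (ih (fun x hx => hws x (List.mem_cons_of_mem _ hx)) vs hvs)
  refine ⟨⟨fun x' y' => ?_⟩⟩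
  obtain ⟨x, rfl⟩ := QuotientGroup.mk_surjective x'
  obtain ⟨y, rfl⟩ := QuotientGroup.mk_surjective y'
  obtain ⟨vs, hvs, rfl⟩ := cd_all Q hnd hc x
  obtain ⟨ws, hws, rfl⟩ := cd_all Q hnd hc y
  exact hlist2 ws hws vs hvs

/-- Every Eichler transformation is a product of long root elements. -/
theorem eich_mem_sieg (Q : QuadraticForm F (ι → F))
    (hQ : (QuadraticMap.polarBilin Q).Nondegenerate) (hH : HP2 Q) (e y : ι → F)
    (he : Q e = 0) (hey : QuadraticMap.polar ⇑Q e y = 0) :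
    eich Q e y ∈ Subgroup.closure (siegSet Q) := by
  have hnd : ∀ x, (∀ y, QuadraticMap.polar ⇑Q x y = 0) → x = 0 := fun x hx => hQ.1 x hx
  by_cases he0 : e = 0
  · rw [he0, eich_zero_left]
    exact Subgroup.one_mem _
  obtain ⟨f, -, hf, hef⟩ := sing_partner Q hnd ⊥ (splits_bot Q) e (mem_perp_bot Q e) he0 he
  obtain ⟨e₂, f₂, he₂, hf₂, hef₂, hee₂, hef₂', -, -⟩ := hp_perp_pair Q hnd hH e f he hf hef
  have hee₂s := polar_self_of_sing Q e₂ he₂
  have hff₂s := polar_self_of_sing Q f₂ hf₂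
  have hfe₂ : QuadraticMap.polar ⇑Q f₂ e₂ = 1 := by rw [QuadraticMap.polar_comm]; exact hef₂
  obtain ⟨w', hw'⟩ : ∃ w', w' = y - QuadraticMap.polar ⇑Q y f₂ • e₂
      - QuadraticMap.polar ⇑Q y e₂ • f₂ := ⟨_, rfl⟩
  have h1 : QuadraticMap.polar ⇑Q w' e₂ = 0 := by
    rw [hw']
    simp only [QuadraticMap.polar_sub_left, QuadraticMap.polar_smul_left, hee₂s, hfe₂,
      smul_eq_mul, mul_zero, mul_one, sub_zero, sub_self]
  have h2 : QuadraticMap.polar ⇑Q w' f₂ = 0 := by
    rw [hw']
    simp only [QuadraticMap.polar_sub_left, QuadraticMap.polar_smul_left, hff₂s, hef₂,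
      smul_eq_mul, mul_zero, mul_one, sub_zero, sub_self]
  have h3 : QuadraticMap.polar ⇑Q e w' = 0 := by
    rw [hw']
    simp only [QuadraticMap.polar_sub_right, QuadraticMap.polar_smul_right, hey, hee₂, hef₂',
      smul_eq_mul, mul_zero, sub_zero]
  obtain ⟨z, hz⟩ : ∃ z, z = w' + -(Q w') • e₂ + f₂ := ⟨_, rfl⟩
  have hQz : Q z = 0 := by
    rw [hz, QuadraticMap.map_add ⇑Q, QuadraticMap.map_add ⇑Q, QuadraticMap.map_smul, he₂, hf₂,
      QuadraticMap.polar_smul_right, h1, QuadraticMap.polar_add_left,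
      QuadraticMap.polar_smul_left, h2, hef₂]
    simp
  have hez : QuadraticMap.polar ⇑Q e z = 0 := by
    rw [hz, QuadraticMap.polar_add_right, QuadraticMap.polar_add_right,
      QuadraticMap.polar_smul_right, h3, hee₂, hef₂', smul_zero, add_zero, add_zero]
  have hdec : y = (QuadraticMap.polar ⇑Q y f₂ + Q w') • e₂
      + ((QuadraticMap.polar ⇑Q y e₂ - 1) • f₂ + z) := by
    rw [hz, hw']
    module
  have hp1 : ∀ c : F, QuadraticMap.polar ⇑Q e (c • e₂) = 0 := fun c => by
    rw [QuadraticMap.polar_smul_right, hee₂, smul_zero]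
  have hp2 : ∀ c : F, QuadraticMap.polar ⇑Q e (c • f₂) = 0 := fun c => by
    rw [QuadraticMap.polar_smul_right, hef₂', smul_zero]
  have m1 : ∀ c : F, eich Q e (c • e₂) ∈ Subgroup.closure (siegSet Q) := fun c =>
    Subgroup.subset_closure ⟨e, _, he, by rw [QuadraticMap.map_smul, he₂, smul_zero], hp1 c, rfl⟩
  have m2 : ∀ c : F, eich Q e (c • f₂) ∈ Subgroup.closure (siegSet Q) := fun c =>
    Subgroup.subset_closure ⟨e, _, he, by rw [QuadraticMap.map_smul, hf₂, smul_zero], hp2 c, rfl⟩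
  have m3 : eich Q e z ∈ Subgroup.closure (siegSet Q) :=
    Subgroup.subset_closure ⟨e, z, he, hQz, hez, rfl⟩
  rw [hdec, ← eich_mul Q e _ _ he (hp1 _)
      (by rw [QuadraticMap.polar_add_right, hp2, hez, add_zero]),
    ← eich_mul Q e _ _ he (hp2 _) hez]
  exact Subgroup.mul_mem _ (m1 _) (Subgroup.mul_mem _ (m2 _) m3)

/-- A long root element is a commutator of two elements of `Ω`. -/
theorem sieg_mem_comm (Q : QuadraticForm F (ι → F))
    (hQ : (QuadraticMap.polarBilin Q).Nondegenerate) (hn : 5 ≤ Fintype.card ι) (e a : ι → F)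
    (he : Q e = 0) (ha : Q a = 0) (hea : QuadraticMap.polar ⇑Q e a = 0) :
    eich Q e a ∈ ⁅commutator ↥(Cfsg.isometryGroup F ⇑Q),
      commutator ↥(Cfsg.isometryGroup F ⇑Q)⁆ := by
  obtain ⟨b, hbW, hQb⟩ := exists_nonsing_perp Q hQ (Submodule.span F ({e, a} : Set (ι → F)))
    (by have := finrank_pair_le e a; omega)
  have hbe : QuadraticMap.polar ⇑Q b e = 0 :=
    (mem_perp Q _ b).1 hbW e (Submodule.subset_span (by simp))
  have hba : QuadraticMap.polar ⇑Q b a = 0 :=
    (mem_perp Q _ b).1 hbW a (Submodule.subset_span (by simp))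
  have hex : ∃ y₀ ∈ perp Q (Submodule.span F ({e, a} : Set (ι → F))),
      QuadraticMap.polar ⇑Q b y₀ ≠ 0 := by
    by_contra hno
    have hmem : b ∈ perp Q (perp Q (Submodule.span F ({e, a} : Set (ι → F)))) := by
      intro s hs
      by_contra h
      exact hno ⟨s, hs, h⟩
    rw [perp_perp Q hQ] at hmem
    obtain ⟨α, β, rfl⟩ := Submodule.mem_span_pair.1 hmem
    apply hQb
    rw [QuadraticMap.map_add ⇑Q, QuadraticMap.map_smul, QuadraticMap.map_smul, he, ha,
      QuadraticMap.polar_smul_left, QuadraticMap.polar_smul_right, hea]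
    simp
  obtain ⟨y₀, hy₀W, hby₀⟩ := hex
  have hy₀e : QuadraticMap.polar ⇑Q y₀ e = 0 :=
    (mem_perp Q _ y₀).1 hy₀W e (Submodule.subset_span (by simp))
  have hy₀a : QuadraticMap.polar ⇑Q y₀ a = 0 :=
    (mem_perp Q _ y₀).1 hy₀W a (Submodule.subset_span (by simp))
  obtain ⟨y', hy'⟩ : ∃ y', y' = (-(QuadraticMap.polar ⇑Q b y₀)⁻¹) • y₀ := ⟨_, rfl⟩
  have hey' : QuadraticMap.polar ⇑Q e y' = 0 := by
    rw [hy', QuadraticMap.polar_smul_right, QuadraticMap.polar_comm ⇑Q e y₀, hy₀e, smul_zero]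
  have hay' : QuadraticMap.polar ⇑Q a y' = 0 := by
    rw [hy', QuadraticMap.polar_smul_right, QuadraticMap.polar_comm ⇑Q a y₀, hy₀a, smul_zero]
  have hby' : QuadraticMap.polar ⇑Q b y' = -1 := by
    rw [hy', QuadraticMap.polar_smul_right, smul_eq_mul, neg_mul, inv_mul_cancel₀ hby₀]
  have hab : QuadraticMap.polar ⇑Q a b = 0 := by rw [QuadraticMap.polar_comm]; exact hba
  have hae : QuadraticMap.polar ⇑Q a e = 0 := by rw [QuadraticMap.polar_comm]; exact hea
  have hfix : act Q (eich Q a b) e = e := eich_fix Q a b e ha hab hae hbe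
  have hmove : act Q (eich Q a b) y' = y' + a := by
    rw [act_eich Q a b ha hab, hay', hby']
    simp
  have key : eich Q a b * eich Q e y' * (eich Q a b)⁻¹ * (eich Q e y')⁻¹ = eich Q e a := by
    rw [eich_conj Q (eich Q a b) e y' he hey', hfix, hmove, Cfsg.Agent.Lib.Helper15.Eichler.eich_inv Q e y' he hey',
      eich_mul Q e _ _ he (by rw [QuadraticMap.polar_add_right, hey', hea, add_zero])
        (by rw [QuadraticMap.polar_neg_right, hey', neg_zero])]
    congr 1
    abel
  rw [← key]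
  exact Subgroup.commutator_mem_commutator (eich_mem_omega Q hQ hn a b ha hab)
    (eich_mem_omega Q hQ hn e y' he hey')

/-- `Ω` is contained in the subgroup generated by the long root elements. -/
theorem omega_le_sieg (Q : QuadraticForm F (ι → F))
    (hQ : (QuadraticMap.polarBilin Q).Nondegenerate) (hn : 5 ≤ Fintype.card ι) (hH : HP2 Q) :
    commutator ↥(Cfsg.isometryGroup F ⇑Q) ≤ Subgroup.closure (siegSet Q) := by
  refine le_trans (omega_le_eich Q hQ hn hH) ?_
  rw [Subgroup.closure_le]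
  rintro _ ⟨e, y, he, hey, rfl⟩
  exact eich_mem_sieg Q hQ hH e y he hey

/-- `Ω` is perfect. -/
theorem omega_perfect (Q : QuadraticForm F (ι → F))
    (hQ : (QuadraticMap.polarBilin Q).Nondegenerate) (hn : 5 ≤ Fintype.card ι) (hH : HP2 Q) :
    ⁅commutator ↥(Cfsg.isometryGroup F ⇑Q), commutator ↥(Cfsg.isometryGroup F ⇑Q)⁆
      = commutator ↥(Cfsg.isometryGroup F ⇑Q) := by
  apply le_antisymm (Subgroup.commutator_le_self _)
  refine le_trans (omega_le_sieg Q hQ hn hH) ?_
  rw [Subgroup.closure_le]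
  rintro _ ⟨e, s, he, hs, hes, rfl⟩
  exact sieg_mem_comm Q hQ hn e s he hs hes

/-- `Ω` is perfect, as a group. -/
theorem omega_perfect_top (Q : QuadraticForm F (ι → F))
    (hQ : (QuadraticMap.polarBilin Q).Nondegenerate) (hn : 5 ≤ Fintype.card ι) (hH : HP2 Q) :
    commutator ↥(commutator ↥(Cfsg.isometryGroup F ⇑Q)) = ⊤ := by
  apply Subgroup.map_injective (Subgroup.subtype_injective _)
  rw [Subgroup.map_subtype_commutator, omega_perfect Q hQ hn hH, ← MonoidHom.range_eq_map,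
    Subgroup.range_subtype]

end Cfsg.Agent.Lib.Helper15.EichGen
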