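import Mathlib
import Cfsg.Agent.Lib.Helper15.EichGen

/-!
# The action of `Ω` on singular points is primitive

For a non-degenerate quadratic form in dimension at least five, the group `Ω` acts primitively on
the set of singular points (lines spanned by non-zero singular vectors).
-/

set_option autoImplicit false

namespace Cfsg.Agent.Lib.Helper15.SingPts

open Module Cfsg.Agent.Lib.Helper15.Spinor Cfsg.Agent.Lib.Helper15.CD2
  Cfsg.Agent.Lib.Helper15.Parity Cfsg.Agent.Lib.Helper15.Witt Cfsg.Agent.Lib.Helper15.WittInf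
  Cfsg.Agent.Lib.Helper15.OrthGen Cfsg.Agent.Lib.Helper15.HypPair
  Cfsg.Agent.Lib.Helper15.CenterOmega Cfsg.Agent.Lib.Helper15.Eichler
  Cfsg.Agent.Lib.Helper15.EichGen

variable {F : Type*} [Field F] [Fintype F] {ι : Type} [Fintype ι] [DecidableEq ι]

/-- A singular partner of `e` orthogonal to a vector `x` that is orthogonal to `e` and not a
multiple of it. -/
theorem exists_partner_perp (Q : QuadraticForm F (ι → F))
    (hQ : (QuadraticMap.polarBilin Q).Nondegenerate) (e x : ι → F) (he0 : e ≠ 0) (he : Q e = 0)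
    (hex : QuadraticMap.polar ⇑Q e x = 0) (hx : x ∉ Submodule.span F {e}) :
    ∃ f, Q f = 0 ∧ QuadraticMap.polar ⇑Q e f = 1 ∧ QuadraticMap.polar ⇑Q x f = 0 := by
  have hee := polar_self_of_sing Q e he
  have hxe : QuadraticMap.polar ⇑Q x e = 0 := by rw [QuadraticMap.polar_comm]; exact hex
  have hex' : ∃ v, QuadraticMap.polar ⇑Q x v = 0 ∧ QuadraticMap.polar ⇑Q e v ≠ 0 := by
    by_contra hno
    have hmem : e ∈ perp Q (perp Q (Submodule.span F {x})) := by
      intro s hs
      by_contra h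
      exact hno ⟨s, by rw [QuadraticMap.polar_comm]; exact hs x (Submodule.subset_span rfl), h⟩
    rw [perp_perp Q hQ] at hmem
    obtain ⟨t, ht⟩ := Submodule.mem_span_singleton.1 hmem
    have ht0 : t ≠ 0 := by
      rintro rfl
      rw [zero_smul] at ht
      exact he0 ht.symm
    apply hx
    rw [Submodule.mem_span_singleton]
    exact ⟨t⁻¹, by rw [← ht, smul_smul, inv_mul_cancel₀ ht0, one_smul]⟩
  obtain ⟨v, hxv, hev⟩ := hex'
  obtain ⟨v', hv'⟩ : ∃ v', v' = (QuadraticMap.polar ⇑Q e v)⁻¹ • v := ⟨_, rfl⟩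
  have hev' : QuadraticMap.polar ⇑Q e v' = 1 := by
    rw [hv', QuadraticMap.polar_smul_right, smul_eq_mul, inv_mul_cancel₀ hev]
  have hxv' : QuadraticMap.polar ⇑Q x v' = 0 := by
    rw [hv', QuadraticMap.polar_smul_right, hxv, smul_zero]
  refine ⟨v' + -(Q v') • e, ?_, ?_, ?_⟩
  · rw [QuadraticMap.map_add ⇑Q, QuadraticMap.map_smul, he, QuadraticMap.polar_smul_right,
      QuadraticMap.polar_comm ⇑Q v' e, hev']
    simp
  · rw [QuadraticMap.polar_add_right, QuadraticMap.polar_smul_right, hee, hev', smul_zero,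
      add_zero]
  · rw [QuadraticMap.polar_add_right, QuadraticMap.polar_smul_right, hxe, hxv', smul_zero,
      add_zero]

/-- Two singular points have a common non-orthogonal singular point. -/
theorem exists_common (Q : QuadraticForm F (ι → F))
    (hQ : (QuadraticMap.polarBilin Q).Nondegenerate) (hn : 5 ≤ Fintype.card ι) (e z : ι → F)
    (he0 : e ≠ 0) (he : Q e = 0) (hz0 : z ≠ 0) (hz : Q z = 0) :
    ∃ w, Q w = 0 ∧ QuadraticMap.polar ⇑Q w e ≠ 0 ∧ QuadraticMap.polar ⇑Q w z ≠ 0 := by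
  have hnd : ∀ x, (∀ y, QuadraticMap.polar ⇑Q x y = 0) → x = 0 := fun x hx => hQ.1 x hx
  have hee := polar_self_of_sing Q e he
  have hzz := polar_self_of_sing Q z hz
  by_cases hez : QuadraticMap.polar ⇑Q e z ≠ 0
  · obtain ⟨y, hyW, hQy⟩ := exists_nonsing_perp Q hQ (Submodule.span F ({e, z} : Set (ι → F)))
      (by have := finrank_pair_le e z; omega)
    have hye : QuadraticMap.polar ⇑Q y e = 0 :=
      (mem_perp Q _ y).1 hyW e (Submodule.subset_span (by simp))
    have hyz : QuadraticMap.polar ⇑Q y z = 0 :=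
      (mem_perp Q _ y).1 hyW z (Submodule.subset_span (by simp))
    have hze : QuadraticMap.polar ⇑Q z e = QuadraticMap.polar ⇑Q e z := QuadraticMap.polar_comm _ _ _
    have hzy : QuadraticMap.polar ⇑Q z y = 0 := by rw [QuadraticMap.polar_comm]; exact hyz
    refine ⟨(QuadraticMap.polar ⇑Q e z)⁻¹ • z + y + -(Q y) • e, ?_, ?_, ?_⟩
    · rw [QuadraticMap.map_add ⇑Q, QuadraticMap.map_add ⇑Q, QuadraticMap.map_smul,
        QuadraticMap.map_smul, hz, he, QuadraticMap.polar_smul_left, hzy,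
        QuadraticMap.polar_smul_right, QuadraticMap.polar_add_left,
        QuadraticMap.polar_smul_left, hze, hye]
      simp only [smul_eq_mul, mul_zero, add_zero, zero_add]
      rw [inv_mul_cancel₀ hez]
      ring
    · rw [QuadraticMap.polar_add_left, QuadraticMap.polar_add_left,
        QuadraticMap.polar_smul_left, QuadraticMap.polar_smul_left, hze, hye, hee, smul_eq_mul,
        inv_mul_cancel₀ hez, smul_zero, add_zero, add_zero]
      exact one_ne_zero
    · rw [QuadraticMap.polar_add_left, QuadraticMap.polar_add_left,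
        QuadraticMap.polar_smul_left, QuadraticMap.polar_smul_left, hzz, hyz, smul_zero,
        zero_add, zero_add, smul_eq_mul]
      exact mul_ne_zero (neg_ne_zero.mpr hQy) hez
  · rw [not_not] at hez
    by_cases hzs : z ∈ Submodule.span F {e}
    · obtain ⟨c, rfl⟩ := Submodule.mem_span_singleton.1 hzs
      obtain ⟨f, -, hf, hef⟩ := sing_partner Q hnd ⊥ (splits_bot Q) e (mem_perp_bot Q e) he0 he
      have hc0 : c ≠ 0 := by
        rintro rfl
        exact hz0 (zero_smul _ _)
      refine ⟨f, hf, ?_, ?_⟩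
      · rw [QuadraticMap.polar_comm, hef]
        exact one_ne_zero
      · rw [QuadraticMap.polar_smul_right, QuadraticMap.polar_comm, hef, smul_eq_mul, mul_one]
        exact hc0
    · obtain ⟨f, hf, hef, hzf⟩ := exists_partner_perp Q hQ e z he0 he hez hzs
      have hS : Splits Q (Submodule.span F {e, f}) := by
        have h := splits_pair Q ⊥ (splits_bot Q) e f (mem_perp_bot Q e) (mem_perp_bot Q f) he hf
          hef
        rw [bot_sup_eq] at h
        exact h
      have hzS : z ∈ perp Q (Submodule.span F {e, f}) := by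
        intro s hs
        obtain ⟨α, β, rfl⟩ := Submodule.mem_span_pair.1 hs
        rw [QuadraticMap.polar_add_right, QuadraticMap.polar_smul_right,
          QuadraticMap.polar_smul_right, QuadraticMap.polar_comm ⇑Q z e, hez, hzf, smul_zero,
          smul_zero, add_zero]
      obtain ⟨t, htS, ht, hzt⟩ := sing_partner Q hnd _ hS z hzS hz0 hz
      have hte : QuadraticMap.polar ⇑Q t e = 0 := htS e (Submodule.subset_span (by simp))
      have htf : QuadraticMap.polar ⇑Q t f = 0 := htS f (Submodule.subset_span (by simp))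
      refine ⟨f + t, ?_, ?_, ?_⟩
      · rw [QuadraticMap.map_add ⇑Q, hf, ht, QuadraticMap.polar_comm, htf]
        simp
      · rw [QuadraticMap.polar_add_left, QuadraticMap.polar_comm ⇑Q f e, hef, hte, add_zero]
        exact one_ne_zero
      · rw [QuadraticMap.polar_add_left, QuadraticMap.polar_comm ⇑Q f z, hzf,
          QuadraticMap.polar_comm ⇑Q t z, hzt, zero_add]
        exact one_ne_zero

/-- An Eichler transformation at `w` moving the line of `e` to the line of `e'`, both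
non-orthogonal to `w`. -/
theorem move_via (Q : QuadraticForm F (ι → F)) (w e e' : ι → F) (hw : Q w = 0) (he : Q e = 0)
    (he' : Q e' = 0) (hwe : QuadraticMap.polar ⇑Q w e ≠ 0)
    (hwe' : QuadraticMap.polar ⇑Q w e' ≠ 0) :
    ∃ (y : ι → F) (c : F), QuadraticMap.polar ⇑Q w y = 0 ∧ c ≠ 0 ∧
      act Q (eich Q w y) e = c • e' := by
  obtain ⟨p, hp⟩ : ∃ p, p = (QuadraticMap.polar ⇑Q w e)⁻¹ • e := ⟨_, rfl⟩
  obtain ⟨p', hp'⟩ : ∃ p', p' = (QuadraticMap.polar ⇑Q w e')⁻¹ • e' := ⟨_, rfl⟩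
  have h1 : Q p = 0 := by rw [hp, QuadraticMap.map_smul, he, smul_zero]
  have h2 : Q p' = 0 := by rw [hp', QuadraticMap.map_smul, he', smul_zero]
  have h3 : QuadraticMap.polar ⇑Q w p = 1 := by
    rw [hp, QuadraticMap.polar_smul_right, smul_eq_mul, inv_mul_cancel₀ hwe]
  have h4 : QuadraticMap.polar ⇑Q w p' = 1 := by
    rw [hp', QuadraticMap.polar_smul_right, smul_eq_mul, inv_mul_cancel₀ hwe']
  obtain ⟨hperp, hact⟩ := eich_partner Q w p p' hw h1 h2 h3 h4
  refine ⟨p' - p, QuadraticMap.polar ⇑Q w e * (QuadraticMap.polar ⇑Q w e')⁻¹, hperp,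
    mul_ne_zero hwe (inv_ne_zero hwe'), ?_⟩
  have e1 : e = QuadraticMap.polar ⇑Q w e • p := by
    rw [hp, smul_smul, mul_inv_cancel₀ hwe, one_smul]
  conv_lhs => rw [e1]
  rw [map_smul, hact, hp', smul_smul]

/-! ### The set of singular points -/

/-- The singular points: the lines spanned by the non-zero singular vectors. -/
def SPt (Q : QuadraticForm F (ι → F)) : Type _ :=
  {p : Submodule F (ι → F) // ∃ e, e ≠ 0 ∧ Q e = 0 ∧ p = Submodule.span F {e}}

/-- The point spanned by a non-zero singular vector. -/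
def pt (Q : QuadraticForm F (ι → F)) (e : ι → F) (he0 : e ≠ 0) (he : Q e = 0) : SPt Q :=
  ⟨Submodule.span F {e}, e, he0, he, rfl⟩

omit [Fintype F] in
theorem act_ne_zero (Q : QuadraticForm F (ι → F)) (g : ↥(Cfsg.isometryGroup F ⇑Q)) (e : ι → F)
    (he0 : e ≠ 0) : act Q g e ≠ 0 := by
  intro h
  apply he0
  have h1 := act_inv_act Q g e
  rw [h, map_zero] at h1
  exact h1.symm

/-- The action of the isometry group on the singular points. -/
noncomputable instance instAct (Q : QuadraticForm F (ι → F)) :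
    MulAction ↥(Cfsg.isometryGroup F ⇑Q) (SPt Q) where
  smul g p := ⟨p.1.map (act Q g), by
    obtain ⟨e, he0, he, hp⟩ := p.2
    exact ⟨act Q g e, act_ne_zero Q g e he0, by rw [act_Q]; exact he,
      by rw [hp, Submodule.map_span, Set.image_singleton]⟩⟩
  one_smul p := by
    apply Subtype.ext
    change p.1.map (act Q 1) = p.1
    have h : act Q 1 = LinearMap.id := LinearMap.ext (act_one Q)
    rw [h, Submodule.map_id]
  mul_smul g h p := by
    apply Subtype.ext
    exact map_act_mul Q g h p.1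

omit [Fintype F] in
theorem smul_val (Q : QuadraticForm F (ι → F)) (g : ↥(Cfsg.isometryGroup F ⇑Q)) (p : SPt Q) :
    (g • p).1 = p.1.map (act Q g) := rfl

omit [Fintype F] in
theorem smul_pt (Q : QuadraticForm F (ι → F)) (g : ↥(Cfsg.isometryGroup F ⇑Q)) (e : ι → F)
    (he0 : e ≠ 0) (he : Q e = 0) :
    g • pt Q e he0 he
      = pt Q (act Q g e) (act_ne_zero Q g e he0) (by rw [act_Q]; exact he) := by
  apply Subtype.ext
  change (Submodule.span F {e}).map (act Q g) = Submodule.span F {act Q g e}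
  rw [Submodule.map_span, Set.image_singleton]

omit [Fintype F] [Fintype ι] [DecidableEq ι] in
theorem pt_smul (Q : QuadraticForm F (ι → F)) (c : F) (hc : c ≠ 0) (e : ι → F) (he0 : e ≠ 0)
    (he : Q e = 0) (h1 : c • e ≠ 0) (h2 : Q (c • e) = 0) :
    pt Q (c • e) h1 h2 = pt Q e he0 he := by
  apply Subtype.ext
  change Submodule.span F {c • e} = Submodule.span F {e}
  exact Submodule.span_singleton_smul_eq (IsUnit.mk0 c hc) e

omit [Fintype F] [Fintype ι] [DecidableEq ι] in
theorem pt_congr (Q : QuadraticForm F (ι → F)) (e e' : ι → F) (h : e = e') (h1 : e ≠ 0)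
    (h2 : Q e = 0) (h1' : e' ≠ 0) (h2' : Q e' = 0) : pt Q e h1 h2 = pt Q e' h1' h2' := by
  subst h
  rfl

omit [Fintype F] [Fintype ι] [DecidableEq ι] in
theorem pt_eq_of_eq_smul (Q : QuadraticForm F (ι → F)) (e e' : ι → F) (c : F) (hc : c ≠ 0)
    (h : e = c • e') (h1 : e ≠ 0) (h2 : Q e = 0) (h1' : e' ≠ 0) (h2' : Q e' = 0) :
    pt Q e h1 h2 = pt Q e' h1' h2' := by
  subst h
  exact pt_smul Q c hc e' h1' h2' h1 h2

omit [Fintype F] [Fintype ι] [DecidableEq ι] in
theorem exists_pt (Q : QuadraticForm F (ι → F)) (p : SPt Q) :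
    ∃ (e : ι → F) (he0 : e ≠ 0) (he : Q e = 0), p = pt Q e he0 he := by
  obtain ⟨e, he0, he, hp⟩ := p.2
  exact ⟨e, he0, he, Subtype.ext hp⟩

/-- `Ω` is transitive on the singular points. -/
theorem omega_trans (Q : QuadraticForm F (ι → F))
    (hQ : (QuadraticMap.polarBilin Q).Nondegenerate) (hn : 5 ≤ Fintype.card ι) (e e' : ι → F)
    (he0 : e ≠ 0) (he : Q e = 0) (he0' : e' ≠ 0) (he' : Q e' = 0) :
    ∃ g : ↥(Cfsg.isometryGroup F ⇑Q), g ∈ commutator ↥(Cfsg.isometryGroup F ⇑Q) ∧
      g • pt Q e he0 he = pt Q e' he0' he' := by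
  obtain ⟨w, hw, hwe, hwe'⟩ := exists_common Q hQ hn e e' he0 he he0' he'
  obtain ⟨y, c, hwy, hc, hact⟩ := move_via Q w e e' hw he he' hwe hwe'
  refine ⟨eich Q w y, eich_mem_omega Q hQ hn w y hw hwy, ?_⟩
  rw [smul_pt]
  exact pt_eq_of_eq_smul Q _ e' c hc hact _ _ he0' he'

/-- A block containing two non-orthogonal points is everything. -/
theorem block_case1 (Q : QuadraticForm F (ι → F))
    (hQ : (QuadraticMap.polarBilin Q).Nondegenerate) (hn : 5 ≤ Fintype.card ι)
    (B : Set (SPt Q))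
    (hB : ∀ g : ↥(Cfsg.isometryGroup F ⇑Q), g ∈ commutator ↥(Cfsg.isometryGroup F ⇑Q) →
      ∀ a : SPt Q, a ∈ B → g • a ∈ B → ∀ p ∈ B, g • p ∈ B)
    (e x : ι → F) (he0 : e ≠ 0) (he : Q e = 0) (hx0 : x ≠ 0) (hx : Q x = 0)
    (hex : QuadraticMap.polar ⇑Q e x ≠ 0) (heB : pt Q e he0 he ∈ B) (hxB : pt Q x hx0 hx ∈ B)
    (z : ι → F) (hz0 : z ≠ 0) (hz : Q z = 0) : pt Q z hz0 hz ∈ B := by
  have S1 : ∀ (a b z : ι → F) (ha0 : a ≠ 0) (ha : Q a = 0) (hb0 : b ≠ 0) (hb : Q b = 0)
      (hz0 : z ≠ 0) (hz : Q z = 0), QuadraticMap.polar ⇑Q a b ≠ 0 →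
      QuadraticMap.polar ⇑Q a z ≠ 0 → pt Q a ha0 ha ∈ B → pt Q b hb0 hb ∈ B →
      pt Q z hz0 hz ∈ B := by
    intro a b z ha0 ha hb0 hb hz0 hz hab haz haB hbB
    obtain ⟨y, c, hay, hc, hact⟩ := move_via Q a b z ha hb hz hab haz
    have hg := eich_mem_omega Q hQ hn a y ha hay
    have h1 : eich Q a y • pt Q a ha0 ha ∈ B := by
      rw [smul_pt, pt_congr Q _ a (eich_fix_e Q a y ha hay) _ _ ha0 ha]
      exact haB
    have h2 := hB (eich Q a y) hg _ haB h1 _ hbB
    rw [smul_pt, pt_eq_of_eq_smul Q _ z c hc hact _ _ hz0 hz] at h2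
    exact h2
  by_cases hez : QuadraticMap.polar ⇑Q e z ≠ 0
  · exact S1 e x z he0 he hx0 hx hz0 hz hex hez heB hxB
  · obtain ⟨w, hw, hwe, hwz⟩ := exists_common Q hQ hn e z he0 he hz0 hz
    have hw0 : w ≠ 0 := by
      rintro rfl
      exact hwe (QuadraticMap.polar_zero_left Q e)
    have hwB : pt Q w hw0 hw ∈ B :=
      S1 e x w he0 he hx0 hx hw0 hw hex (by rw [QuadraticMap.polar_comm]; exact hwe) heB hxB
    exact S1 w e z hw0 hw he0 he hz0 hz hwe hwz hwB heB

/-- A block of `Ω` on the singular points with two distinct points is everything. -/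
theorem block_univ (Q : QuadraticForm F (ι → F))
    (hQ : (QuadraticMap.polarBilin Q).Nondegenerate) (hn : 5 ≤ Fintype.card ι)
    (B : Set (SPt Q))
    (hB : ∀ g : ↥(Cfsg.isometryGroup F ⇑Q), g ∈ commutator ↥(Cfsg.isometryGroup F ⇑Q) →
      ∀ a : SPt Q, a ∈ B → g • a ∈ B → ∀ p ∈ B, g • p ∈ B)
    (p₁ p₂ : SPt Q) (h₁ : p₁ ∈ B) (h₂ : p₂ ∈ B) (hne : p₁ ≠ p₂) : B = Set.univ := by
  obtain ⟨e, he0, he, rfl⟩ := exists_pt Q p₁
  obtain ⟨x, hx0, hx, rfl⟩ := exists_pt Q p₂
  apply Set.eq_univ_of_forall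
  intro p
  obtain ⟨z, hz0, hz, rfl⟩ := exists_pt Q p
  have hee := polar_self_of_sing Q e he
  by_cases hex : QuadraticMap.polar ⇑Q e x ≠ 0
  · exact block_case1 Q hQ hn B hB e x he0 he hx0 hx hex h₁ h₂ z hz0 hz
  · rw [not_not] at hex
    have hxs : x ∉ Submodule.span F {e} := by
      intro hmem
      obtain ⟨c, rfl⟩ := Submodule.mem_span_singleton.1 hmem
      have hc0 : c ≠ 0 := by
        rintro rfl
        exact hx0 (zero_smul _ _)
      exact hne (pt_smul Q c hc0 e he0 he hx0 hx).symm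
    obtain ⟨f, hf, hef, hxf⟩ := exists_partner_perp Q hQ e x he0 he hex hxs
    obtain ⟨y, hyW, hQy⟩ := exists_nonsing_perp Q hQ (Submodule.span F ({f, x} : Set (ι → F)))
      (by have := finrank_pair_le f x; omega)
    have hyf : QuadraticMap.polar ⇑Q y f = 0 :=
      (mem_perp Q _ y).1 hyW f (Submodule.subset_span (by simp))
    have hyx : QuadraticMap.polar ⇑Q y x = 0 :=
      (mem_perp Q _ y).1 hyW x (Submodule.subset_span (by simp))
    have hfy : QuadraticMap.polar ⇑Q f y = 0 := by rw [QuadraticMap.polar_comm]; exact hyf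
    have hfx : QuadraticMap.polar ⇑Q f x = 0 := by rw [QuadraticMap.polar_comm]; exact hxf
    have hfe : QuadraticMap.polar ⇑Q f e = 1 := by rw [QuadraticMap.polar_comm]; exact hef
    have hg := eich_mem_omega Q hQ hn f y hf hfy
    have h1 : eich Q f y • pt Q x hx0 hx ∈ B := by
      rw [smul_pt, pt_congr Q _ x (eich_fix Q f y x hf hfy hfx hyx) _ _ hx0 hx]
      exact h₂
    have h2 := hB (eich Q f y) hg _ h₂ h1 _ h₁
    rw [smul_pt] at h2
    have hpol : QuadraticMap.polar ⇑Q e (act Q (eich Q f y) e) ≠ 0 := by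
      rw [act_eich Q f y hf hfy]
      simp only [QuadraticMap.polar_sub_right, QuadraticMap.polar_add_right,
        QuadraticMap.polar_smul_right, hee, hef, hfe, QuadraticMap.polar_comm ⇑Q y e,
        smul_eq_mul, mul_one, one_mul, zero_add]
      intro h0
      apply hQy
      linear_combination -h0
    exact block_case1 Q hQ hn B hB e _ he0 he _ _ hpol h₁ h2 z hz0 hz

/-- `Ω` acts primitively on the singular points. -/
theorem omega_preprimitive (Q : QuadraticForm F (ι → F))
    (hQ : (QuadraticMap.polarBilin Q).Nondegenerate) (hn : 5 ≤ Fintype.card ι) :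
    MulAction.IsPreprimitive ↥(commutator ↥(Cfsg.isometryGroup F ⇑Q)) (SPt Q) where
  exists_smul_eq p p' := by
    obtain ⟨e, he0, he, rfl⟩ := exists_pt Q p
    obtain ⟨e', he0', he', rfl⟩ := exists_pt Q p'
    obtain ⟨g, hg, h⟩ := omega_trans Q hQ hn e e' he0 he he0' he'
    exact ⟨⟨g, hg⟩, h⟩
  isTrivialBlock_of_isBlock {B} hB := by
    by_cases hs : B.Subsingleton
    · exact Or.inl hs
    · right
      rw [Set.not_subsingleton_iff] at hs
      obtain ⟨p₁, h₁, p₂, h₂, hne⟩ := hs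
      apply block_univ Q hQ hn B ?_ p₁ p₂ h₁ h₂ hne
      intro g hg a ha hga p hp
      have h := hB.smul_eq_of_mem (g := (⟨g, hg⟩ : ↥(commutator ↥(Cfsg.isometryGroup F ⇑Q))))
        ha hga
      rw [← h]
      exact Set.smul_mem_smul_set hp

end Cfsg.Agent.Lib.Helper15.SingPts
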