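import Mathlib
import Cfsg.Agent.Lib.Helper15.SingPts

/-!
# Simplicity of `PΩ`

For a non-degenerate quadratic form in dimension at least five containing two orthogonal
hyperbolic pairs, the group `PΩ = Ω / Z(Ω)` is simple.  The proof is Iwasawa's criterion applied
to the primitive action of `Ω` on the singular points, with the abelian groups of Eichler
transformations as root subgroups.
-/

set_option autoImplicit false

namespace Cfsg.Agent.Lib.Helper15.OmegaSimple

open Module Cfsg.Agent.Lib.Helper15.Spinor Cfsg.Agent.Lib.Helper15.CD2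
  Cfsg.Agent.Lib.Helper15.Parity Cfsg.Agent.Lib.Helper15.Witt Cfsg.Agent.Lib.Helper15.WittInf
  Cfsg.Agent.Lib.Helper15.OrthGen Cfsg.Agent.Lib.Helper15.HypPair
  Cfsg.Agent.Lib.Helper15.CenterOmega Cfsg.Agent.Lib.Helper15.Eichler
  Cfsg.Agent.Lib.Helper15.EichGen Cfsg.Agent.Lib.Helper15.SingPts

open scoped Pointwise

variable {F : Type*} [Field F] [Fintype F] {ι : Type} [Fintype ι] [DecidableEq ι]

/-- An isometry mapping every singular vector to a multiple of itself is `±1`. -/
theorem eigen_scalar (Q : QuadraticForm F (ι → F))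
    (hQ : (QuadraticMap.polarBilin Q).Nondegenerate) (hn : 5 ≤ Fintype.card ι)
    (z : ↥(Cfsg.isometryGroup F ⇑Q))
    (heig : ∀ e : ι → F, Q e = 0 → ∃ c : F, act Q z e = c • e)
    (e f : ι → F) (he : Q e = 0) (hf : Q f = 0) (hef : QuadraticMap.polar ⇑Q e f = 1) :
    (∀ x, act Q z x = x) ∨ (∀ x, act Q z x = -x) := by
  obtain ⟨lam, hlam⟩ := heig e he
  obtain ⟨mu, hmu⟩ := heig f hf
  have hfe : QuadraticMap.polar ⇑Q f e = 1 := by rw [QuadraticMap.polar_comm]; exact hef
  have hee : QuadraticMap.polar ⇑Q e e = 0 := by rw [QuadraticMap.polar_self, he, smul_zero]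
  have hff : QuadraticMap.polar ⇑Q f f = 0 := by rw [QuadraticMap.polar_self, hf, smul_zero]
  have hlm : lam * mu = 1 := by
    have h := act_polar Q z e f
    rw [hlam, hmu, QuadraticMap.polar_smul_left, QuadraticMap.polar_smul_right, hef] at h
    simpa using h
  have hlam0 : lam ≠ 0 := left_ne_zero_of_mul_eq_one hlm
  have hmu0 : mu ≠ 0 := right_ne_zero_of_mul_eq_one hlm
  have key : ∀ w, QuadraticMap.polar ⇑Q w e = 0 → QuadraticMap.polar ⇑Q w f = 0 →
      act Q z w = mu • w ∧ (Q w ≠ 0 → lam = mu) := by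
    intro w hwe hwf
    have hv : Q (f + w - Q w • e) = 0 := by
      rw [sub_eq_add_neg, ← neg_smul, QuadraticMap.map_add ⇑Q, QuadraticMap.map_add ⇑Q,
        QuadraticMap.map_smul, hf, he, QuadraticMap.polar_smul_right,
        QuadraticMap.polar_add_left, hfe, hwe, QuadraticMap.polar_comm ⇑Q f w, hwf]
      simp
    obtain ⟨nu, hnu⟩ := heig (f + w - Q w • e) hv
    have hzw : act Q z w = nu • (f + w - Q w • e) - mu • f + (Q w * lam) • e := by
      have h := hnu
      rw [map_sub, map_add, map_smul, hlam, hmu] at h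
      rw [← h, smul_smul]
      abel
    have h1 : QuadraticMap.polar ⇑Q (act Q z w) e = 0 := by
      have h := act_polar Q z w e
      rw [hlam, QuadraticMap.polar_smul_right, hwe] at h
      rcases smul_eq_zero.1 h with h' | h'
      · exact absurd h' hlam0
      · exact h'
    have h2 : QuadraticMap.polar ⇑Q (act Q z w) f = 0 := by
      have h := act_polar Q z w f
      rw [hmu, QuadraticMap.polar_smul_right, hwf] at h
      rcases smul_eq_zero.1 h with h' | h'
      · exact absurd h' hmu0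
      · exact h'
    have h1' : nu = mu := by
      rw [hzw] at h1
      simp only [QuadraticMap.polar_add_left, QuadraticMap.polar_sub_left,
        QuadraticMap.polar_smul_left, hfe, hwe, hee, smul_eq_mul, mul_zero, mul_one, add_zero,
        sub_zero] at h1
      exact sub_eq_zero.1 h1
    have h2' : Q w * (lam - nu) = 0 := by
      rw [hzw] at h2
      simp only [QuadraticMap.polar_add_left, QuadraticMap.polar_sub_left,
        QuadraticMap.polar_smul_left, hff, hwf, hef, smul_eq_mul, mul_zero, mul_one, add_zero,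
        zero_sub, sub_zero] at h2
      linear_combination h2
    constructor
    · rw [hzw, h1']
      rw [h1'] at h2'
      have h5 : (Q w * lam) • e = (Q w * mu) • e := by
        have h6 : Q w * lam = Q w * mu := by linear_combination h2'
        rw [h6]
      rw [h5, smul_sub, smul_add, smul_smul, mul_comm mu (Q w)]
      abel
    · intro hQw
      rcases mul_eq_zero.1 h2' with h | h
      · exact absurd h hQw
      · rw [← h1']
        exact sub_eq_zero.1 h
  obtain ⟨w, hwW, hQw⟩ := exists_nonsing_perp Q hQ (Submodule.span F ({e, f} : Set (ι → F)))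
    (by have := finrank_pair_le e f; omega)
  have hwe : QuadraticMap.polar ⇑Q w e = 0 :=
    (mem_perp Q _ w).1 hwW e (Submodule.subset_span (by simp))
  have hwf : QuadraticMap.polar ⇑Q w f = 0 :=
    (mem_perp Q _ w).1 hwW f (Submodule.subset_span (by simp))
  have hlm' : lam = mu := (key w hwe hwf).2 hQw
  rw [hlm'] at hlm hlam
  have hall : ∀ x, act Q z x = mu • x := by
    intro x
    obtain ⟨wx, hwxdef⟩ : ∃ wx, wx = x - QuadraticMap.polar ⇑Q x f • e
        - QuadraticMap.polar ⇑Q x e • f := ⟨_, rfl⟩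
    have hwxe : QuadraticMap.polar ⇑Q wx e = 0 := by
      rw [hwxdef]
      simp only [QuadraticMap.polar_sub_left, QuadraticMap.polar_smul_left, hee, hfe,
        smul_eq_mul, mul_zero, mul_one, sub_zero, sub_self]
    have hwxf : QuadraticMap.polar ⇑Q wx f = 0 := by
      rw [hwxdef]
      simp only [QuadraticMap.polar_sub_left, QuadraticMap.polar_smul_left, hff, hef,
        smul_eq_mul, mul_zero, mul_one, sub_zero, sub_self]
    have hx : x = wx + QuadraticMap.polar ⇑Q x f • e + QuadraticMap.polar ⇑Q x e • f := by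
      rw [hwxdef]
      abel
    conv_lhs => rw [hx]
    rw [map_add, map_add, map_smul, map_smul, (key wx hwxe hwxf).1, hlam, hmu]
    conv_rhs => rw [hx]
    rw [smul_add, smul_add, smul_smul, smul_smul, smul_smul, smul_smul, mul_comm mu, mul_comm mu]
  have hmu2 : (mu - 1) * (mu + 1) = 0 := by linear_combination hlm
  rcases mul_eq_zero.1 hmu2 with h | h
  · left
    intro x
    rw [hall, sub_eq_zero.1 h, one_smul]
  · right
    intro x
    rw [hall, eq_neg_of_add_eq_zero_left h, neg_smul, one_smul]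


/-- An isometry acting as `±1` fixes every singular point. -/
theorem scalar_fix (Q : QuadraticForm F (ι → F)) (g : ↥(Cfsg.isometryGroup F ⇑Q))
    (h : (∀ x, act Q g x = x) ∨ (∀ x, act Q g x = -x)) (p : SPt Q) : g • p = p := by
  obtain ⟨e, he0, he, rfl⟩ := exists_pt Q p
  rw [smul_pt]
  rcases h with h | h
  · exact pt_congr Q _ e (h e) _ _ he0 he
  · exact pt_eq_of_eq_smul Q _ e (-1) (neg_ne_zero.mpr one_ne_zero)
      (by rw [h e, neg_smul, one_smul]) _ _ he0 he

/-- An isometry fixing every singular point is `±1`. -/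
theorem fix_scalar (Q : QuadraticForm F (ι → F))
    (hQ : (QuadraticMap.polarBilin Q).Nondegenerate) (hn : 5 ≤ Fintype.card ι)
    (g : ↥(Cfsg.isometryGroup F ⇑Q)) (hg : ∀ p : SPt Q, g • p = p)
    (e f : ι → F) (he : Q e = 0) (hf : Q f = 0) (hef : QuadraticMap.polar ⇑Q e f = 1) :
    (∀ x, act Q g x = x) ∨ (∀ x, act Q g x = -x) := by
  apply eigen_scalar Q hQ hn g ?_ e f he hf hef
  intro u hu
  by_cases hu0 : u = 0
  · exact ⟨0, by rw [hu0, map_zero, smul_zero]⟩
  · have h1 := hg (pt Q u hu0 hu)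
    rw [smul_pt] at h1
    have h2 : act Q g u ∈ Submodule.span F {u} := by
      have h3 := congrArg Subtype.val h1
      change Submodule.span F {act Q g u} = Submodule.span F {u} at h3
      rw [← h3]
      exact Submodule.subset_span rfl
    obtain ⟨c, hc⟩ := Submodule.mem_span_singleton.1 h2
    exact ⟨c, hc.symm⟩

/-- An element of `Ω` acting as `±1` is central in `Ω`. -/
theorem scalar_central (Q : QuadraticForm F (ι → F))
    (g : ↥(commutator ↥(Cfsg.isometryGroup F ⇑Q)))
    (h : (∀ x, act Q (g : ↥(Cfsg.isometryGroup F ⇑Q)) x = x) ∨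
      (∀ x, act Q (g : ↥(Cfsg.isometryGroup F ⇑Q)) x = -x)) :
    g ∈ Subgroup.center ↥(commutator ↥(Cfsg.isometryGroup F ⇑Q)) := by
  rw [Subgroup.mem_center_iff]
  intro k
  apply Subtype.ext
  apply act_ext Q
  intro x
  change act Q ((k : ↥(Cfsg.isometryGroup F ⇑Q)) * (g : ↥(Cfsg.isometryGroup F ⇑Q))) x
    = act Q ((g : ↥(Cfsg.isometryGroup F ⇑Q)) * (k : ↥(Cfsg.isometryGroup F ⇑Q))) x
  rw [act_mul, act_mul]
  rcases h with h | h
  · rw [h, h]
  · rw [h, h, map_neg]

/-! ### The Iwasawa structure -/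

/-- Changing the representative of a singular point. -/
theorem rebase (Q : QuadraticForm F (ι → F)) (e e' y' : ι → F) (he : Q e = 0)
    (he0' : e' ≠ 0) (hspan : Submodule.span F {e} = Submodule.span F {e'})
    (hey' : QuadraticMap.polar ⇑Q e' y' = 0) :
    ∃ y'', QuadraticMap.polar ⇑Q e y'' = 0 ∧ eich Q e' y' = eich Q e y'' := by
  have hmem : e' ∈ Submodule.span F {e} := by
    rw [hspan]
    exact Submodule.subset_span rfl
  obtain ⟨c, rfl⟩ := Submodule.mem_span_singleton.1 hmem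
  have hc0 : c ≠ 0 := by
    rintro rfl
    exact he0' (zero_smul _ _)
  have hey : QuadraticMap.polar ⇑Q e y' = 0 := by
    rw [QuadraticMap.polar_smul_left, smul_eq_mul] at hey'
    rcases mul_eq_zero.1 hey' with h | h
    · exact absurd h hc0
    · exact h
  exact ⟨c • y', by rw [QuadraticMap.polar_smul_right, hey, smul_zero],
    eich_smul Q c e y' he hey⟩

/-- The group of Eichler transformations at a singular point, inside `Ω`. -/
def rootSub (Q : QuadraticForm F (ι → F)) (p : SPt Q) :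
    Subgroup ↥(commutator ↥(Cfsg.isometryGroup F ⇑Q)) where
  carrier := {g | ∃ e y : ι → F, e ≠ 0 ∧ Q e = 0 ∧ p.1 = Submodule.span F {e} ∧
    QuadraticMap.polar ⇑Q e y = 0 ∧ (g : ↥(Cfsg.isometryGroup F ⇑Q)) = eich Q e y}
  one_mem' := by
    obtain ⟨e, he0, he, hp⟩ := p.2
    exact ⟨e, 0, he0, he, hp, QuadraticMap.polar_zero_right Q e, (eich_zero Q e he).symm⟩
  mul_mem' := by
    rintro a b ⟨e, y, he0, he, hp, hey, ha⟩ ⟨e', y', he0', he', hp', hey', hb⟩
    obtain ⟨y'', hey'', hb'⟩ := rebase Q e e' y' he he0' (hp.symm.trans hp') hey'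
    refine ⟨e, y + y'', he0, he, hp, by rw [QuadraticMap.polar_add_right, hey, hey'', add_zero],
      ?_⟩
    rw [Subgroup.coe_mul, ha, hb, hb', eich_mul Q e y y'' he hey hey'']
  inv_mem' := by
    rintro a ⟨e, y, he0, he, hp, hey, ha⟩
    refine ⟨e, -y, he0, he, hp, by rw [QuadraticMap.polar_neg_right, hey, neg_zero], ?_⟩
    rw [Subgroup.coe_inv, ha, Cfsg.Agent.Lib.Helper15.Eichler.eich_inv Q e y he hey]

theorem mem_rootSub (Q : QuadraticForm F (ι → F)) (p : SPt Q)
    (g : ↥(commutator ↥(Cfsg.isometryGroup F ⇑Q))) :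
    g ∈ rootSub Q p ↔ ∃ e y : ι → F, e ≠ 0 ∧ Q e = 0 ∧ p.1 = Submodule.span F {e} ∧
      QuadraticMap.polar ⇑Q e y = 0 ∧ (g : ↥(Cfsg.isometryGroup F ⇑Q)) = eich Q e y := Iff.rfl

theorem rootSub_comm (Q : QuadraticForm F (ι → F)) (p : SPt Q) :
    IsMulCommutative ↥(rootSub Q p) := by
  refine ⟨⟨fun a b => ?_⟩⟩
  obtain ⟨e, y, he0, he, hp, hey, ha⟩ := a.2
  obtain ⟨e', y', he0', he', hp', hey', hb⟩ := b.2
  obtain ⟨y'', hey'', hb'⟩ := rebase Q e e' y' he he0' (hp.symm.trans hp') hey'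
  apply Subtype.ext
  apply Subtype.ext
  change ((a : ↥(commutator ↥(Cfsg.isometryGroup F ⇑Q))) : ↥(Cfsg.isometryGroup F ⇑Q))
      * ((b : ↥(commutator ↥(Cfsg.isometryGroup F ⇑Q))) : ↥(Cfsg.isometryGroup F ⇑Q))
    = ((b : ↥(commutator ↥(Cfsg.isometryGroup F ⇑Q))) : ↥(Cfsg.isometryGroup F ⇑Q))
      * ((a : ↥(commutator ↥(Cfsg.isometryGroup F ⇑Q))) : ↥(Cfsg.isometryGroup F ⇑Q))
  rw [ha, hb, hb']
  exact eich_comm Q e y y'' he hey hey''

theorem rootSub_conj (Q : QuadraticForm F (ι → F))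
    (g : ↥(commutator ↥(Cfsg.isometryGroup F ⇑Q))) (p : SPt Q) :
    rootSub Q (g • p) = MulAut.conj g • rootSub Q p := by
  ext x
  rw [Subgroup.mem_smul_pointwise_iff_exists]
  constructor
  · rintro ⟨e, y, he0, he, hp, hey, hx⟩
    have hgp : (g : ↥(Cfsg.isometryGroup F ⇑Q)) • p = pt Q e he0 he := Subtype.ext hp
    have hp' : p = (g : ↥(Cfsg.isometryGroup F ⇑Q))⁻¹ • pt Q e he0 he := by
      rw [← hgp, inv_smul_smul]
    rw [smul_pt] at hp'
    refine ⟨g⁻¹ * x * g, ?_, ?_⟩
    · refine ⟨act Q (g : ↥(Cfsg.isometryGroup F ⇑Q))⁻¹ e, act Q (g : ↥(Cfsg.isometryGroup F ⇑Q))⁻¹ y,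
        act_ne_zero Q _ e he0, by rw [act_Q]; exact he, congrArg Subtype.val hp',
        by rw [act_polar]; exact hey, ?_⟩
      rw [Subgroup.coe_mul, Subgroup.coe_mul, Subgroup.coe_inv, hx,
        ← eich_conj Q (g : ↥(Cfsg.isometryGroup F ⇑Q))⁻¹ e y he hey, inv_inv]
    · rw [MulAut.smul_def, MulAut.conj_apply]
      group
  · rintro ⟨h, ⟨e, y, he0, he, hp, hey, hh⟩, rfl⟩
    have hp' : p = pt Q e he0 he := Subtype.ext hp
    refine ⟨act Q (g : ↥(Cfsg.isometryGroup F ⇑Q)) e, act Q (g : ↥(Cfsg.isometryGroup F ⇑Q)) y,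
      act_ne_zero Q _ e he0, by rw [act_Q]; exact he, ?_, by rw [act_polar]; exact hey, ?_⟩
    · have h1 : (g : ↥(Cfsg.isometryGroup F ⇑Q)) • p
          = pt Q (act Q (g : ↥(Cfsg.isometryGroup F ⇑Q)) e) (act_ne_zero Q _ e he0)
            (by rw [act_Q]; exact he) := by
        rw [hp', smul_pt]
      exact congrArg Subtype.val h1
    · rw [MulAut.smul_def, MulAut.conj_apply, Subgroup.coe_mul, Subgroup.coe_mul,
        Subgroup.coe_inv, hh, eich_conj Q (g : ↥(Cfsg.isometryGroup F ⇑Q)) e y he hey]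

theorem rootSub_gen (Q : QuadraticForm F (ι → F))
    (hQ : (QuadraticMap.polarBilin Q).Nondegenerate) (hn : 5 ≤ Fintype.card ι) (hH : HP2 Q) :
    iSup (rootSub Q) = ⊤ := by
  have hle : Subgroup.closure (eichSet Q) ≤ commutator ↥(Cfsg.isometryGroup F ⇑Q) := by
    rw [Subgroup.closure_le]
    rintro _ ⟨e, y, he, hey, rfl⟩
    exact eich_mem_omega Q hQ hn e y he hey
  have key : ∀ k : ↥(Cfsg.isometryGroup F ⇑Q), k ∈ Subgroup.closure (eichSet Q) →
      ∀ hk : k ∈ commutator ↥(Cfsg.isometryGroup F ⇑Q),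
        (⟨k, hk⟩ : ↥(commutator ↥(Cfsg.isometryGroup F ⇑Q))) ∈ iSup (rootSub Q) := by
    intro k hk
    induction hk using Subgroup.closure_induction with
    | mem x hx =>
      intro hk
      obtain ⟨e, y, he, hey, rfl⟩ := hx
      by_cases he0 : e = 0
      · have h1 : (⟨eich Q e y, hk⟩ : ↥(commutator ↥(Cfsg.isometryGroup F ⇑Q))) = 1 := by
          apply Subtype.ext
          change eich Q e y = 1
          rw [he0, eich_zero_left]
        rw [h1]
        exact Subgroup.one_mem _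
      · exact Subgroup.mem_iSup_of_mem (pt Q e he0 he) ⟨e, y, he0, he, rfl, hey, rfl⟩
    | one =>
      intro hk
      exact Subgroup.one_mem _
    | mul x y hx hy ihx ihy =>
      intro hk
      have h1 : (⟨x * y, hk⟩ : ↥(commutator ↥(Cfsg.isometryGroup F ⇑Q)))
          = ⟨x, hle hx⟩ * ⟨y, hle hy⟩ := rfl
      rw [h1]
      exact Subgroup.mul_mem _ (ihx (hle hx)) (ihy (hle hy))
    | inv x hx ihx =>
      intro hk
      have h1 : (⟨x⁻¹, hk⟩ : ↥(commutator ↥(Cfsg.isometryGroup F ⇑Q)))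
          = (⟨x, hle hx⟩ : ↥(commutator ↥(Cfsg.isometryGroup F ⇑Q)))⁻¹ := rfl
      rw [h1]
      exact Subgroup.inv_mem _ (ihx (hle hx))
  rw [eq_top_iff]
  intro g _
  exact key g.1 (omega_le_eich Q hQ hn hH g.2) g.2

/-- The Iwasawa structure of `Ω` acting on the singular points. -/
noncomputable def iwasawa (Q : QuadraticForm F (ι → F))
    (hQ : (QuadraticMap.polarBilin Q).Nondegenerate) (hn : 5 ≤ Fintype.card ι) (hH : HP2 Q) :
    MulAction.IwasawaStructure ↥(commutator ↥(Cfsg.isometryGroup F ⇑Q)) (SPt Q) where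
  T := rootSub Q
  is_comm := rootSub_comm Q
  is_conj := rootSub_conj Q
  is_generator := rootSub_gen Q hQ hn hH

/-- **Simplicity of `PΩ`**: for a non-degenerate quadratic form in dimension at least five
containing two orthogonal hyperbolic pairs. -/
theorem simple_pomega (Q : QuadraticForm F (ι → F))
    (hQ : (QuadraticMap.polarBilin Q).Nondegenerate) (hn : 5 ≤ Fintype.card ι) (hH : HP2 Q) :
    IsSimpleGroup (Cfsg.POmega F ⇑Q) := by
  have hprim := omega_preprimitive Q hQ hn
  have hperf := omega_perfect_top Q hQ hn hH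
  have hc : Fintype.card F ≠ 2 ∨ Fintype.card ι ≠ 4 := Or.inr (by omega)
  obtain ⟨e₁, f₁, -, -, he₁, hf₁, hef₁, -⟩ := id hH
  have he₁0 : e₁ ≠ 0 := by
    rintro rfl
    rw [QuadraticMap.polar_zero_left] at hef₁
    exact zero_ne_one hef₁
  have hf₁0 : f₁ ≠ 0 := by
    rintro rfl
    rw [QuadraticMap.polar_zero_right] at hef₁
    exact zero_ne_one hef₁
  have hnt : Nontrivial (Cfsg.POmega F ⇑Q) := by
    obtain ⟨g, hg, hmove⟩ := omega_trans Q hQ hn e₁ f₁ he₁0 he₁ hf₁0 hf₁
    have hgZ : (⟨g, hg⟩ : ↥(commutator ↥(Cfsg.isometryGroup F ⇑Q)))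
        ∉ Subgroup.center ↥(commutator ↥(Cfsg.isometryGroup F ⇑Q)) := by
      intro hz
      have h1 := center_cases Q hQ hc hn e₁ he₁0 he₁ ⟨g, hg⟩ hz
      have h2 := scalar_fix Q g h1 (pt Q e₁ he₁0 he₁)
      rw [hmove] at h2
      have h3 : f₁ ∈ Submodule.span F {e₁} := by
        have h4 := congrArg Subtype.val h2
        change Submodule.span F {f₁} = Submodule.span F {e₁} at h4
        rw [← h4]
        exact Submodule.subset_span rfl
      obtain ⟨c, rfl⟩ := Submodule.mem_span_singleton.1 h3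
      rw [QuadraticMap.polar_smul_right, polar_self_of_sing Q e₁ he₁, smul_zero] at hef₁
      exact zero_ne_one hef₁
    exact ⟨⟨QuotientGroup.mk ⟨g, hg⟩, 1, fun h => hgZ ((QuotientGroup.eq_one_iff _).1 h)⟩⟩
  refine ⟨fun N hN => ?_⟩
  have hN₀ : (N.comap (QuotientGroup.mk' (Subgroup.center
      ↥(commutator ↥(Cfsg.isometryGroup F ⇑Q))))).Normal := hN.comap _
  by_cases hfix : MulAction.fixedPoints ↥(N.comap (QuotientGroup.mk' (Subgroup.center
      ↥(commutator ↥(Cfsg.isometryGroup F ⇑Q))))) (SPt Q) = Set.univ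
  · left
    rw [Subgroup.eq_bot_iff_forall]
    intro x hx
    obtain ⟨g, rfl⟩ := QuotientGroup.mk_surjective x
    have hgN : g ∈ N.comap (QuotientGroup.mk' (Subgroup.center
        ↥(commutator ↥(Cfsg.isometryGroup F ⇑Q)))) := hx
    rw [QuotientGroup.eq_one_iff]
    apply scalar_central Q g
    apply fix_scalar Q hQ hn (g : ↥(Cfsg.isometryGroup F ⇑Q)) ?_ e₁ f₁ he₁ hf₁ hef₁
    intro p
    have h1 := Set.eq_univ_iff_forall.1 hfix p
    exact h1 ⟨g, hgN⟩
  · right
    have hle := (iwasawa Q hQ hn hH).commutator_le _ hfix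
    rw [hperf] at hle
    rw [Subgroup.eq_top_iff']
    intro x
    obtain ⟨g, rfl⟩ := QuotientGroup.mk_surjective x
    exact hle (Subgroup.mem_top g)

end Cfsg.Agent.Lib.Helper15.OmegaSimple
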