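import Mathlib
import Cfsg.Agent.Lib.Helper15.OmegaSimple
import Cfsg.Prelude.Def_LieTypeDatum

/-!
# Automorphisms of `PΩ` induced by isometries

`conjAut Q : O(Q) →* Aut(PΩ(Q))` is conjugation.  Its kernel is `{±1}`; the image of the special
orthogonal group is `Cfsg.psoAut`, the image of `Ω` is the group of inner automorphisms, and the
index of the latter in the former is the order of the centre of `Ω` (odd characteristic, even
dimension).
-/

set_option autoImplicit false

namespace Cfsg.Agent.Lib.Helper15.AutOmega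

open Module Cfsg.Agent.Lib.Helper15.Spinor Cfsg.Agent.Lib.Helper15.CD2
  Cfsg.Agent.Lib.Helper15.Parity Cfsg.Agent.Lib.Helper15.Witt Cfsg.Agent.Lib.Helper15.WittInf
  Cfsg.Agent.Lib.Helper15.OrthGen Cfsg.Agent.Lib.Helper15.HypPair
  Cfsg.Agent.Lib.Helper15.CenterOmega Cfsg.Agent.Lib.Helper15.Eichler
  Cfsg.Agent.Lib.Helper15.EichGen Cfsg.Agent.Lib.Helper15.SingPts
  Cfsg.Agent.Lib.Helper15.OmegaSimple

/-- The automorphism of `G / Z(G)` induced by an automorphism of `G`. -/
noncomputable def quotAut (G : Type*) [Group G] : MulAut G →* MulAut (G ⧸ Subgroup.center G) where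
  toFun e := QuotientGroup.congr (Subgroup.center G) (Subgroup.center G) e
    (Subgroup.characteristic_iff_map_eq.1 inferInstance e)
  map_one' := by
    ext x
    induction x using QuotientGroup.induction_on
    rfl
  map_mul' := fun e₁ e₂ => by
    ext x
    induction x using QuotientGroup.induction_on
    rfl

theorem quotAut_mk (G : Type*) [Group G] (e : MulAut G) (x : G) :
    quotAut G e (QuotientGroup.mk x) = QuotientGroup.mk (e x) := rfl

/-- The order of the image of a subgroup under a homomorphism. -/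
theorem card_map_mul {G H : Type*} [Group G] [Group H] (f : G →* H) (B : Subgroup G) :
    Nat.card ↥(B.map f) * Nat.card ↥(f.ker ⊓ B) = Nat.card ↥B := by
  have h1 : (f.comp B.subtype).range = B.map f := by
    rw [MonoidHom.range_comp, Subgroup.range_subtype]
  have h2 : (f.comp B.subtype).ker = f.ker.subgroupOf B := (MonoidHom.comap_ker f B.subtype).symm
  have h3 := Subgroup.card_eq_card_quotient_mul_card_subgroup (f.comp B.subtype).ker
  have h4 := Nat.card_congr (QuotientGroup.quotientKerEquivRange (f.comp B.subtype)).toEquiv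
  have h5 : Nat.card ↥(f.ker.subgroupOf B) = Nat.card ↥(f.ker ⊓ B) := by
    rw [← Subgroup.inf_subgroupOf_right]
    exact Nat.card_congr (Subgroup.subgroupOfEquivOfLe inf_le_right).toEquiv
  rw [h4, h1, h2, h5] at h3
  exact h3.symm

/-- `relIndex` as a quotient of orders. -/
theorem relIndex_mul_card {G : Type*} [Group G] (H K : Subgroup G) (hle : H ≤ K) :
    H.relIndex K * Nat.card ↥H = Nat.card ↥K := by
  have h1 := Subgroup.card_mul_index (H.subgroupOf K)
  have h2 : Nat.card ↥(H.subgroupOf K) = Nat.card ↥H :=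
    Nat.card_congr (Subgroup.subgroupOfEquivOfLe hle).toEquiv
  rw [h2, mul_comm] at h1
  exact h1

variable {F : Type*} [Field F] [Fintype F] {ι : Type} [Fintype ι] [DecidableEq ι]

/-- Conjugation by an isometry, as an automorphism of `PΩ`. -/
noncomputable def conjAut (Q : QuadraticForm F (ι → F)) :
    ↥(Cfsg.isometryGroup F ⇑Q) →* MulAut (Cfsg.POmega F ⇑Q) :=
  (quotAut ↥(commutator ↥(Cfsg.isometryGroup F ⇑Q))).comp MulAut.conjNormal

omit [Fintype F] in
theorem conjAut_mk (Q : QuadraticForm F (ι → F)) (g : ↥(Cfsg.isometryGroup F ⇑Q))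
    (s : ↥(commutator ↥(Cfsg.isometryGroup F ⇑Q))) :
    conjAut Q g (QuotientGroup.mk s) = QuotientGroup.mk (MulAut.conjNormal g s) := rfl

omit [Fintype F] in
/-- On `Ω`, `conjAut` is the inner automorphism. -/
theorem conjAut_coe (Q : QuadraticForm F (ι → F))
    (s : ↥(commutator ↥(Cfsg.isometryGroup F ⇑Q))) :
    conjAut Q (s : ↥(Cfsg.isometryGroup F ⇑Q))
      = MulAut.conj (QuotientGroup.mk s : Cfsg.POmega F ⇑Q) := by
  ext y
  induction y using QuotientGroup.induction_on with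
  | H t =>
    rw [conjAut_mk, MulAut.conj_apply, ← QuotientGroup.mk_mul, ← QuotientGroup.mk_inv,
      ← QuotientGroup.mk_mul]
    congr 1

omit [Fintype F] in
/-- An isometry commuting with `Ω` induces the trivial automorphism. -/
theorem conjAut_of_comm (Q : QuadraticForm F (ι → F)) (g : ↥(Cfsg.isometryGroup F ⇑Q))
    (hg : ∀ s ∈ commutator ↥(Cfsg.isometryGroup F ⇑Q), g * s = s * g) : conjAut Q g = 1 := by
  ext y
  induction y using QuotientGroup.induction_on with
  | H t =>
    rw [conjAut_mk]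
    have h1 : MulAut.conjNormal g t = t := by
      apply Subtype.ext
      rw [MulAut.conjNormal_apply, hg t.1 t.2, mul_inv_cancel_right]
    rw [h1]
    rfl

omit [Fintype F] in
theorem comm_mem_center (Q : QuadraticForm F (ι → F))
    (g : ↥(Cfsg.isometryGroup F ⇑Q)) (hg : conjAut Q g = 1) :
    ∀ s : ↥(commutator ↥(Cfsg.isometryGroup F ⇑Q)),
      s⁻¹ * MulAut.conjNormal g s ∈ Subgroup.center ↥(commutator ↥(Cfsg.isometryGroup F ⇑Q)) := by
  intro s
  have h1 : conjAut Q g (QuotientGroup.mk s) = QuotientGroup.mk s := by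
    rw [hg]
    rfl
  rw [conjAut_mk] at h1
  exact QuotientGroup.eq.1 h1.symm

omit [Fintype F] in
theorem exists_comm_hom (Q : QuadraticForm F (ι → F))
    (g : ↥(Cfsg.isometryGroup F ⇑Q)) (hcen : ∀ s : ↥(commutator ↥(Cfsg.isometryGroup F ⇑Q)),
      s⁻¹ * MulAut.conjNormal g s ∈ Subgroup.center ↥(commutator ↥(Cfsg.isometryGroup F ⇑Q))) :
    ∃ χ : ↥(commutator ↥(Cfsg.isometryGroup F ⇑Q)) →*
      ↥(Subgroup.center ↥(commutator ↥(Cfsg.isometryGroup F ⇑Q))),
      ∀ s, ((χ s : ↥(commutator ↥(Cfsg.isometryGroup F ⇑Q))) : ↥(Cfsg.isometryGroup F ⇑Q))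
        = (s : ↥(Cfsg.isometryGroup F ⇑Q))⁻¹ * (g * (s : ↥(Cfsg.isometryGroup F ⇑Q)) * g⁻¹) := by
  refine ⟨MonoidHom.mk' (fun s => ⟨s⁻¹ * MulAut.conjNormal g s, hcen s⟩) ?_, ?_⟩
  · intro s t
    apply Subtype.ext
    have hz := Subgroup.mem_center_iff.1 (hcen s) t⁻¹
    change (s * t)⁻¹ * MulAut.conjNormal g (s * t)
      = (s⁻¹ * MulAut.conjNormal g s) * (t⁻¹ * MulAut.conjNormal g t)
    rw [map_mul, mul_inv_rev, mul_assoc, ← mul_assoc s⁻¹, ← mul_assoc t⁻¹, hz]
    group
  · intro s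
    change ((s⁻¹ * MulAut.conjNormal g s : ↥(commutator ↥(Cfsg.isometryGroup F ⇑Q))) :
      ↥(Cfsg.isometryGroup F ⇑Q)) = _
    rw [Subgroup.coe_mul, Subgroup.coe_inv, MulAut.conjNormal_apply]

/-- An isometry inducing the trivial automorphism of `PΩ` commutes with `Ω`. -/
theorem comm_of_conjAut (Q : QuadraticForm F (ι → F))
    (hQ : (QuadraticMap.polarBilin Q).Nondegenerate) (hn : 5 ≤ Fintype.card ι) (hH : HP2 Q)
    (g : ↥(Cfsg.isometryGroup F ⇑Q)) (hg : conjAut Q g = 1) :
    ∀ s ∈ commutator ↥(Cfsg.isometryGroup F ⇑Q), g * s = s * g := by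
  obtain ⟨χ, hχ⟩ := exists_comm_hom Q g (comm_mem_center Q g hg)
  have hker : commutator ↥(commutator ↥(Cfsg.isometryGroup F ⇑Q)) ≤ χ.ker := by
    rw [commutator_eq_closure (G := ↥(commutator ↥(Cfsg.isometryGroup F ⇑Q))),
      Subgroup.closure_le]
    rintro _ ⟨a, b, rfl⟩
    rw [SetLike.mem_coe, MonoidHom.mem_ker]
    simp only [commutatorElement_def, map_mul, map_inv]
    have hz := Subgroup.mem_center_iff.1 (χ a).2 (χ b).1
    apply Subtype.ext
    simp only [Subgroup.coe_mul, Subgroup.coe_inv, Subgroup.coe_one]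
    rw [← hz, mul_inv_cancel_right, mul_inv_cancel]
  rw [omega_perfect_top Q hQ hn hH] at hker
  intro s hs
  have h2 : χ ⟨s, hs⟩ = 1 := hker (Subgroup.mem_top _)
  have h3 := hχ ⟨s, hs⟩
  rw [h2, Subgroup.coe_one, Subgroup.coe_one] at h3
  have h4 : s = g * s * g⁻¹ := by
    have h5 := congrArg (fun z => s * z) h3
    simp only [mul_one, mul_inv_cancel_left] at h5
    exact h5
  calc g * s = g * s * g⁻¹ * g := by group
    _ = s * g := by rw [← h4]

/-- An isometry inducing the trivial automorphism of `PΩ` is `±1`. -/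
theorem conjAut_eq_one (Q : QuadraticForm F (ι → F))
    (hQ : (QuadraticMap.polarBilin Q).Nondegenerate) (hn : 5 ≤ Fintype.card ι) (hH : HP2 Q)
    (g : ↥(Cfsg.isometryGroup F ⇑Q)) (hg : conjAut Q g = 1) :
    (∀ x, act Q g x = x) ∨ (∀ x, act Q g x = -x) := by
  have hc : Fintype.card F ≠ 2 ∨ Fintype.card ι ≠ 4 := Or.inr (by omega)
  obtain ⟨e₁, f₁, -, -, he₁, hf₁, hef₁, -⟩ := id hH
  exact central_scalar Q hQ hc hn g (comm_of_conjAut Q hQ hn hH g hg) e₁ f₁ he₁ hf₁ hef₁

/-- The image of the special orthogonal group is `psoAut`. -/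
theorem psoAut_eq (Q : QuadraticForm F (ι → F)) :
    Cfsg.psoAut F ⇑Q = (Cfsg.specialIsometryGroup F ⇑Q).map (conjAut Q) := by
  unfold Cfsg.psoAut Cfsg.autSubgroupOf
  have hmap : ∀ M : Matrix ι ι F, M.map (RingEquiv.refl F) = M := fun M => by
    ext i j
    rfl
  have hset : {β : MulAut (Cfsg.POmega F ⇑Q) | Cfsg.IsSpecialIsometryInducedAutPOmega ⇑Q β}
      = ((Cfsg.specialIsometryGroup F ⇑Q).map (conjAut Q) : Set (MulAut (Cfsg.POmega F ⇑Q))) := by
    ext β
    constructor
    · rintro ⟨g, hg, hind⟩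
      have hg1 : g ∈ Cfsg.isometryGroup F ⇑Q := hg.1
      have hg2 : Matrix.GeneralLinearGroup.det g = 1 := hg.2
      refine ⟨⟨g, hg1⟩, ?_, ?_⟩
      · rw [SetLike.mem_coe, Cfsg.Agent.Lib.Helper15.CartanD.mem_special]
        have h3 := congrArg Units.val hg2
        exact h3
      · ext y
        induction y using QuotientGroup.induction_on with
        | H s =>
          rw [conjAut_mk]
          symm
          apply hind s (MulAut.conjNormal (⟨g, hg1⟩ : ↥(Cfsg.isometryGroup F ⇑Q)) s)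
          rw [hmap, MulAut.conjNormal_apply]
          rfl
    · rintro ⟨g, hg, rfl⟩
      refine ⟨(g : Matrix.GeneralLinearGroup ι F), ⟨g.2, ?_⟩, ?_⟩
      · have hg' : g ∈ Cfsg.specialIsometryGroup F ⇑Q := hg
        rw [Cfsg.Agent.Lib.Helper15.CartanD.mem_special] at hg'
        change Matrix.GeneralLinearGroup.det (g : Matrix.GeneralLinearGroup ι F) = 1
        apply Units.ext
        exact hg'
      · intro s s' hs'
        rw [conjAut_mk]
        congr 1
        apply Subtype.ext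
        apply Subtype.ext
        apply Units.ext
        rw [hs', hmap, MulAut.conjNormal_apply]
        rfl
  rw [hset, Subgroup.closure_eq]

omit [Fintype F] in
/-- The image of `Ω` is the group of inner automorphisms. -/
theorem inn_eq (Q : QuadraticForm F (ι → F)) :
    Cfsg.Inn (Cfsg.POmega F ⇑Q) = (commutator ↥(Cfsg.isometryGroup F ⇑Q)).map (conjAut Q) := by
  ext β
  constructor
  · rintro ⟨x, rfl⟩
    obtain ⟨s, rfl⟩ := QuotientGroup.mk_surjective x
    exact ⟨s.1, s.2, conjAut_coe Q s⟩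
  · rintro ⟨g, hg, rfl⟩
    exact ⟨QuotientGroup.mk ⟨g, hg⟩, (conjAut_coe Q ⟨g, hg⟩).symm⟩

omit [Fintype F] in
/-- The isometry `-1`. -/
theorem exists_neg (Q : QuadraticForm F (ι → F)) :
    ∃ z : ↥(Cfsg.isometryGroup F ⇑Q),
      ((z : Matrix.GeneralLinearGroup ι F) : Matrix ι ι F) = -1 := by
  exact exists_iso Q (-1) (-1) (by simp) (by simp)
    (fun x => by rw [Matrix.neg_mulVec, Matrix.one_mulVec, QuadraticMap.map_neg])

/-- The kernel of `conjAut` on the special orthogonal group has order two. -/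
theorem card_ker_so (h2 : (2 : F) ≠ 0) (Q : QuadraticForm F (ι → F))
    (hQ : (QuadraticMap.polarBilin Q).Nondegenerate) (hn : 5 ≤ Fintype.card ι) (hH : HP2 Q)
    (heven : Even (Fintype.card ι)) :
    Nat.card ↥((conjAut Q).ker ⊓ Cfsg.specialIsometryGroup F ⇑Q) = 2 := by
  obtain ⟨z, hzmat⟩ := exists_neg Q
  have hz : ∀ x, act Q z x = -x := fun x => by
    rw [act_apply, hzmat, Matrix.neg_mulVec, Matrix.one_mulVec]
  obtain ⟨e₁, f₁, -, -, he₁, hf₁, hef₁, -⟩ := id hH
  have he₁0 : e₁ ≠ 0 := by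
    rintro rfl
    rw [QuadraticMap.polar_zero_left] at hef₁
    exact zero_ne_one hef₁
  have hz1 : z ≠ 1 := by
    intro h
    have h3 := hz e₁
    rw [h, act_one] at h3
    apply he₁0
    have h4 : (2 : F) • e₁ = 0 := by
      rw [two_smul]
      nth_rewrite 1 [h3]
      exact neg_add_cancel e₁
    rcases smul_eq_zero.1 h4 with h5 | h5
    · exact absurd h5 h2
    · exact h5
  have hzk : z ∈ (conjAut Q).ker := by
    rw [MonoidHom.mem_ker]
    apply conjAut_of_comm
    intro s _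
    apply act_ext Q
    intro x
    rw [act_mul, act_mul, hz, hz, map_neg]
  have hzs : z ∈ Cfsg.specialIsometryGroup F ⇑Q := by
    rw [Cfsg.Agent.Lib.Helper15.CartanD.mem_special, hzmat, Matrix.det_neg, Matrix.det_one,
      mul_one, heven.neg_one_pow]
  rw [Nat.card_eq_two_iff]
  refine ⟨⟨1, Subgroup.one_mem _⟩, ⟨z, hzk, hzs⟩, ?_, ?_⟩
  · intro h
    exact hz1 (congrArg Subtype.val h).symm
  · apply Set.eq_univ_of_forall
    rintro ⟨g, hgk, hgs⟩
    rcases conjAut_eq_one Q hQ hn hH g hgk with h | h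
    · left
      apply Subtype.ext
      apply act_ext Q
      intro x
      change act Q g x = act Q 1 x
      rw [h, act_one]
    · right
      apply Subtype.ext
      apply act_ext Q
      intro x
      change act Q g x = act Q z x
      rw [h, hz]

/-- The kernel of `conjAut` on `Ω` is the centre of `Ω`. -/
theorem card_ker_omega (Q : QuadraticForm F (ι → F))
    (hQ : (QuadraticMap.polarBilin Q).Nondegenerate) (hn : 5 ≤ Fintype.card ι) (hH : HP2 Q) :
    Nat.card ↥((conjAut Q).ker ⊓ commutator ↥(Cfsg.isometryGroup F ⇑Q))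
      = Nat.card ↥(Subgroup.center ↥(commutator ↥(Cfsg.isometryGroup F ⇑Q))) := by
  have h : (Subgroup.center ↥(commutator ↥(Cfsg.isometryGroup F ⇑Q))).map
      (commutator ↥(Cfsg.isometryGroup F ⇑Q)).subtype
      = (conjAut Q).ker ⊓ commutator ↥(Cfsg.isometryGroup F ⇑Q) := by
    ext g
    constructor
    · rintro ⟨s, hs, rfl⟩
      refine ⟨?_, s.2⟩
      change conjAut Q (s : ↥(Cfsg.isometryGroup F ⇑Q)) = 1
      rw [conjAut_coe, (QuotientGroup.eq_one_iff s).2 hs, map_one]
    · rintro ⟨hgk, hgo⟩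
      exact ⟨⟨g, hgo⟩, scalar_central Q ⟨g, hgo⟩ (conjAut_eq_one Q hQ hn hH g hgk), rfl⟩
  rw [← h]
  exact (Nat.card_congr (Subgroup.equivMapOfInjective _ _
    (Subgroup.subtype_injective _)).toEquiv).symm

/-- The special orthogonal group has index two (odd characteristic). -/
theorem so_index (h2 : (2 : F) ≠ 0) (Q : QuadraticForm F (ι → F))
    (hQ : (QuadraticMap.polarBilin Q).Nondegenerate) (hn : 2 ≤ Fintype.card ι) :
    (Cfsg.specialIsometryGroup F ⇑Q).index = 2 := by
  have hneg : (-1 : F) ≠ 1 := by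
    intro h1
    apply h2
    linear_combination -h1
  obtain ⟨w, hw⟩ := Cfsg.Agent.Lib.Helper15.CartanD.universal h2 Q hQ hn 1
  have hw0 : Q w ≠ 0 := by rw [hw]; exact one_ne_zero
  refine Subgroup.index_eq_two_iff.2 ⟨reflO Q w, fun b => ?_⟩
  obtain ⟨vs, hvs, rfl⟩ := Cfsg.Agent.Lib.Helper15.CartanD.cartan_dieudonne h2 Q hQ b
  have e : prodRefl Q vs * reflO Q w = prodRefl Q (vs ++ [w]) := by
    rw [prodRefl_append, prodRefl_cons, prodRefl_nil, mul_one]
  have hvs' : ∀ v ∈ vs ++ [w], Q v ≠ 0 := by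
    intro v hv
    rw [List.mem_append, List.mem_singleton] at hv
    rcases hv with hv | rfl
    · exact hvs v hv
    · exact hw0
  rw [e, Cfsg.Agent.Lib.Helper15.CartanD.mem_special,
    Cfsg.Agent.Lib.Helper15.CartanD.mem_special,
    Cfsg.Agent.Lib.Helper15.CartanD.det_prodRefl Q _ hvs',
    Cfsg.Agent.Lib.Helper15.CartanD.det_prodRefl Q _ hvs,
    neg_one_pow_eq_one_iff_even hneg, neg_one_pow_eq_one_iff_even hneg, List.length_append,
    List.length_singleton, Nat.even_add_one]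
  unfold Xor
  tauto

/-- **The index of the inner automorphisms in the image of `SO`** is the order of the centre of
`Ω` (odd characteristic, even dimension). -/
theorem relIndex_inn_pso (h2 : (2 : F) ≠ 0) (Q : QuadraticForm F (ι → F))
    (hQ : (QuadraticMap.polarBilin Q).Nondegenerate) (hn : 5 ≤ Fintype.card ι) (hH : HP2 Q)
    (heven : Even (Fintype.card ι)) :
    (Cfsg.Inn (Cfsg.POmega F ⇑Q)).relIndex (Cfsg.psoAut F ⇑Q)
      = Nat.card ↥(Subgroup.center ↥(commutator ↥(Cfsg.isometryGroup F ⇑Q))) := by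
  rw [psoAut_eq, inn_eq]
  have hle : commutator ↥(Cfsg.isometryGroup F ⇑Q) ≤ Cfsg.specialIsometryGroup F ⇑Q := by
    unfold Cfsg.specialIsometryGroup
    exact Abelianization.commutator_subset_ker _
  have hle' : (commutator ↥(Cfsg.isometryGroup F ⇑Q)).map (conjAut Q)
      ≤ (Cfsg.specialIsometryGroup F ⇑Q).map (conjAut Q) := Subgroup.map_mono hle
  have hA := card_map_mul (conjAut Q) (Cfsg.specialIsometryGroup F ⇑Q)
  have hB := card_map_mul (conjAut Q) (commutator ↥(Cfsg.isometryGroup F ⇑Q))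
  rw [card_ker_so h2 Q hQ hn hH heven] at hA
  rw [card_ker_omega Q hQ hn hH] at hB
  have hR := relIndex_mul_card _ _ hle'
  have hidx : (commutator ↥(Cfsg.isometryGroup F ⇑Q)).relIndex
      (Cfsg.specialIsometryGroup F ⇑Q) = 2 := by
    have h1 := Subgroup.relIndex_mul_index hle
    have h3 := Cfsg.Agent.Lib.Helper15.CartanD.omega_index h2 Q hQ (by omega)
    change (commutator ↥(Cfsg.isometryGroup F ⇑Q)).index = 4 at h3
    rw [so_index h2 Q hQ (by omega), h3] at h1
    omega
  have hC := relIndex_mul_card _ _ hle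
  rw [hidx] at hC
  have hW : 0 < Nat.card ↥(commutator ↥(Cfsg.isometryGroup F ⇑Q)) := Nat.card_pos
  obtain ⟨A, hAdef⟩ : ∃ A, A = Nat.card ↥((Cfsg.specialIsometryGroup F ⇑Q).map (conjAut Q)) :=
    ⟨_, rfl⟩
  obtain ⟨B, hBdef⟩ : ∃ B, B = Nat.card ↥((commutator ↥(Cfsg.isometryGroup F ⇑Q)).map
    (conjAut Q)) := ⟨_, rfl⟩
  rw [← hAdef] at hA hR
  rw [← hBdef] at hB hR
  have hAW : A = Nat.card ↥(commutator ↥(Cfsg.isometryGroup F ⇑Q)) := by omega
  have hBpos : 0 < B := by
    rcases Nat.eq_zero_or_pos B with h | h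
    · rw [h, zero_mul] at hB
      omega
    · exact h
  apply Nat.eq_of_mul_eq_mul_right hBpos
  rw [hR, hAW, ← hB, mul_comm]

/-- The index of the inner automorphisms in the image of `SO` is `2` or `1` according as `-1` lies
in `Ω` or not. -/
theorem relIndex_cases (h2 : (2 : F) ≠ 0) (Q : QuadraticForm F (ι → F))
    (hQ : (QuadraticMap.polarBilin Q).Nondegenerate) (hn : 5 ≤ Fintype.card ι) (hH : HP2 Q)
    (heven : Even (Fintype.card ι)) :
    ((∃ g : ↥(Cfsg.isometryGroup F ⇑Q), g ∈ Cfsg.Omega F ⇑Q ∧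
        ((g : Matrix.GeneralLinearGroup ι F) : Matrix ι ι F) = -1) →
      (Cfsg.Inn (Cfsg.POmega F ⇑Q)).relIndex (Cfsg.psoAut F ⇑Q) = 2) ∧
    ((¬ ∃ g : ↥(Cfsg.isometryGroup F ⇑Q), g ∈ Cfsg.Omega F ⇑Q ∧
        ((g : Matrix.GeneralLinearGroup ι F) : Matrix ι ι F) = -1) →
      (Cfsg.Inn (Cfsg.POmega F ⇑Q)).relIndex (Cfsg.psoAut F ⇑Q) = 1) := by
  obtain ⟨e₁, f₁, -, -, he₁, hf₁, hef₁, -⟩ := id hH
  have he₁0 : e₁ ≠ 0 := by
    rintro rfl
    rw [QuadraticMap.polar_zero_left] at hef₁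
    exact zero_ne_one hef₁
  rw [relIndex_inn_pso h2 Q hQ hn hH heven]
  exact ⟨fun h => card_center_in h2 Q hQ hn e₁ he₁0 he₁ h,
    fun h => card_center_out h2 Q hQ hn e₁ he₁0 he₁ h⟩

end Cfsg.Agent.Lib.Helper15.AutOmega
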