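import Mathlib
import Cfsg.Prelude.Def_Classical
import Cfsg.Agent.Lib.Helper15.QForm
import Cfsg.Agent.Lib.Helper15.StdForms
import Cfsg.Agent.Lib.Helper15.EvenForms

set_option autoImplicit false

namespace Cfsg.Agent.Lib.Helper15.BaseChange

open Module Polynomial

/-- An irreducible quadratic over a finite field has a root in the quadratic extension. -/
theorem root_in_quadratic_ext {F K : Type*} [Field F] [Field K] [Finite K] [Algebra F K]
    (h2 : finrank F K = 2) (a c : F)
    (hac : ∀ z₁ z₂ : F, z₁ ^ 2 + a * z₁ * z₂ + c * z₂ ^ 2 = 0 → z₁ = 0 ∧ z₂ = 0) :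
    ∃ θ : K, θ ^ 2 - algebraMap F K a * θ + algebraMap F K c = 0 := by
  let P : F[X] := C 1 * X ^ 2 + C (-a) * X + C c
  have hdeg : P.natDegree = 2 := natDegree_quadratic one_ne_zero
  have hP0 : P ≠ 0 := by
    intro h
    rw [h, natDegree_zero] at hdeg
    omega
  have hirr : Irreducible P := by
    apply irreducible_of_degree_le_three_of_not_isRoot
    · rw [hdeg]; decide
    · intro r hr
      have h0 : 1 * r ^ 2 + -a * r + c = 0 := by simpa [P, IsRoot] using hr
      have h1 := hac r (-1) (by linear_combination h0)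
      exact one_ne_zero (neg_eq_zero.mp h1.2)
  have : Fact (Irreducible P) := ⟨hirr⟩
  have hfr : finrank F (AdjoinRoot P) = 2 := by
    rw [(AdjoinRoot.powerBasis hP0).finrank, AdjoinRoot.powerBasis_dim, hdeg]
  obtain ⟨σ⟩ := FiniteField.nonempty_algHom_of_finrank_dvd (F := F) (K := AdjoinRoot P) (L := K)
    (by rw [hfr, h2])
  refine ⟨σ (AdjoinRoot.root P), ?_⟩
  have h' : aeval (σ (AdjoinRoot.root P)) P = 0 := by
    rw [aeval_algHom_apply, AdjoinRoot.aeval_eq, AdjoinRoot.mk_self, map_zero]
  have h'' : 1 * (σ (AdjoinRoot.root P)) ^ 2 + -(algebraMap F K a) * σ (AdjoinRoot.root P)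
      + algebraMap F K c = 0 := by
    simpa [P] using h'
  linear_combination h''

/-- Base change of isometries: the isometry group of a form over `F` acts faithfully on the
extended space preserving the extended quadratic form. -/
theorem base_change_embed {F K : Type*} [Field F] [Field K] (f : F →+* K) {ι : Type} [Fintype ι]
    [DecidableEq ι] (QF : (ι → F) → F) (QK : QuadraticForm K (ι → K))
    (hcompat : ∀ v : ι → F, QK (f ∘ v) = f (QF v)) :
    ∃ ρ : ↥(Cfsg.isometryGroup F QF) →* ((ι → K) →ₗ[K] (ι → K)),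
      Function.Injective ρ ∧ ∀ g x, QK (ρ g x) = QK x := by
  classical
  let ρ : ↥(Cfsg.isometryGroup F QF) →* ((ι → K) →ₗ[K] (ι → K)) :=
    { toFun := fun g =>
        Matrix.toLin' (((g : Matrix.GeneralLinearGroup ι F) : Matrix ι ι F).map f)
      map_one' := by
        apply LinearMap.ext
        intro x
        simp
      map_mul' := by
        intro g h
        apply LinearMap.ext
        intro x
        simp [Matrix.map_mul, Matrix.toLin'_mul] }
  have hρdef : ∀ g, ρ g
      = Matrix.toLin' (((g : Matrix.GeneralLinearGroup ι F) : Matrix ι ι F).map f) := fun g => rfl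
  have hρapp : ∀ g (u : ι → F), ρ g (f ∘ u)
      = f ∘ (((g : Matrix.GeneralLinearGroup ι F) : Matrix ι ι F).mulVec u) := by
    intro g u
    funext i
    rw [hρdef, Matrix.toLin'_apply]
    exact (RingHom.map_mulVec f _ u i).symm
  refine ⟨ρ, ?_, ?_⟩
  · intro g h hgh
    apply Subtype.ext
    apply Units.ext
    rw [hρdef, hρdef] at hgh
    exact Matrix.map_injective f.injective (Matrix.toLin'.injective hgh)
  · intro g
    have hvec : ∀ u : ι → F, QK (ρ g (f ∘ u)) = QK (f ∘ u) := by
      intro u
      rw [hρapp, hcompat, hcompat]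
      exact congrArg f (g.2 u u)
    have hb : ∀ i, (Pi.basisFun K ι) i = f ∘ (Pi.single i (1 : F)) := by
      intro i
      funext j
      simp only [Pi.basisFun_apply, Function.comp_apply, Pi.single_apply]
      split_ifs <;> simp
    have hb2 : ∀ i j, (Pi.basisFun K ι) i + (Pi.basisFun K ι) j
        = f ∘ (Pi.single i (1 : F) + Pi.single j (1 : F)) := by
      intro i j
      rw [hb, hb]
      funext l
      simp only [Pi.add_apply, Function.comp_apply, map_add]
    have key : QK.comp (ρ g) = QK := by
      apply Cfsg.Agent.Lib.Helper15.QForm.ext_basis (Pi.basisFun K ι)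
      · intro i
        rw [QuadraticMap.comp_apply, hb, hvec]
      · intro i j
        unfold QuadraticMap.polar
        rw [hb2, QuadraticMap.comp_apply, QuadraticMap.comp_apply, QuadraticMap.comp_apply, hb, hb,
          hvec, hvec, hvec]
    intro x
    have h1 := congrArg (fun q : QuadraticForm K (ι → K) => q x) key
    exact h1

/-- Over a field containing a root of `X² - aX + c`, the minus-type form becomes the plus-type
form. -/
theorem minus_to_plus {K : Type*} [Field K] (k : ℕ) (a c θ : K) (hθ : θ ^ 2 - a * θ + c = 0)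
    (hd : 4 * c - a ^ 2 ≠ 0) :
    ∃ T : ((Fin k ⊕ Fin k) ⊕ Fin 2 → K) ≃ₗ[K] (Fin (k + 1) ⊕ Fin (k + 1) → K),
      ∀ v, Cfsg.quadFormMinus k K a c v = Cfsg.quadFormPlus (k + 1) K (T v) := by
  classical
  let T₀ : ((Fin k ⊕ Fin k) ⊕ Fin 2 → K) →ₗ[K] (Fin (k + 1) ⊕ Fin (k + 1) → K) :=
    { toFun := fun v => Sum.elim
        (Fin.snoc (α := fun _ => K) (fun j : Fin k => v (Sum.inl (Sum.inl j)))
          (v (Sum.inr 0) + θ * v (Sum.inr 1)))
        (Fin.snoc (α := fun _ => K) (fun j : Fin k => v (Sum.inl (Sum.inr j)))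
          (v (Sum.inr 0) + (a - θ) * v (Sum.inr 1)))
      map_add' := by
        intro v w
        funext i
        rcases i with i | i
        · refine Fin.lastCases ?_ (fun j => ?_) i
          · simp only [Sum.elim_inl, Fin.snoc_last, Pi.add_apply]
            ring
          · simp only [Sum.elim_inl, Fin.snoc_castSucc, Pi.add_apply]
        · refine Fin.lastCases ?_ (fun j => ?_) i
          · simp only [Sum.elim_inr, Fin.snoc_last, Pi.add_apply]
            ring
          · simp only [Sum.elim_inr, Fin.snoc_castSucc, Pi.add_apply]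
      map_smul' := by
        intro r v
        funext i
        rcases i with i | i
        · refine Fin.lastCases ?_ (fun j => ?_) i
          · simp only [Sum.elim_inl, Fin.snoc_last, Pi.smul_apply, smul_eq_mul, RingHom.id_apply]
            ring
          · simp only [Sum.elim_inl, Fin.snoc_castSucc, Pi.smul_apply, smul_eq_mul,
              RingHom.id_apply]
        · refine Fin.lastCases ?_ (fun j => ?_) i
          · simp only [Sum.elim_inr, Fin.snoc_last, Pi.smul_apply, smul_eq_mul, RingHom.id_apply]
            ring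
          · simp only [Sum.elim_inr, Fin.snoc_castSucc, Pi.smul_apply, smul_eq_mul,
              RingHom.id_apply] }
  have hl : ∀ v (j : Fin k), T₀ v (Sum.inl j.castSucc) = v (Sum.inl (Sum.inl j)) := by
    intro v j
    simp only [T₀, LinearMap.coe_mk, AddHom.coe_mk, Sum.elim_inl, Sum.elim_inr, Fin.snoc_castSucc]
  have hl' : ∀ v, T₀ v (Sum.inl (Fin.last k)) = v (Sum.inr 0) + θ * v (Sum.inr 1) := by
    intro v
    simp only [T₀, LinearMap.coe_mk, AddHom.coe_mk, Sum.elim_inl, Sum.elim_inr, Fin.snoc_last]
  have hr : ∀ v (j : Fin k), T₀ v (Sum.inr j.castSucc) = v (Sum.inl (Sum.inr j)) := by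
    intro v j
    simp only [T₀, LinearMap.coe_mk, AddHom.coe_mk, Sum.elim_inl, Sum.elim_inr, Fin.snoc_castSucc]
  have hr' : ∀ v, T₀ v (Sum.inr (Fin.last k)) = v (Sum.inr 0) + (a - θ) * v (Sum.inr 1) := by
    intro v
    simp only [T₀, LinearMap.coe_mk, AddHom.coe_mk, Sum.elim_inl, Sum.elim_inr, Fin.snoc_last]
  have hne : 2 * θ - a ≠ 0 := by
    intro h
    apply hd
    linear_combination 4 * hθ - (2 * θ - a) * h
  have hinj : Function.Injective T₀ := by
    rw [← LinearMap.ker_eq_bot, LinearMap.ker_eq_bot']
    intro v hv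
    have e1 := hl' v
    have e2 := hr' v
    rw [hv] at e1 e2
    simp only [Pi.zero_apply] at e1 e2
    have hz2 : v (Sum.inr 1) = 0 := by
      have h1 : (2 * θ - a) * v (Sum.inr 1) = 0 := by linear_combination e2 - e1
      exact (mul_eq_zero.mp h1).resolve_left hne
    have hz1 : v (Sum.inr 0) = 0 := by
      rw [hz2] at e1
      linear_combination -e1
    funext i
    rcases i with (i | i) | i
    · have h1 := hl v i
      rw [hv] at h1
      exact h1.symm
    · have h1 := hr v i
      rw [hv] at h1
      exact h1.symm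
    · fin_cases i
      · exact hz1
      · exact hz2
  have hdim : finrank K ((Fin k ⊕ Fin k) ⊕ Fin 2 → K) = finrank K (Fin (k + 1) ⊕ Fin (k + 1) → K) := by
    simp only [Module.finrank_fintype_fun_eq_card, Fintype.card_sum, Fintype.card_fin]
    ring
  refine ⟨LinearMap.linearEquivOfInjective T₀ hinj hdim, ?_⟩
  intro v
  rw [LinearMap.linearEquivOfInjective_apply]
  unfold Cfsg.quadFormMinus Cfsg.quadFormPlus
  rw [Fin.sum_univ_castSucc, hl', hr']
  simp only [hl, hr]
  linear_combination ((v (Sum.inr 1)) ^ 2) * hθ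

end Cfsg.Agent.Lib.Helper15.BaseChange
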