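import Mathlib
import Cfsg.Agent.Lib.Helper18.DihedralEquiv

/-!
# Recognising the dihedral group of order eight

A non-abelian group of order eight with two distinct involutions is dihedral.
-/

set_option autoImplicit false

namespace Cfsg.Agent.Lib.Helper15.Dih8

/-- A non-abelian group of order eight with two distinct involutions is dihedral. -/
theorem dihedral_of_eight {K : Type*} [Group K] (hcard : Nat.card K = 8) (u w p q : K)
    (hu : u * u = 1) (hw : w * w = 1) (hu1 : u ≠ 1) (hw1 : w ≠ 1) (huw : u ≠ w)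
    (hnc : p * q ≠ q * p) : Nonempty (K ≃* DihedralGroup 4) := by
  have : Finite K := Nat.finite_of_card_ne_zero (by omega)
  obtain ⟨a, ha⟩ : ∃ a : K, orderOf a = 4 := by
    by_contra hno
    have hsq : ∀ x : K, x * x = 1 := by
      intro x
      have hdvd : orderOf x ∣ 8 := hcard ▸ orderOf_dvd_natCard x
      have hx : orderOf x ∈ Nat.divisors 8 := Nat.mem_divisors.2 ⟨hdvd, by norm_num⟩
      have hdiv : Nat.divisors 8 = {1, 2, 4, 8} := by decide
      rw [hdiv] at hx
      simp only [Finset.mem_insert, Finset.mem_singleton] at hx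
      rcases hx with h | h | h | h
      · rw [orderOf_eq_one_iff] at h
        rw [h, mul_one]
      · rw [← pow_two, ← h]
        exact pow_orderOf_eq_one x
      · exact absurd ⟨x, h⟩ hno
      · exfalso
        apply hno
        refine ⟨x ^ 2, ?_⟩
        rw [orderOf_pow' x (by norm_num), h]
        rfl
    apply hnc
    have e1 : (p * q)⁻¹ = p * q := inv_eq_of_mul_eq_one_left (hsq (p * q))
    have e2 : (p * q)⁻¹ = q * p := inv_eq_of_mul_eq_one_left (by
      rw [mul_assoc, ← mul_assoc p, hsq p, one_mul, hsq q])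
    exact e1.symm.trans e2
  have hcardH : Nat.card (Subgroup.zpowers a) = 4 := by rw [Nat.card_zpowers, ha]
  have hidx : (Subgroup.zpowers a).index = 2 := by
    have h := (Subgroup.zpowers a).card_mul_index
    rw [hcardH, hcard] at h
    omega
  have hnormal : (Subgroup.zpowers a).Normal := Subgroup.normal_of_index_eq_two hidx
  have hmod : ∀ k : ℤ, a ^ k = a ^ (k % 4) := by
    intro k
    have h := zpow_mod_orderOf a k
    rw [ha] at h
    exact h.symm
  have hdvd : ∀ k : ℤ, a ^ k = 1 ↔ (4 : ℤ) ∣ k := by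
    intro k
    have h := orderOf_dvd_iff_zpow_eq_one (x := a) (i := k)
    rw [ha] at h
    exact h.symm
  have hinv : ∀ y ∈ Subgroup.zpowers a, y * y = 1 → y ≠ 1 → y = a ^ (2 : ℤ) := by
    intro y hy hy2 hy1
    obtain ⟨k, rfl⟩ := Subgroup.mem_zpowers_iff.1 hy
    rw [← zpow_add, hdvd] at hy2
    rw [Ne, hdvd] at hy1
    have h2 : k % 4 = 2 := by omega
    rw [hmod k, h2]
  obtain ⟨x, hx2, hxH⟩ : ∃ x : K, x * x = 1 ∧ x ∉ Subgroup.zpowers a := by
    by_cases hu' : u ∈ Subgroup.zpowers a
    · refine ⟨w, hw, fun hw' => huw ?_⟩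
      rw [hinv u hu' hu hu1, hinv w hw' hw hw1]
    · exact ⟨u, hu, hu'⟩
  have hconj : x * a * x⁻¹ ∈ Subgroup.zpowers a :=
    hnormal.conj_mem a (Subgroup.mem_zpowers a) x
  have hord : orderOf (x * a * x⁻¹) = 4 := by
    have h := (MulAut.conj x).orderOf_eq a
    rw [MulAut.conj_apply, ha] at h
    exact h
  obtain ⟨k, hk⟩ := Subgroup.mem_zpowers_iff.1 hconj
  have hk' : a ^ (k % 4) = x * a * x⁻¹ := by rw [← hmod]; exact hk
  have hcases : k % 4 = 0 ∨ k % 4 = 1 ∨ k % 4 = 2 ∨ k % 4 = 3 := by omega
  have hxa : x * a * x⁻¹ = a⁻¹ := by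
    rcases hcases with h | h | h | h
    · exfalso
      rw [h, zpow_zero] at hk'
      rw [← hk', orderOf_one] at hord
      omega
    · exfalso
      rw [h, zpow_one] at hk'
      have hxa : Commute x a := by
        have h3 : x * a = a * x := by
          calc x * a = (x * a * x⁻¹) * x := by group
            _ = a * x := by rw [← hk']
        exact h3
      have key : ∀ g : K, ∃ i : ℤ, g = a ^ i ∨ g = x * a ^ i := by
        intro g
        by_cases hg : g ∈ Subgroup.zpowers a
        · obtain ⟨i, hi⟩ := Subgroup.mem_zpowers_iff.1 hg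
          exact ⟨i, Or.inl hi.symm⟩
        · have h4 : x * g ∈ Subgroup.zpowers a :=
            (Subgroup.mul_mem_iff_of_index_two hidx).2 ⟨fun h => absurd h hxH, fun h => absurd h hg⟩
          obtain ⟨i, hi⟩ := Subgroup.mem_zpowers_iff.1 h4
          refine ⟨i, Or.inr ?_⟩
          rw [hi, ← mul_assoc, hx2, one_mul]
      have haa : ∀ i j : ℤ, Commute (a ^ i) (a ^ j) := fun i j => (Commute.refl a).zpow_zpow i j
      have hxai : ∀ i : ℤ, Commute x (a ^ i) := fun i => hxa.zpow_right i
      apply hnc
      obtain ⟨i, hi | hi⟩ := key p <;> obtain ⟨j, hj | hj⟩ := key q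
      · rw [hi, hj]
        exact (haa i j).eq
      · rw [hi, hj]
        exact (Commute.mul_right (hxai i).symm (haa i j)).eq
      · rw [hi, hj]
        exact (Commute.mul_left (hxai j) (haa i j)).eq
      · rw [hi, hj]
        exact (Commute.mul_left (Commute.mul_right (Commute.refl x) (hxai j))
          (Commute.mul_right (hxai i).symm (haa i j))).eq
    · exfalso
      rw [h] at hk'
      have h5 : (x * a * x⁻¹) ^ 2 = 1 := by
        rw [← hk', ← zpow_natCast, ← zpow_mul, hdvd]
        norm_num
      have h6 := orderOf_dvd_of_pow_eq_one h5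
      rw [hord] at h6
      omega
    · rw [h] at hk'
      rw [← hk']
      have h7 : a ^ (3 : ℤ) * a = 1 := by
        rw [← zpow_add_one, hdvd]
        norm_num
      exact eq_inv_of_mul_eq_one_left h7
  exact Cfsg.Agent.Lib.Helper18.DihedralEquiv.dihedral_equiv 4 (by norm_num) a x ha
    (by rw [pow_two]; exact hx2) hxa hxH (by rw [hcard])

end Cfsg.Agent.Lib.Helper15.Dih8
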