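import Mathlib
import Cfsg.Agent.Lib.Helper15.EvenForms
import Cfsg.Agent.Lib.Helper15.Gram
import Cfsg.Agent.S2621

set_option autoImplicit false

/-! Type (plus/minus) of an even-dimensional symmetric bilinear form over a finite field of odd
characteristic, through its discriminant; discriminant of a tensor product. -/

namespace Cfsg.Agent.Lib.Helper15.DiscType

open Module Matrix Cfsg.Agent.Lib.Helper15.Gram Cfsg.Agent.Lib.Helper15.EvenForms

variable {F : Type*} [Field F]

/-- determinant of a block matrix with zero upper left block -/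
theorem det_zero_block (m : ℕ) (A D C : Matrix (Fin m) (Fin m) F) :
    (Matrix.fromBlocks 0 A D C).det = (-1) ^ m * (A.det * D.det) := by
  have h1 : Matrix.fromBlocks A 0 C D *
      Matrix.fromBlocks (0 : Matrix (Fin m) (Fin m) F) 1 1 0 = Matrix.fromBlocks 0 A D C := by
    rw [Matrix.fromBlocks_multiply]
    simp
  rw [← h1, Matrix.det_mul, Matrix.det_fromBlocks_zero₁₂, det_swap_blocks]
  ring

/-- a totally isotropic subspace of half the dimension forces `(-1)^m disc` to be a square -/
theorem isSquare_of_ti {V : Type*} [AddCommGroup V] [Module F V] [FiniteDimensional F V]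
    (B : LinearMap.BilinForm F V) (hS : B.IsSymm) (m : ℕ) (hV : finrank F V = 2 * m)
    (X : Submodule F V) (hX : finrank F X = m) (hti : ∀ x ∈ X, ∀ y ∈ X, B x y = 0)
    {ι : Type*} [Fintype ι] [DecidableEq ι] (b : Basis ι F V) :
    IsSquare ((-1) ^ m * (LinearMap.BilinForm.toMatrix b B).det) := by
  classical
  obtain ⟨Y, hY⟩ := Submodule.exists_isCompl X
  have hYr : finrank F Y = m := by
    have := Submodule.finrank_add_eq_of_isCompl hY
    omega
  obtain ⟨bX⟩ : Nonempty (Basis (Fin m) F X) := ⟨Module.finBasisOfFinrankEq F X hX⟩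
  obtain ⟨bY⟩ : Nonempty (Basis (Fin m) F Y) := ⟨Module.finBasisOfFinrankEq F Y hYr⟩
  obtain ⟨c, hc⟩ : ∃ c : Basis (Fin m ⊕ Fin m) F V,
      c = (bX.prod bY).map (Submodule.prodEquivOfIsCompl X Y hY) := ⟨_, rfl⟩
  have hc_inl : ∀ i, c (Sum.inl i) = (bX i : V) := by
    intro i
    rw [hc, Basis.map_apply, Submodule.coe_prodEquivOfIsCompl', Basis.prod_apply]
    simp
  -- the Gram matrix in the adapted basis
  have h11 : (LinearMap.BilinForm.toMatrix c B).toBlocks₁₁ = 0 := by
    ext i j
    rw [Matrix.toBlocks₁₁, Matrix.of_apply, LinearMap.BilinForm.toMatrix_apply, hc_inl, hc_inl]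
    exact hti _ (bX i).2 _ (bX j).2
  have h21 : (LinearMap.BilinForm.toMatrix c B).toBlocks₂₁ =
      ((LinearMap.BilinForm.toMatrix c B).toBlocks₁₂).transpose := by
    ext i j
    rw [Matrix.transpose_apply, Matrix.toBlocks₂₁, Matrix.toBlocks₁₂, Matrix.of_apply,
      Matrix.of_apply, LinearMap.BilinForm.toMatrix_apply, LinearMap.BilinForm.toMatrix_apply]
    exact hS.eq _ _
  have hGc : (LinearMap.BilinForm.toMatrix c B).det =
      (-1) ^ m * (((LinearMap.BilinForm.toMatrix c B).toBlocks₁₂).det *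
        ((LinearMap.BilinForm.toMatrix c B).toBlocks₁₂).det) := by
    conv_lhs => rw [← Matrix.fromBlocks_toBlocks (LinearMap.BilinForm.toMatrix c B)]
    rw [h11, h21, det_zero_block, Matrix.det_transpose]
  -- change of basis
  obtain ⟨e⟩ : Nonempty (ι ≃ Fin m ⊕ Fin m) := ⟨b.indexEquiv c⟩
  obtain ⟨b', hb'⟩ : ∃ b' : Basis (Fin m ⊕ Fin m) F V, b' = b.reindex e := ⟨_, rfl⟩
  have hGb' : LinearMap.BilinForm.toMatrix b' B =
      (LinearMap.BilinForm.toMatrix b B).submatrix e.symm e.symm := by
    ext i j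
    rw [Matrix.submatrix_apply, LinearMap.BilinForm.toMatrix_apply,
      LinearMap.BilinForm.toMatrix_apply, hb', Basis.reindex_apply, Basis.reindex_apply]
  have h1 := LinearMap.BilinForm.toMatrix_mul_basis_toMatrix b' c B
  have h2 := congrArg Matrix.det h1
  rw [Matrix.det_mul, Matrix.det_mul, Matrix.det_transpose, hGb',
    Matrix.det_submatrix_equiv_self, hGc] at h2
  have h3 : (b'.toMatrix c).det * (c.toMatrix b').det = 1 := by
    rw [← Matrix.det_mul, Basis.toMatrix_mul_toMatrix_flip, Matrix.det_one]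
  have hp : (b'.toMatrix c).det ≠ 0 := by
    intro h0
    rw [h0, zero_mul] at h3
    exact zero_ne_one h3
  have hs : ((-1 : F) ^ m) * ((-1) ^ m) = 1 := by
    rw [← mul_pow]; simp
  refine ⟨((LinearMap.BilinForm.toMatrix c B).toBlocks₁₂).det / (b'.toMatrix c).det, ?_⟩
  rw [div_mul_div_comm, eq_div_iff (mul_ne_zero hp hp)]
  linear_combination ((-1 : F) ^ m) * h2 +
    (((LinearMap.BilinForm.toMatrix c B).toBlocks₁₂).det *
      ((LinearMap.BilinForm.toMatrix c B).toBlocks₁₂).det) * hs

theorem odd_card_of_two_ne_zero [Fintype F] (h2 : (2 : F) ≠ 0) : Odd (Fintype.card F) := by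
  rw [Nat.odd_iff]
  apply FiniteField.odd_card_of_char_ne_two
  intro h
  apply h2
  have := CharP.cast_eq_zero F (ringChar F)
  rw [h] at this
  exact_mod_cast this

/-- if `(-1)^m disc` is a square there is a totally isotropic subspace of half the dimension -/
theorem exists_ti_of_isSquare [Fintype F] (h2 : (2 : F) ≠ 0) {V : Type*} [AddCommGroup V]
    [Module F V] [FiniteDimensional F V] (B : LinearMap.BilinForm F V) (hS : B.IsSymm)
    (hB : B.Nondegenerate) (m : ℕ) (hm : 1 ≤ m) (hV : finrank F V = 2 * m)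
    {ι : Type*} [Fintype ι] [DecidableEq ι] (b : Basis ι F V)
    (hsq : IsSquare ((-1) ^ m * (LinearMap.BilinForm.toMatrix b B).det)) :
    ∃ X : Submodule F V, finrank F X = m ∧ ∀ x ∈ X, ∀ y ∈ X, B x y = 0 := by
  classical
  obtain ⟨a, c, hac⟩ := exists_aniso F
  obtain ⟨Q, hQ⟩ : ∃ Q : QuadraticForm F V, Q = LinearMap.BilinMap.toQuadraticMap B := ⟨_, rfl⟩
  have hQa : ∀ x, Q x = B x x := by
    intro x
    rw [hQ]
    exact LinearMap.BilinMap.toQuadraticMap_apply B x
  have hpol : ∀ x y, QuadraticMap.polar Q x y = 2 * B x y := by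
    intro x y
    rw [hQ, LinearMap.BilinMap.polar_toQuadraticMap, hS.eq y x]
    ring
  have hnd : ∀ x, (∀ y, QuadraticMap.polar Q x y = 0) → x = 0 := by
    intro x hx
    apply hB.1 x
    intro y
    have := hx y
    rw [hpol] at this
    exact (mul_eq_zero.1 this).resolve_left h2
  rcases classify hm hV Q hnd a c hac with ⟨g, hg⟩ | ⟨g, hg⟩
  · obtain ⟨ip, hip⟩ : ∃ ip : (Fin m → F) →ₗ[F] (Fin m ⊕ Fin m → F),
        ∀ x, ip x = Sum.elim x 0 :=
      ⟨{ toFun := fun x => Sum.elim x 0
         map_add' := fun x y => by funext i; rcases i with i | i <;> simp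
         map_smul' := fun c x => by funext i; rcases i with i | i <;> simp }, fun x => rfl⟩
    have hinj : Function.Injective ip := by
      intro x y hxy
      funext i
      have := congrFun hxy (Sum.inl i)
      rw [hip, hip] at this
      exact this
    obtain ⟨f, hf⟩ : ∃ f : (Fin m → F) →ₗ[F] V, ∀ x, f x = g.symm (ip x) :=
      ⟨(g.symm : (Fin m ⊕ Fin m → F) →ₗ[F] V) ∘ₗ ip, fun x => rfl⟩
    have hfinj : Function.Injective f := by
      intro x y hxy
      rw [hf, hf] at hxy
      exact hinj (g.symm.injective hxy)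
    have hzero : ∀ x ∈ LinearMap.range f, B x x = 0 := by
      rintro _ ⟨x, rfl⟩
      rw [← hQa, hg, hf, LinearEquiv.apply_symm_apply, hip]
      unfold Cfsg.quadFormPlus
      apply Finset.sum_eq_zero
      intro i _
      show x i * (0 : F) = 0
      rw [mul_zero]
    refine ⟨LinearMap.range f, ?_, ?_⟩
    · rw [LinearMap.finrank_range_of_inj hfinj]
      simp
    · intro x hx y hy
      have h1 := hzero (x + y) (Submodule.add_mem _ hx hy)
      simp only [map_add, LinearMap.add_apply] at h1
      have h3 : 2 * B x y = 0 := by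
        linear_combination h1 - hzero x hx - hzero y hy - hS.eq y x
      exact (mul_eq_zero.1 h3).resolve_left h2
  · exfalso
    have hq := odd_card_of_two_ne_zero h2
    have hmain := Cfsg.Agent.S2621.result (F := F) rfl hq hm a c hac (b.map g)
    have hmat : Matrix.of (fun i j : ι => QuadraticMap.polar
        (Cfsg.quadFormMinus (m - 1) F a c) ((b.map g) i) ((b.map g) j)) =
        (2 : F) • LinearMap.BilinForm.toMatrix b B := by
      ext i j
      rw [Matrix.of_apply, Matrix.smul_apply, LinearMap.BilinForm.toMatrix_apply, smul_eq_mul,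
        ← hpol, Basis.map_apply, Basis.map_apply]
      unfold QuadraticMap.polar
      rw [hg, hg, hg, map_add]
    have hcard : Fintype.card ι = 2 * m := by
      rw [← Module.finrank_eq_card_basis b, hV]
    rw [hmat, Matrix.det_smul, hcard, pow_mul, pow_right_comm,
      isSquare_sq_mul _ _ (pow_ne_zero m h2)] at hmain
    have hE : IsSquare ((-1 : F) ^ m) ↔ Even (m * (Fintype.card F - 1) / 2) := by
      rw [isSquare_neg_one_pow, even_half hq]
    have hdet : (LinearMap.BilinForm.toMatrix b B).det ≠ 0 :=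
      (LinearMap.BilinForm.nondegenerate_iff_det_ne_zero b).1 hB
    by_cases hEv : Even (m * (Fintype.card F - 1) / 2)
    · obtain ⟨s, hs⟩ := hE.2 hEv
      have hs0 : s ≠ 0 := by
        rintro rfl
        rw [mul_zero] at hs
        exact pow_ne_zero m (neg_ne_zero.2 one_ne_zero) hs
      rw [hs, ← pow_two, isSquare_sq_mul _ _ hs0] at hsq
      exact (hmain.1 hsq) hEv
    · obtain ⟨r, hr⟩ := hmain.2 hEv
      have hr0 : r ≠ 0 := by
        rintro rfl
        rw [mul_zero] at hr
        exact hdet hr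
      rw [hr, ← pow_two, mul_comm, isSquare_sq_mul _ _ hr0] at hsq
      exact hEv (hE.1 hsq)

section tensor

variable {U W : Type*} [AddCommGroup U] [Module F U] [AddCommGroup W] [Module F W]

/-- Gram matrix of a tensor product form -/
theorem toMatrix_tmul (B₁ : LinearMap.BilinForm F U) (B₂ : LinearMap.BilinForm F W)
    {ι₁ ι₂ : Type*} [Fintype ι₁] [DecidableEq ι₁] [Fintype ι₂] [DecidableEq ι₂]
    (b₁ : Basis ι₁ F U) (b₂ : Basis ι₂ F W) :
    LinearMap.BilinForm.toMatrix (b₁.tensorProduct b₂) (B₁.tmul B₂) =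
      Matrix.kroneckerMap (fun x y => x * y) (LinearMap.BilinForm.toMatrix b₁ B₁)
        (LinearMap.BilinForm.toMatrix b₂ B₂) := by
  ext ⟨i, j⟩ ⟨i', j'⟩
  rw [LinearMap.BilinForm.toMatrix_apply, Basis.tensorProduct_apply, Basis.tensorProduct_apply,
    Matrix.kroneckerMap_apply, LinearMap.BilinForm.toMatrix_apply,
    LinearMap.BilinForm.toMatrix_apply, LinearMap.BilinForm.tensorDistrib_tmul, smul_eq_mul,
    mul_comm]

theorem det_tmul (B₁ : LinearMap.BilinForm F U) (B₂ : LinearMap.BilinForm F W)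
    {ι₁ ι₂ : Type*} [Fintype ι₁] [DecidableEq ι₁] [Fintype ι₂] [DecidableEq ι₂]
    (b₁ : Basis ι₁ F U) (b₂ : Basis ι₂ F W) :
    (LinearMap.BilinForm.toMatrix (b₁.tensorProduct b₂) (B₁.tmul B₂)).det =
      (LinearMap.BilinForm.toMatrix b₁ B₁).det ^ Fintype.card ι₂ *
        (LinearMap.BilinForm.toMatrix b₂ B₂).det ^ Fintype.card ι₁ := by
  rw [toMatrix_tmul, Matrix.det_kronecker]

theorem tmul_symm_apply (B₁ : LinearMap.BilinForm F U) (B₂ : LinearMap.BilinForm F W)
    (h₁ : B₁.IsSymm) (h₂ : B₂.IsSymm) (x y : TensorProduct F U W) :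
    (B₁.tmul B₂) x y = (B₁.tmul B₂) y x := by
  induction x using TensorProduct.induction_on with
  | zero => simp
  | tmul u w =>
    induction y using TensorProduct.induction_on with
    | zero => simp
    | tmul u' w' =>
      rw [LinearMap.BilinForm.tensorDistrib_tmul, LinearMap.BilinForm.tensorDistrib_tmul,
        h₁.eq u u', h₂.eq w w']
    | add a b ha hb =>
      simp only [map_add, LinearMap.add_apply, ha, hb]
  | add a b ha hb =>
    simp only [map_add, LinearMap.add_apply, ha, hb]

theorem tmul_symm (B₁ : LinearMap.BilinForm F U) (B₂ : LinearMap.BilinForm F W)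
    (h₁ : B₁.IsSymm) (h₂ : B₂.IsSymm) : LinearMap.BilinForm.IsSymm (B₁.tmul B₂) :=
  ⟨fun x y => tmul_symm_apply B₁ B₂ h₁ h₂ x y⟩

end tensor

end Cfsg.Agent.Lib.Helper15.DiscType
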