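import Mathlib
import Cfsg.Agent.Lib.Helper15.EichGen

/-!
# Two orthogonal hyperbolic pairs in odd characteristic

A non-degenerate quadratic form in dimension at least five over a finite field of odd
characteristic contains two orthogonal hyperbolic pairs.
-/

set_option autoImplicit false

namespace Cfsg.Agent.Lib.Helper15.EichOdd

open Module Cfsg.Agent.Lib.Helper15.Spinor Cfsg.Agent.Lib.Helper15.CD2
  Cfsg.Agent.Lib.Helper15.Parity Cfsg.Agent.Lib.Helper15.Witt Cfsg.Agent.Lib.Helper15.WittInf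
  Cfsg.Agent.Lib.Helper15.OrthGen Cfsg.Agent.Lib.Helper15.HypPair
  Cfsg.Agent.Lib.Helper15.CenterOmega Cfsg.Agent.Lib.Helper15.Eichler
  Cfsg.Agent.Lib.Helper15.Witt2 Cfsg.Agent.Lib.Helper15.EichGen

variable {F : Type*} [Field F] [Fintype F] {ι : Type} [Fintype ι] [DecidableEq ι]

omit [Fintype F] [Fintype ι] [DecidableEq ι] in
/-- The complement of a split subspace is non-degenerate. -/
theorem perp_nd (Q : QuadraticForm F (ι → F))
    (hnd : ∀ x, (∀ y, QuadraticMap.polar ⇑Q x y = 0) → x = 0) (S : Submodule F (ι → F))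
    (hS : Splits Q S) :
    ∀ x ∈ perp Q S, (∀ y ∈ perp Q S, QuadraticMap.polar ⇑Q x y = 0) → x = 0 := by
  intro x hx hxy
  apply hnd
  intro v
  obtain ⟨s, hs, hvs⟩ := hS v
  have h1 := hxy _ hvs
  have h2 := hx s hs
  rw [QuadraticMap.polar_add_right, h2, add_zero] at h1
  exact h1

omit [Fintype F] [Fintype ι] [DecidableEq ι] in
/-- Adjoining a vector with `B(a,a) ≠ 0` of the complement to a split subspace. -/
theorem splits_single (Q : QuadraticForm F (ι → F)) (S : Submodule F (ι → F))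
    (hS : Splits Q S) (a : ι → F) (ha : a ∈ perp Q S)
    (haa : QuadraticMap.polar ⇑Q a a ≠ 0) : Splits Q (S ⊔ Submodule.span F {a}) := by
  intro x
  obtain ⟨s, hs, hxs⟩ := hS x
  obtain ⟨y, hy⟩ : ∃ y, y = x + s := ⟨_, rfl⟩
  rw [← hy] at hxs
  obtain ⟨t, ht⟩ : ∃ t, t = (-(QuadraticMap.polar ⇑Q y a * (QuadraticMap.polar ⇑Q a a)⁻¹)) • a :=
    ⟨_, rfl⟩
  have htspan : t ∈ Submodule.span F {a} := by
    rw [ht]
    exact Submodule.smul_mem _ _ (Submodule.subset_span rfl)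
  refine ⟨s + t, Submodule.add_mem _ (Submodule.mem_sup_left hs)
    (Submodule.mem_sup_right htspan), ?_⟩
  rw [← add_assoc, ← hy, mem_perp_single]
  constructor
  · exact (perp Q S).add_mem hxs (by rw [ht]; exact (perp Q S).smul_mem _ ha)
  · rw [QuadraticMap.polar_add_left, ht, QuadraticMap.polar_smul_left, smul_eq_mul, neg_mul,
      mul_assoc, inv_mul_cancel₀ haa, mul_one, add_neg_cancel]

/-- A non-zero singular vector in the complement of a split subspace of codimension at least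
three (odd characteristic). -/
theorem exists_sing_perp (h2 : (2 : F) ≠ 0) (Q : QuadraticForm F (ι → F))
    (hQ : (QuadraticMap.polarBilin Q).Nondegenerate) (S : Submodule F (ι → F))
    (hS : Splits Q S) (hdim : finrank F ↥S + 3 ≤ Fintype.card ι) :
    ∃ e ∈ perp Q S, e ≠ 0 ∧ Q e = 0 := by
  have hnd : ∀ x, (∀ y, QuadraticMap.polar ⇑Q x y = 0) → x = 0 := fun x hx => hQ.1 x hx
  have hfr := finrank_perp Q hQ S
  have hne : perp Q S ≠ ⊥ := by
    intro hb
    rw [hb, finrank_bot] at hfr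
    omega
  obtain ⟨a, haS, hQa⟩ := exists_nonsing_in Q (perp Q S) (perp_nd Q hnd S hS) hne
  have ha0 : a ≠ 0 := by
    rintro rfl
    exact hQa (map_zero Q)
  have haa : QuadraticMap.polar ⇑Q a a ≠ 0 := by
    rw [QuadraticMap.polar_self, two_nsmul, ← two_mul]
    exact mul_ne_zero h2 hQa
  have hS' := splits_single Q S hS a haS haa
  have hfr' := finrank_perp Q hQ (S ⊔ Submodule.span F {a})
  have hle : finrank F ↥(S ⊔ Submodule.span F {a}) ≤ finrank F ↥S + 1 := by
    have h1 := Submodule.finrank_add_le_finrank_add_finrank S (Submodule.span F {a})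
    have h3 := finrank_span_singleton (K := F) ha0
    omega
  obtain ⟨x, hxM, hQx⟩ := universal_in h2 Q (perp Q (S ⊔ Submodule.span F {a}))
    (perp_nd Q hnd _ hS') (by omega) (-(Q a))
  obtain ⟨hxS, hxa⟩ := (mem_perp_single Q S a x).1 hxM
  refine ⟨a + x, (perp Q S).add_mem haS hxS, ?_, ?_⟩
  · intro h0
    have hx : x = -a := by
      rw [eq_neg_iff_add_eq_zero, add_comm]
      exact h0
    rw [hx, QuadraticMap.polar_neg_left] at hxa
    exact haa (neg_eq_zero.1 hxa)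
  · rw [QuadraticMap.map_add ⇑Q, hQx, QuadraticMap.polar_comm, hxa]
    ring

/-- Two orthogonal hyperbolic pairs in dimension at least five, odd characteristic. -/
theorem hp2_of_odd (h2 : (2 : F) ≠ 0) (Q : QuadraticForm F (ι → F))
    (hQ : (QuadraticMap.polarBilin Q).Nondegenerate) (hn : 5 ≤ Fintype.card ι) : HP2 Q := by
  have hnd : ∀ x, (∀ y, QuadraticMap.polar ⇑Q x y = 0) → x = 0 := fun x hx => hQ.1 x hx
  obtain ⟨e₁, -, he₁0, hQe₁⟩ := exists_sing_perp h2 Q hQ ⊥ (splits_bot Q)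
    (by rw [finrank_bot]; omega)
  obtain ⟨f₁, -, hQf₁, hef₁⟩ := sing_partner Q hnd ⊥ (splits_bot Q) e₁ (mem_perp_bot Q e₁)
    he₁0 hQe₁
  have hS₁ : Splits Q (Submodule.span F {e₁, f₁}) := by
    have h := splits_pair Q ⊥ (splits_bot Q) e₁ f₁ (mem_perp_bot Q e₁) (mem_perp_bot Q f₁) hQe₁
      hQf₁ hef₁
    rw [bot_sup_eq] at h
    exact h
  obtain ⟨e₂, he₂S, he₂0, hQe₂⟩ := exists_sing_perp h2 Q hQ _ hS₁
    (by have := finrank_pair_le e₁ f₁; omega)
  obtain ⟨f₂, hf₂S, hQf₂, hef₂⟩ := sing_partner Q hnd _ hS₁ e₂ he₂S he₂0 hQe₂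
  have m1 : e₁ ∈ Submodule.span F ({e₁, f₁} : Set (ι → F)) := Submodule.subset_span (by simp)
  have m2 : f₁ ∈ Submodule.span F ({e₁, f₁} : Set (ι → F)) := Submodule.subset_span (by simp)
  refine ⟨e₁, f₁, e₂, f₂, hQe₁, hQf₁, hef₁, hQe₂, hQf₂, hef₂, ?_, ?_, ?_, ?_⟩
  · rw [QuadraticMap.polar_comm]; exact he₂S e₁ m1
  · rw [QuadraticMap.polar_comm]; exact hf₂S e₁ m1
  · rw [QuadraticMap.polar_comm]; exact he₂S f₁ m2
  · rw [QuadraticMap.polar_comm]; exact hf₂S f₁ m2

end Cfsg.Agent.Lib.Helper15.EichOdd
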