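import Mathlib
import Cfsg.Prelude.Def_Classical
import Cfsg.Prelude.Def_LieClassical
import Cfsg.Agent.Lib.Helper15.Embed
import Cfsg.Agent.Lib.Helper15.EvenForms
import Cfsg.Agent.S0285

set_option autoImplicit false

namespace Cfsg.Agent.Lib.Helper15.GUOrth

open Module Cfsg.Agent.Lib.Helper15.EvenForms

/-- The unitary group `GU_m(q)` embeds in the orthogonal group of the norm form on `K^m` viewed
over the subfield; this form has plus type for even `m` and minus type for odd `m`. -/
theorem gu_embed {K F : Type*} [Field K] [Fintype K] [Field F] [Fintype F] {q : ℕ}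
    (hK : Fintype.card K = q ^ 2) (hF : Fintype.card F = q) (m : ℕ) (hm : 1 ≤ m) :
    (Even m → ∃ φ : ↥(Cfsg.GU m K q) →* ↥(Cfsg.isometryGroup F (Cfsg.quadFormPlus m F)),
      Function.Injective φ) ∧
    (Odd m → ∀ a b : F, (∀ z₁ z₂ : F, z₁ ^ 2 + a * z₁ * z₂ + b * z₂ ^ 2 = 0 → z₁ = 0 ∧ z₂ = 0) →
      ∃ φ : ↥(Cfsg.GU m K q) →* ↥(Cfsg.isometryGroup F (Cfsg.quadFormMinus (m - 1) F a b)),
        Function.Injective φ) := by
  classical
  obtain ⟨f⟩ := Cfsg.Agent.Lib.Helper15.Embed.exists_ringHom (F := F) (K := K) (by rw [hK, hF])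
  let _ : Algebra F K := f.toAlgebra
  have h2 : Module.finrank F K = 2 :=
    Cfsg.Agent.Lib.Helper15.Embed.finrank_eq_two (by rw [hK, hF])
  have hq1 : 1 < q := by rw [← hF]; exact Fintype.one_lt_card
  obtain ⟨ψ, hψ⟩ := LinearMap.exists_leftInverse_of_injective (Algebra.linearMap F K)
    (LinearMap.ker_eq_bot.2 (algebraMap F K).injective)
  have hψF : ∀ c : F, ψ (algebraMap F K c) = c := by
    intro c
    have h := congrArg (fun g => g c) hψ
    simpa using h
  have hsm : ∀ (c : F) (x : Fin m → K), c • x = (algebraMap F K c) • x := by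
    intro c x
    funext i
    simp [Algebra.smul_def]
  have hψsm : ∀ (c : F) (k : K), ψ (algebraMap F K c * k) = c * ψ k := by
    intro c k
    rw [← Algebra.smul_def, map_smul, smul_eq_mul]
  have hpowadd : ∀ x y : K, (x + y) ^ q = x ^ q + y ^ q := by
    intro x y
    have := map_add (FiniteField.frobeniusAlgHom F K) x y
    simpa [FiniteField.frobeniusAlgHom_apply, hF] using this
  have hpowF : ∀ c : F, (algebraMap F K c) ^ q = algebraMap F K c := by
    intro c
    rw [← map_pow, ← hF, FiniteField.pow_card]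
  have hherm_add_left : ∀ x x' y : Fin m → K,
      Cfsg.hermForm m K q (x + x') y = Cfsg.hermForm m K q x y + Cfsg.hermForm m K q x' y := by
    intro x x' y
    unfold Cfsg.hermForm
    rw [← Finset.sum_add_distrib]
    exact Finset.sum_congr rfl (fun i _ => by simp only [Pi.add_apply]; ring)
  have hherm_add_right : ∀ x y y' : Fin m → K,
      Cfsg.hermForm m K q x (y + y') = Cfsg.hermForm m K q x y + Cfsg.hermForm m K q x y' := by
    intro x y y'
    unfold Cfsg.hermForm
    rw [← Finset.sum_add_distrib]
    exact Finset.sum_congr rfl (fun i _ => by simp only [Pi.add_apply, hpowadd]; ring)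
  have hherm_smul_left : ∀ (c : K) (x y : Fin m → K),
      Cfsg.hermForm m K q (c • x) y = c * Cfsg.hermForm m K q x y := by
    intro c x y
    unfold Cfsg.hermForm
    rw [Finset.mul_sum]
    exact Finset.sum_congr rfl (fun i _ => by simp only [Pi.smul_apply, smul_eq_mul]; ring)
  have hherm_smul_right : ∀ (c : K) (x y : Fin m → K),
      Cfsg.hermForm m K q x (c • y) = c ^ q * Cfsg.hermForm m K q x y := by
    intro c x y
    unfold Cfsg.hermForm
    rw [Finset.mul_sum]
    exact Finset.sum_congr rfl (fun i _ => by simp only [Pi.smul_apply, smul_eq_mul, mul_pow]; ring)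
  let B : LinearMap.BilinForm F (Fin m → K) :=
    LinearMap.mk₂ F (fun x y => ψ (Cfsg.hermForm m K q x y))
      (fun x x' y => by rw [hherm_add_left, map_add])
      (fun c x y => by rw [hsm, hherm_smul_left, hψsm, smul_eq_mul])
      (fun x y y' => by rw [hherm_add_right, map_add])
      (fun c x y => by rw [hsm, hherm_smul_right, hpowF, hψsm, smul_eq_mul])
  have hBapp : ∀ x y, B x y = ψ (Cfsg.hermForm m K q x y) := fun x y => rfl
  let Q : QuadraticForm F (Fin m → K) := LinearMap.BilinMap.toQuadraticMap B
  have hQapp : ∀ x, Q x = ψ (Cfsg.hermForm m K q x x) := fun x => rfl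
  have hnorm : ∀ k : K, k * k ^ q = algebraMap F K (Algebra.norm F k) := by
    intro k
    rw [FiniteField.algebraMap_norm_eq_pow, Nat.card_eq_fintype_card, Nat.card_eq_fintype_card,
      hK, hF]
    have hdiv : (q ^ 2 - 1) / (q - 1) = q + 1 := by
      have h3 : q ^ 2 - 1 = (q + 1) * (q - 1) := by
        have : q ^ 2 - 1 = q ^ 2 - 1 ^ 2 := by norm_num
        rw [this, Nat.sq_sub_sq]
      rw [h3, Nat.mul_div_cancel _ (by omega)]
    rw [hdiv, pow_succ, mul_comm]
  have hself : ∀ x : Fin m → K,
      Cfsg.hermForm m K q x x = algebraMap F K (∑ i, Algebra.norm F (x i)) := by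
    intro x
    unfold Cfsg.hermForm
    rw [map_sum]
    exact Finset.sum_congr rfl (fun i _ => hnorm (x i))
  have hQ0 : ∀ x : Fin m → K, Q x = 0 ↔ Cfsg.hermForm m K q x x = 0 := by
    intro x
    rw [hQapp, hself, hψF]
    constructor
    · intro h
      rw [h, map_zero]
    · intro h
      exact (map_eq_zero (algebraMap F K)).1 h
  have hpolar : ∀ x y : Fin m → K, QuadraticMap.polar Q x y
      = ψ (Cfsg.hermForm m K q x y + Cfsg.hermForm m K q y x) := by
    intro x y
    simp only [QuadraticMap.polar, hQapp, hherm_add_left, hherm_add_right, map_add]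
    ring
  have hsurj : Function.Surjective (fun k : K => k ^ q) := by
    have hinj : Function.Injective (fun k : K => k ^ q) := by
      intro x y hxy
      have := (FiniteField.frobeniusAlgHom F K).injective
        (a₁ := x) (a₂ := y) (by simpa [FiniteField.frobeniusAlgHom_apply, hF] using hxy)
      exact this
    exact Finite.injective_iff_surjective.1 hinj
  have htr : ∃ w : K, w + w ^ q = 1 := by
    obtain ⟨w, hw⟩ := Algebra.trace_surjective F K (1 : F)
    refine ⟨w, ?_⟩
    have h := FiniteField.algebraMap_trace_eq_sum_pow F K w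
    rw [hw, map_one, h2, Finset.sum_range_succ, Finset.sum_range_one, Nat.card_eq_fintype_card,
      hF] at h
    simpa using h.symm
  have hnd : ∀ x : Fin m → K, (∀ y, QuadraticMap.polar Q x y = 0) → x = 0 := by
    intro x hx
    funext i₀
    by_contra hk
    change x i₀ ≠ 0 at hk
    obtain ⟨w, hw⟩ := htr
    obtain ⟨d, hd⟩ := hsurj (w / x i₀)
    have hd' : d ^ q = w / x i₀ := hd
    have hw' : w = x i₀ * d ^ q := by rw [hd', mul_div_cancel₀ w hk]
    have h := hx (Pi.single i₀ d)
    rw [hpolar] at h
    have e1 : Cfsg.hermForm m K q x (Pi.single i₀ d) = w := by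
      unfold Cfsg.hermForm
      rw [Finset.sum_eq_single i₀]
      · simp only [Pi.single_eq_same]
        exact hw'.symm
      · intro j _ hj
        rw [Pi.single_eq_of_ne hj, zero_pow (by omega), mul_zero]
      · intro hi
        exact absurd (Finset.mem_univ i₀) hi
    have e2 : Cfsg.hermForm m K q (Pi.single i₀ d) x = w ^ q := by
      unfold Cfsg.hermForm
      rw [Finset.sum_eq_single i₀]
      · simp only [Pi.single_eq_same]
        rw [hw', mul_pow, ← pow_mul, ← pow_two, ← hK, FiniteField.pow_card]
        ring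
      · intro j _ hj
        rw [Pi.single_eq_of_ne hj, zero_mul]
      · intro hi
        exact absurd (Finset.mem_univ i₀) hi
    rw [e1, e2, hw, ← map_one (algebraMap F K), hψF] at h
    exact one_ne_zero h
  have hdim : Module.finrank F (Fin m → K) = 2 * m := by
    rw [Module.finrank_pi_fintype F]
    simp only [h2, Finset.sum_const, Finset.card_univ, Fintype.card_fin, smul_eq_mul]
    ring
  let ρ : ↥(Cfsg.GU m K q) →* ((Fin m → K) →ₗ[F] (Fin m → K)) :=
    { toFun := fun g => (Matrix.toLin' ((g : Matrix.GeneralLinearGroup (Fin m) K) : Matrix (Fin m) (Fin m) K)).restrictScalars F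
      map_one' := by
        apply LinearMap.ext
        intro x
        simp
      map_mul' := by
        intro g h
        apply LinearMap.ext
        intro x
        simp [Matrix.toLin'_mul] }
  have hρapp : ∀ g x, ρ g x
      = ((g : Matrix.GeneralLinearGroup (Fin m) K) : Matrix (Fin m) (Fin m) K).mulVec x := by
    intro g x
    change (Matrix.toLin' ((g : Matrix.GeneralLinearGroup (Fin m) K) : Matrix (Fin m) (Fin m) K)) x = _
    rw [Matrix.toLin'_apply]
  have hρinj : Function.Injective ρ := by
    intro g h hgh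
    apply Subtype.ext
    apply Units.ext
    apply Matrix.mulVec_injective
    funext x
    rw [← hρapp, ← hρapp, hgh]
  have hρQ : ∀ g x, Q (ρ g x) = Q x := by
    intro g x
    rw [hQapp, hQapp, hρapp]
    exact congrArg ψ (g.2 x x)
  have hcount : Nat.card {v : Fin m → K // Q v = 0}
      = (if Even m then (q ^ m - 1) * (q ^ (m - 1) + 1) else (q ^ m + 1) * (q ^ (m - 1) - 1))
        + 1 := by
    rw [Nat.card_congr (Equiv.subtypeEquivRight hQ0)]
    exact Cfsg.Agent.S0285.result hK m
  obtain ⟨A, hA⟩ : ∃ A : ℕ, A = q ^ (m - 1) := ⟨_, rfl⟩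
  have hA1 : 1 ≤ A := by rw [hA]; exact Nat.one_le_pow _ _ (by omega)
  have hqm : q ^ m = q * A := by
    rw [hA, ← pow_succ']
    congr 1
    omega
  have hqm1 : q ^ (m - 1 + 1) = q * A := by rw [hA, pow_succ']
  have hqm2 : q ^ (m + 1) = q ^ 2 * A := by
    rw [pow_succ, hqm]
    ring
  have hqA : 1 ≤ q * A := Nat.one_le_iff_ne_zero.2 (by positivity)
  have hfin : ∀ h : (2 * ((q : ℤ) * A * (q - 1)) = 0), False := by
    intro h
    have h1 : (0 : ℤ) < 2 * ((q : ℤ) * A * (q - 1)) := by
      have hq' : (1 : ℤ) < q := by exact_mod_cast hq1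
      have hA' : (1 : ℤ) ≤ A := by exact_mod_cast hA1
      exact mul_pos (by norm_num) (mul_pos (mul_pos (by linarith) (by linarith)) (by linarith))
    rw [h] at h1
    exact lt_irrefl _ h1
  constructor
  · intro hev
    obtain ⟨a, b, hab⟩ := exists_aniso F
    rcases classify hm hdim Q hnd a b hab with ⟨g, hg⟩ | ⟨g, hg⟩
    · exact orth_embed _ (⇑Q) g hg ρ hρinj hρQ
    · exfalso
      have h1 := card_zero_minus (⇑Q) a b hab g hg
      rw [hcount, if_pos hev, hF, hqm1, hqm, ← hA] at h1
      apply hfin
      zify [hA1, hqA] at h1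
      linear_combination h1
  · intro hodd a b hab
    rcases classify hm hdim Q hnd a b hab with ⟨g, hg⟩ | ⟨g, hg⟩
    · exfalso
      have h1 := card_zero_plus (⇑Q) g hg
      rw [hcount, if_neg (Nat.not_even_iff_odd.2 hodd), hF, hqm2, hqm, ← hA] at h1
      apply hfin
      zify [hA1, hqA] at h1
      linear_combination (-1 : ℤ) * h1
    · exact orth_embed _ (⇑Q) g hg ρ hρinj hρQ

end Cfsg.Agent.Lib.Helper15.GUOrth
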