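import Mathlib
import Cfsg.Agent.Lib.Helper15.Eichler
import Cfsg.Agent.Lib.Helper15.Dickson
import Cfsg.Agent.Lib.Helper15.QForm
import Cfsg.Agent.Lib.Helper15.StdForms
import Cfsg.Prelude.Def_GeometricClasses

/-!
# Subgroups strictly between a geometric stabiliser and `Ω`

Glue between the vocabulary of `Cfsg.Geo` (quadratic forms given as functions, stabilisers inside
the general linear group) and the quadratic-form library, and the three constructions of
Eichler transformations used to show that certain stabilisers in `Ω` are not maximal.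
-/

set_option autoImplicit false

namespace Cfsg.Agent.Lib.Helper15.GeoBridge

open Module Cfsg.Agent.Lib.Helper15.Spinor Cfsg.Agent.Lib.Helper15.CD2
  Cfsg.Agent.Lib.Helper15.Parity Cfsg.Agent.Lib.Helper15.Witt
  Cfsg.Agent.Lib.Helper15.Eichler

variable {F : Type*} [Field F] {ι : Type} [Fintype ι] [DecidableEq ι]

/-! ### From a function to a quadratic form -/

/-- A non-degenerate quadratic form given as a function, as a `QuadraticForm`. -/
def toQF (Q : (ι → F) → F) (hQ : Cfsg.Geo.IsNondegenerateQuadraticForm Q) :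
    QuadraticForm F (ι → F) where
  toFun := Q
  toFun_smul := fun c v => by
    rw [hQ.smul, smul_eq_mul]
    ring
  exists_companion' := ⟨LinearMap.mk₂ F (QuadraticMap.polar Q) hQ.polar_bilinear.add_left
      (fun c x v => by rw [hQ.polar_bilinear.smul_left, smul_eq_mul]) hQ.polar_bilinear.add_right
      (fun c v x => by rw [hQ.polar_bilinear.smul_right, smul_eq_mul]), fun x y => by
        rw [LinearMap.mk₂_apply]
        unfold QuadraticMap.polar
        ring⟩

omit [Fintype ι] [DecidableEq ι] in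
theorem coe_toQF (Q : (ι → F) → F) (hQ : Cfsg.Geo.IsNondegenerateQuadraticForm Q) :
    ⇑(toQF Q hQ) = Q := rfl

omit [Fintype ι] [DecidableEq ι] in
theorem toQF_nondeg (Q : (ι → F) → F) (hQ : Cfsg.Geo.IsNondegenerateQuadraticForm Q) :
    (QuadraticMap.polarBilin (toQF Q hQ)).Nondegenerate := by
  apply Cfsg.Agent.Lib.Helper15.StdForms.nondeg_of_sep
  intro x hx
  by_contra hne
  obtain ⟨-, ⟨y, hy⟩⟩ := hQ.nondegenerate x hne
  exact hy (hx y)

variable [Fintype F]

/-! ### Stabilisers -/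

omit [Fintype F] in
theorem mem_stab_iff (Q : QuadraticForm F (ι → F)) (s : ↥(Cfsg.isometryGroup F ⇑Q))
    (X : Submodule F (ι → F)) :
    (s : Matrix.GeneralLinearGroup ι F) ∈ Cfsg.Geo.subspaceStabilizer X
      ↔ ∀ v, v ∈ X ↔ act Q s v ∈ X := Iff.rfl

omit [Fintype F] in
theorem mem_stab_of_forall (Q : QuadraticForm F (ι → F)) (s : ↥(Cfsg.isometryGroup F ⇑Q))
    (X : Submodule F (ι → F)) (h : ∀ x ∈ X, act Q s x ∈ X) :
    (s : Matrix.GeneralLinearGroup ι F) ∈ Cfsg.Geo.subspaceStabilizer X := by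
  have hle : X.map (act Q s) ≤ X := by
    rintro _ ⟨x, hx, rfl⟩
    exact h x hx
  have heq : X.map (act Q s) = X :=
    Submodule.eq_of_le_of_finrank_eq hle (finrank_map_act Q s X)
  rw [mem_stab_iff]
  intro v
  constructor
  · exact h v
  · intro hv
    rw [← heq] at hv
    obtain ⟨w, hw, hwv⟩ := hv
    have hwv' : w = v := by
      have h1 := congrArg (act Q s⁻¹) hwv
      rwa [act_inv_act, act_inv_act] at h1
    rw [← hwv']
    exact hw

omit [Fintype F] in
theorem stab_map (Q : QuadraticForm F (ι → F)) (s : ↥(Cfsg.isometryGroup F ⇑Q))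
    (X : Submodule F (ι → F))
    (h : (s : Matrix.GeneralLinearGroup ι F) ∈ Cfsg.Geo.subspaceStabilizer X) :
    X.map (act Q s) = X := by
  rw [mem_stab_iff] at h
  apply le_antisymm
  · rintro _ ⟨x, hx, rfl⟩
    exact (h x).1 hx
  · intro x hx
    refine ⟨act Q s⁻¹ x, (h _).2 ?_, act_act_inv Q s x⟩
    rw [act_act_inv]
    exact hx

omit [Fintype F] in
theorem mem_omegaGL (Q : QuadraticForm F (ι → F)) (s : ↥(Cfsg.isometryGroup F ⇑Q))
    (hs : s ∈ commutator ↥(Cfsg.isometryGroup F ⇑Q)) :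
    (s : Matrix.GeneralLinearGroup ι F) ∈ Cfsg.Geo.omegaGL ⇑Q :=
  Subgroup.mem_map_of_mem _ hs

omit [Fintype F] in
theorem exists_of_mem_omegaGL (Q : QuadraticForm F (ι → F)) (g : Matrix.GeneralLinearGroup ι F)
    (hg : g ∈ Cfsg.Geo.omegaGL ⇑Q) :
    ∃ s : ↥(Cfsg.isometryGroup F ⇑Q), s ∈ commutator ↥(Cfsg.isometryGroup F ⇑Q)
      ∧ (s : Matrix.GeneralLinearGroup ι F) = g := by
  obtain ⟨s, hs, rfl⟩ := Subgroup.mem_map.1 hg
  exact ⟨s, hs, rfl⟩

/-- The frame of all three non-maximality proofs: the stabiliser of `X` in `Ω` lies strictly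
between `H ⊓ Ω` and `Ω`. -/
theorem between (Q : QuadraticForm F (ι → F)) (H : Subgroup (Matrix.GeneralLinearGroup ι F))
    (X : Submodule F (ι → F))
    (h1 : ∀ s : ↥(Cfsg.isometryGroup F ⇑Q), s ∈ commutator ↥(Cfsg.isometryGroup F ⇑Q) →
      (s : Matrix.GeneralLinearGroup ι F) ∈ H → ∀ x ∈ X, act Q s x ∈ X)
    (h2 : ∃ s : ↥(Cfsg.isometryGroup F ⇑Q), s ∈ commutator ↥(Cfsg.isometryGroup F ⇑Q) ∧
      (∀ x ∈ X, act Q s x ∈ X) ∧ (s : Matrix.GeneralLinearGroup ι F) ∉ H)
    (h3 : ∃ s : ↥(Cfsg.isometryGroup F ⇑Q), s ∈ commutator ↥(Cfsg.isometryGroup F ⇑Q) ∧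
      ∃ x ∈ X, act Q s x ∉ X) :
    ∃ K : Subgroup (Matrix.GeneralLinearGroup ι F),
      H ⊓ Cfsg.Geo.omegaGL ⇑Q < K ∧ K < Cfsg.Geo.omegaGL ⇑Q := by
  refine ⟨Cfsg.Geo.subspaceStabilizer X ⊓ Cfsg.Geo.omegaGL ⇑Q, ?_, ?_⟩
  · apply lt_of_le_of_ne
    · intro g hg
      obtain ⟨s, hs, rfl⟩ := exists_of_mem_omegaGL Q g hg.2
      exact ⟨mem_stab_of_forall Q s X (h1 s hs hg.1), hg.2⟩
    · intro heq
      obtain ⟨s, hs, hsX, hsH⟩ := h2
      have hmem : (s : Matrix.GeneralLinearGroup ι F) ∈ H ⊓ Cfsg.Geo.omegaGL ⇑Q := by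
        rw [heq]
        exact ⟨mem_stab_of_forall Q s X hsX, mem_omegaGL Q s hs⟩
      exact hsH hmem.1
  · apply lt_of_le_of_ne inf_le_right
    intro heq
    obtain ⟨s, hs, x, hx, hsx⟩ := h3
    have hmem : (s : Matrix.GeneralLinearGroup ι F)
        ∈ Cfsg.Geo.subspaceStabilizer X ⊓ Cfsg.Geo.omegaGL ⇑Q := by
      rw [heq]
      exact mem_omegaGL Q s hs
    exact hsx (((mem_stab_iff Q s X).1 hmem.1 x).1 hx)

/-! ### Elements of `Ω` are products of an even number of reflections -/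

theorem even_of_mem_omega (Q : QuadraticForm F (ι → F))
    (hQ : (QuadraticMap.polarBilin Q).Nondegenerate)
    (hc : Fintype.card F ≠ 2 ∨ Fintype.card ι ≠ 4) (s : ↥(Cfsg.isometryGroup F ⇑Q))
    (hs : s ∈ commutator ↥(Cfsg.isometryGroup F ⇑Q)) :
    ∃ vs : List (ι → F), (∀ v ∈ vs, Q v ≠ 0) ∧ s = prodRefl Q vs ∧ Even vs.length := by
  have hnd : ∀ x, (∀ y, QuadraticMap.polar ⇑Q x y = 0) → x = 0 := fun x hx => hQ.1 x hx
  obtain ⟨vs, hvs, rfl⟩ := Cfsg.Agent.Lib.Helper15.OrthGen.cd_all Q hnd hc s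
  refine ⟨vs, hvs, rfl, ?_⟩
  by_cases h2 : (2 : F) = 0
  · have : CharP F 2 := CharTwo.of_one_ne_zero_of_two_eq_zero one_ne_zero h2
    exact Cfsg.Agent.Lib.Helper15.Dickson.even_of_mem_commutator Q hnd vs hvs hs
  · exact ((prodRefl_mem_omega_iff h2 Q vs hvs).1 hs).1

/-- An element of `Ω` moves a maximal totally singular subspace to one meeting it in even
codimension. -/
theorem parity_omega (Q : QuadraticForm F (ι → F))
    (hQ : (QuadraticMap.polarBilin Q).Nondegenerate)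
    (hc : Fintype.card F ≠ 2 ∨ Fintype.card ι ≠ 4) (U : Submodule F (ι → F))
    (hU : SelfOrth Q U) (m : ℕ) (hm : finrank F ↥U = m) (s : ↥(Cfsg.isometryGroup F ⇑Q))
    (hs : s ∈ commutator ↥(Cfsg.isometryGroup F ⇑Q)) :
    Even (m - finrank F ↥(U ⊓ U.map (act Q s))) := by
  obtain ⟨vs, hvs, rfl, hev⟩ := even_of_mem_omega Q hQ hc s hs
  exact (parity_gen Q hQ U hU m hm vs hvs).2 hev

/-! ### Eichler transformations moving or fixing totally singular subspaces -/

/-- Some element of `Ω` does not stabilise a given non-zero totally singular subspace. -/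
theorem exists_move_ts (Q : QuadraticForm F (ι → F))
    (hQ : (QuadraticMap.polarBilin Q).Nondegenerate) (hn : 5 ≤ Fintype.card ι)
    (U : Submodule F (ι → F)) (hU : ∀ x ∈ U, Q x = 0) (hU0 : U ≠ ⊥) :
    ∃ s : ↥(Cfsg.isometryGroup F ⇑Q), s ∈ commutator ↥(Cfsg.isometryGroup F ⇑Q) ∧
      ∃ x ∈ U, act Q s x ∉ U := by
  have hnd : ∀ x, (∀ y, QuadraticMap.polar ⇑Q x y = 0) → x = 0 := fun x hx => hQ.1 x hx
  obtain ⟨x, hxU, hx0⟩ := Submodule.exists_mem_ne_zero_of_ne_bot hU0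
  obtain ⟨e, hQe, hxe⟩ := Cfsg.Agent.Lib.Helper15.QForm.exists_partner Q hnd x hx0 (hU x hxU)
  have hfr := Cfsg.Agent.Lib.Helper15.CenterOmega.finrank_pair_le (F := F) x e
  obtain ⟨y, hy, hQy⟩ := exists_nonsing_perp Q hQ (Submodule.span F ({x, e} : Set (ι → F)))
    (by omega)
  have hyx : QuadraticMap.polar ⇑Q y x = 0 := hy x (Submodule.subset_span (by simp))
  have hye : QuadraticMap.polar ⇑Q y e = 0 := hy e (Submodule.subset_span (by simp))
  have hey : QuadraticMap.polar ⇑Q e y = 0 := by rw [QuadraticMap.polar_comm]; exact hye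
  have hex : QuadraticMap.polar ⇑Q e x = 1 := by rw [QuadraticMap.polar_comm]; exact hxe
  refine ⟨eich Q e y, eich_mem_omega Q hQ hn e y hQe hey, x, hxU, ?_⟩
  intro hmem
  have h0 := polar_of_sing Q U hU _ x hmem hxU
  rw [act_eich Q e y hQe hey, hex, hyx, QuadraticMap.polar_sub_left,
    QuadraticMap.polar_add_left, QuadraticMap.polar_smul_left, QuadraticMap.polar_smul_left,
    hyx, hex, polar_self_of_sing Q x (hU x hxU)] at h0
  simp only [smul_eq_mul, mul_zero, mul_one, zero_add, add_zero, zero_sub, neg_eq_zero] at h0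
  exact hQy h0

/-- For totally singular `W < U`, some element of `Ω` stabilises `U` but not `W`. -/
theorem exists_stab_move (Q : QuadraticForm F (ι → F))
    (hQ : (QuadraticMap.polarBilin Q).Nondegenerate) (hn : 5 ≤ Fintype.card ι)
    (U W : Submodule F (ι → F)) (hU : ∀ x ∈ U, Q x = 0) (hWU : W < U) (hW0 : W ≠ ⊥) :
    ∃ s : ↥(Cfsg.isometryGroup F ⇑Q), s ∈ commutator ↥(Cfsg.isometryGroup F ⇑Q) ∧
      (∀ x ∈ U, act Q s x ∈ U) ∧ ∃ x ∈ W, act Q s x ∉ W := by
  obtain ⟨e, heU, heW⟩ := SetLike.exists_of_lt hWU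
  obtain ⟨x₀, hx₀W, hx₀⟩ := Submodule.exists_mem_ne_zero_of_ne_bot hW0
  have hQe := hU e heU
  obtain ⟨y, hye, hyx⟩ : ∃ y, QuadraticMap.polar ⇑Q y e = 0 ∧ QuadraticMap.polar ⇑Q y x₀ ≠ 0 := by
    by_contra hno
    have hall : ∀ y, QuadraticMap.polar ⇑Q y e = 0 → QuadraticMap.polar ⇑Q y x₀ = 0 := by
      intro y hy
      by_contra h
      exact hno ⟨y, hy, h⟩
    have hmem : x₀ ∈ perp Q (perp Q (Submodule.span F ({e} : Set (ι → F)))) := by
      intro s hs
      rw [QuadraticMap.polar_comm]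
      exact hall s (hs e (Submodule.mem_span_singleton_self e))
    rw [perp_perp Q hQ] at hmem
    obtain ⟨c, rfl⟩ := Submodule.mem_span_singleton.1 hmem
    have hc : c ≠ 0 := by
      rintro rfl
      exact hx₀ (zero_smul _ _)
    apply heW
    have h1 := W.smul_mem c⁻¹ hx₀W
    rwa [smul_smul, inv_mul_cancel₀ hc, one_smul] at h1
  have hey : QuadraticMap.polar ⇑Q e y = 0 := by rw [QuadraticMap.polar_comm]; exact hye
  refine ⟨eich Q e y, eich_mem_omega Q hQ hn e y hQe hey, ?_, x₀, hx₀W, ?_⟩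
  · intro x hx
    rw [act_eich Q e y hQe hey, polar_of_sing Q U hU e x heU hx]
    simp only [zero_smul, add_zero, mul_zero]
    exact U.sub_mem hx (U.smul_mem _ heU)
  · rw [act_eich Q e y hQe hey, polar_of_sing Q U hU e x₀ heU (hWU.le hx₀W)]
    simp only [zero_smul, add_zero, mul_zero]
    intro hmem
    have h1 : QuadraticMap.polar ⇑Q y x₀ • e ∈ W := by
      have h2 := W.sub_mem hx₀W hmem
      rwa [sub_sub_cancel] at h2
    apply heW
    have h3 := W.smul_mem (QuadraticMap.polar ⇑Q y x₀)⁻¹ h1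
    rwa [smul_smul, inv_mul_cancel₀ hyx, one_smul] at h3

end Cfsg.Agent.Lib.Helper15.GeoBridge
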