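import Mathlib
import Cfsg.Agent.Lib.Helper15.GeoBridge

/-!
# Three stabilisers in `Ω` that are not maximal

* the stabiliser of a hyperbolic plane over a field with at most three elements (it fixes a
  non-singular line of the plane);
* the stabiliser of a pair of complementary maximal totally singular subspaces of odd dimension
  (it cannot interchange them);
* the stabiliser of a totally singular subspace of dimension one less than the Witt index of a
  hyperbolic space (it stabilises each of the two maximal totally singular subspaces above it).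
-/

set_option autoImplicit false

namespace Cfsg.Agent.Lib.Helper15.GeoNotMax

open Module Cfsg.Agent.Lib.Helper15.Spinor Cfsg.Agent.Lib.Helper15.CD2
  Cfsg.Agent.Lib.Helper15.Parity Cfsg.Agent.Lib.Helper15.Witt
  Cfsg.Agent.Lib.Helper15.Eichler Cfsg.Agent.Lib.Helper15.GeoBridge

variable {F : Type*} [Field F] [Fintype F] {ι : Type} [Fintype ι] [DecidableEq ι]

/-- In a field with at most three elements every non-zero element squares to one. -/
theorem sq_eq_one_of_card_le (hq : Fintype.card F ≤ 3) (a : F) (ha : a ≠ 0) : a * a = 1 := by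
  have h := FiniteField.pow_card_sub_one_eq_one a ha
  have h2 : 1 < Fintype.card F := Fintype.one_lt_card
  obtain hc | hc : Fintype.card F = 2 ∨ Fintype.card F = 3 := by omega
  · rw [hc] at h
    simp only [Nat.add_one_sub_one, pow_one] at h
    rw [h, one_mul]
  · rw [hc] at h
    rw [← pow_two]
    exact h

/-- The stabiliser in `Ω` of a hyperbolic plane is not maximal over a field with at most three
elements. -/
theorem plane_not_max (Q : QuadraticForm F (ι → F))
    (hQ : (QuadraticMap.polarBilin Q).Nondegenerate) (hn : 5 ≤ Fintype.card ι)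
    (hq : Fintype.card F ≤ 3) (Q0 : (ι → F) → F) (hQ0 : ⇑Q = Q0)
    (W : Submodule F (ι → F)) (hdim : finrank F ↥W = 2)
    (hW : Cfsg.Geo.IsNondegenerateOn (QuadraticMap.polar Q0) W)
    (hplus : Cfsg.Geo.IsPlusTypeOn Q0 W) :
    ∃ K : Subgroup (Matrix.GeneralLinearGroup ι F),
      Cfsg.Geo.subspaceStabilizer W ⊓ Cfsg.Geo.omegaGL Q0 < K ∧ K < Cfsg.Geo.omegaGL Q0 := by
  subst hQ0
  obtain ⟨U, hUW, hUts, hUdim⟩ := hplus
  have hU1 : finrank F ↥U = 1 := by omega
  have hUne : U ≠ ⊥ := by
    rintro rfl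
    rw [finrank_bot] at hU1
    omega
  obtain ⟨e, heU, he0⟩ := Submodule.exists_mem_ne_zero_of_ne_bot hUne
  have heW : e ∈ W := hUW heU
  have hQe : Q e = 0 := hUts e heU
  obtain ⟨-, ⟨w, hwW, hew⟩⟩ := hW e heW he0
  have hee : QuadraticMap.polar ⇑Q e e = 0 := polar_self_of_sing Q e hQe
  -- a singular partner of `e` inside `W`
  obtain ⟨f, hfW, hQf, hef⟩ : ∃ f ∈ W, Q f = 0 ∧ QuadraticMap.polar ⇑Q e f = 1 := by
    have hew' : QuadraticMap.polar ⇑Q e ((QuadraticMap.polar ⇑Q e w)⁻¹ • w) = 1 := by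
      rw [QuadraticMap.polar_smul_right, smul_eq_mul, inv_mul_cancel₀ hew]
    have hw'W : (QuadraticMap.polar ⇑Q e w)⁻¹ • w ∈ W := W.smul_mem _ hwW
    generalize (QuadraticMap.polar ⇑Q e w)⁻¹ • w = w' at hew' hw'W
    refine ⟨w' - Q w' • e, W.sub_mem hw'W (W.smul_mem _ heW), ?_, ?_⟩
    · have h1 : QuadraticMap.polar ⇑Q w' e = 1 := by rw [QuadraticMap.polar_comm]; exact hew'
      rw [sub_eq_add_neg, QuadraticMap.map_add ⇑Q, QuadraticMap.map_neg, QuadraticMap.map_smul,
        QuadraticMap.polar_neg_right, QuadraticMap.polar_smul_right, hQe, h1]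
      simp
    · rw [QuadraticMap.polar_sub_right, QuadraticMap.polar_smul_right, hee, hew']
      simp
  have hff : QuadraticMap.polar ⇑Q f f = 0 := polar_self_of_sing Q f hQf
  have hfe : QuadraticMap.polar ⇑Q f e = 1 := by rw [QuadraticMap.polar_comm]; exact hef
  -- `W` is spanned by `e` and `f`
  have hli : LinearIndependent F ![e, f] := by
    rw [LinearIndependent.pair_iff]
    intro s t hst
    have h1 : QuadraticMap.polar ⇑Q e (s • e + t • f) = 0 := by
      rw [hst]
      simp [QuadraticMap.polar]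
    have h2 : QuadraticMap.polar ⇑Q (s • e + t • f) f = 0 := by
      rw [hst]
      simp [QuadraticMap.polar]
    rw [QuadraticMap.polar_add_right, QuadraticMap.polar_smul_right,
      QuadraticMap.polar_smul_right, hee, hef] at h1
    rw [QuadraticMap.polar_add_left, QuadraticMap.polar_smul_left,
      QuadraticMap.polar_smul_left, hef, hff] at h2
    simp only [smul_eq_mul, mul_zero, mul_one, zero_add, add_zero] at h1 h2
    exact ⟨h2, h1⟩
  have hspan : Submodule.span F (Set.range ![e, f]) = W := by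
    apply Submodule.eq_of_le_of_finrank_eq
    · rw [Submodule.span_le]
      rintro _ ⟨i, rfl⟩
      fin_cases i
      · exact heW
      · exact hfW
    · rw [finrank_span_eq_card hli, hdim, Fintype.card_fin]
  have hrep : ∀ w ∈ W, ∃ a b : F, w = a • e + b • f := by
    intro w hw
    rw [← hspan] at hw
    obtain ⟨c, rfl⟩ := (Submodule.mem_span_range_iff_exists_fun F).1 hw
    exact ⟨c 0, c 1, by simp [Fin.sum_univ_two]⟩
  have hQab : ∀ a b : F, Q (a • e + b • f) = a * b := by
    intro a b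
    rw [QuadraticMap.map_add ⇑Q, QuadraticMap.map_smul, QuadraticMap.map_smul, hQe, hQf,
      QuadraticMap.polar_smul_left, QuadraticMap.polar_smul_right, hef]
    simp
  have hQu : Q (e + f) = 1 := by
    have h := hQab 1 1
    simpa using h
  have huW : e + f ∈ W := W.add_mem heW hfW
  -- a singular vector orthogonal to `W`
  obtain ⟨c, hcW, hc0, hQc⟩ : ∃ c ∈ perp Q W, c ≠ 0 ∧ Q c = 0 := by
    have h3 : 3 ≤ finrank F ↥(perp Q W) := by
      rw [finrank_perp Q hQ, hdim]
      omega
    obtain ⟨v, hv0, hQv⟩ := Cfsg.Agent.Lib.Helper15.QForm.exists_singular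
      (Q.comp (perp Q W).subtype) h3
    exact ⟨v.1, v.2, fun h => hv0 (Subtype.ext h), hQv⟩
  have hcnW : c ∉ W := by
    intro hcin
    obtain ⟨-, ⟨x, hxW, hx⟩⟩ := hW c hcin hc0
    exact hx (hcW x hxW)
  have hce : QuadraticMap.polar ⇑Q c e = 0 := hcW e heW
  have hcf : QuadraticMap.polar ⇑Q c f = 0 := hcW f hfW
  have hcu : QuadraticMap.polar ⇑Q c (e + f) = 0 := hcW _ huW
  have hcef : QuadraticMap.polar ⇑Q c (e - f) = 0 := by
    rw [QuadraticMap.polar_sub_right, hce, hcf, sub_zero]
  apply between Q (Cfsg.Geo.subspaceStabilizer W) (Submodule.span F ({e + f} : Set (ι → F)))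
  · intro s _ hsW x hx
    obtain ⟨t, rfl⟩ := Submodule.mem_span_singleton.1 hx
    have hsu : act Q s (e + f) ∈ W := ((mem_stab_iff Q s W).1 hsW _).1 huW
    obtain ⟨a, b, hab⟩ := hrep _ hsu
    have hQ1 : a * b = 1 := by rw [← hQab, ← hab, act_Q, hQu]
    have ha : a ≠ 0 := by
      rintro rfl
      simp at hQ1
    have hb : b = a := mul_left_cancel₀ ha (hQ1.trans (sq_eq_one_of_card_le hq a ha).symm)
    rw [map_smul, hab, hb]
    refine Submodule.mem_span_singleton.2 ⟨t * a, ?_⟩
    rw [mul_smul, smul_add]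
  · refine ⟨eich Q c (e - f), eich_mem_omega Q hQ hn c (e - f) hQc hcef, ?_, ?_⟩
    · intro x hx
      obtain ⟨t, rfl⟩ := Submodule.mem_span_singleton.1 hx
      have hfix : act Q (eich Q c (e - f)) (e + f) = e + f := by
        rw [act_eich Q c (e - f) hQc hcef, hcu, QuadraticMap.polar_sub_left,
          QuadraticMap.polar_add_right, QuadraticMap.polar_add_right, hee, hef, hfe, hff]
        simp
      rw [map_smul, hfix]
      exact Submodule.mem_span_singleton.2 ⟨t, rfl⟩
    · intro hmem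
      have h1 : act Q (eich Q c (e - f)) e ∈ W := ((mem_stab_iff Q _ W).1 hmem e).1 heW
      rw [act_eich Q c (e - f) hQc hcef, hce, QuadraticMap.polar_sub_left, hee, hfe] at h1
      simp only [zero_smul, add_zero, mul_zero, zero_sub, neg_smul, one_smul,
        sub_neg_eq_add] at h1
      apply hcnW
      have h2 := W.sub_mem h1 heW
      rwa [add_sub_cancel_left] at h2
  · refine ⟨eich Q c e, eich_mem_omega Q hQ hn c e hQc hce, e + f,
      Submodule.mem_span_singleton_self _, ?_⟩
    rw [act_eich Q c e hQc hce, hcu, QuadraticMap.polar_add_right, hee, hef]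
    simp only [zero_smul, add_zero, mul_zero, zero_add, one_smul]
    intro hmem
    have hle : Submodule.span F ({e + f} : Set (ι → F)) ≤ W := by
      rw [Submodule.span_le, Set.singleton_subset_iff]
      exact huW
    apply hcnW
    have h2 := W.sub_mem huW (hle hmem)
    rwa [sub_sub_cancel] at h2

/-- The stabiliser in `Ω` of a pair of complementary totally singular subspaces of odd dimension
is not maximal: it stabilises each of them. -/
theorem pair_not_max (Q : QuadraticForm F (ι → F))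
    (hQ : (QuadraticMap.polarBilin Q).Nondegenerate) (hn : 5 ≤ Fintype.card ι) (k : ℕ)
    (hk : Fintype.card ι = 2 * k) (hko : Odd k) (D : Fin 2 → Submodule F (ι → F))
    (hD : Cfsg.Geo.IsMDecomposition k D) (hts : ∀ i, ∀ x ∈ D i, Q x = 0) :
    ∃ K : Subgroup (Matrix.GeneralLinearGroup ι F),
      Cfsg.Geo.decompositionStabilizer D ⊓ Cfsg.Geo.omegaGL ⇑Q < K ∧ K < Cfsg.Geo.omegaGL ⇑Q := by
  have hc : Fintype.card F ≠ 2 ∨ Fintype.card ι ≠ 4 := Or.inr (by omega)
  have hdisj : D 0 ⊓ D 1 = ⊥ :=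
    disjoint_iff.1 (hD.indep.pairwiseDisjoint (by decide : (0 : Fin 2) ≠ 1))
  have hSO0 : SelfOrth Q (D 0) := selfOrth_of_finrank Q hQ (D 0) (hts 0) k (hD.finrank_eq 0) hk
  have hSO1 : SelfOrth Q (D 1) := selfOrth_of_finrank Q hQ (D 1) (hts 1) k (hD.finrank_eq 1) hk
  have hfin2 : ∀ j : Fin 2, j = 0 ∨ j = 1 := by decide
  have hD0ne : D 0 ≠ ⊥ := by
    intro h
    have h1 := hD.finrank_eq 0
    rw [h, finrank_bot] at h1
    omega
  have hne01 : D 1 ≠ D 0 := by
    intro h
    rw [h, inf_idem] at hdisj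
    exact hD0ne hdisj
  apply between Q (Cfsg.Geo.decompositionStabilizer D) (D 0)
  · intro s hs hsD x hx
    obtain ⟨σ, hσ⟩ := hsD
    have h0 : (D 0).map (act Q s) = D (σ 0) := hσ 0
    rcases hfin2 (σ 0) with h | h
    · rw [h] at h0
      rw [← h0]
      exact ⟨x, hx, rfl⟩
    · exfalso
      rw [h] at h0
      have hpar := parity_omega Q hQ hc (D 0) hSO0 k (hD.finrank_eq 0) s hs
      rw [h0, hdisj, finrank_bot, Nat.sub_zero] at hpar
      exact (Nat.not_even_iff_odd.2 hko) hpar
  · obtain ⟨x, hxD, hx0⟩ := Submodule.exists_mem_ne_zero_of_ne_bot hD0ne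
    obtain ⟨y, hyD, hyx⟩ : ∃ y ∈ D 0, y ∉ Submodule.span F ({x} : Set (ι → F)) := by
      by_contra hno
      have hle : D 0 ≤ Submodule.span F ({x} : Set (ι → F)) := by
        intro y hy
        by_contra h
        exact hno ⟨y, hy, h⟩
      have h1 := Submodule.finrank_mono hle
      rw [hD.finrank_eq 0, finrank_span_singleton hx0] at h1
      omega
    obtain ⟨v, hvD, hxv⟩ : ∃ v ∈ D 1, QuadraticMap.polar ⇑Q x v ≠ 0 := by
      by_contra hno
      have hx1 : x ∈ D 1 := hSO1.2 x (fun v hv => by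
        by_contra h
        exact hno ⟨v, hv, h⟩)
      have hx01 : x ∈ D 0 ⊓ D 1 := ⟨hxD, hx1⟩
      rw [hdisj] at hx01
      exact hx0 ((Submodule.mem_bot F).1 hx01)
    have hQx : Q x = 0 := hts 0 x hxD
    have hQy : Q y = 0 := hts 0 y hyD
    have hxy : QuadraticMap.polar ⇑Q x y = 0 := polar_of_sing Q (D 0) (hts 0) x y hxD hyD
    have hfix : ∀ z ∈ D 0, act Q (eich Q x y) z = z := by
      intro z hz
      rw [act_eich Q x y hQx hxy, polar_of_sing Q (D 0) (hts 0) x z hxD hz,
        polar_of_sing Q (D 0) (hts 0) y z hyD hz]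
      simp
    refine ⟨eich Q x y, eich_mem_omega Q hQ hn x y hQx hxy, ?_, ?_⟩
    · intro z hz
      rw [hfix z hz]
      exact hz
    · rintro ⟨σ, hσ⟩
      have h0 : (D 0).map (act Q (eich Q x y)) = D (σ 0) := hσ 0
      have h1 : (D 1).map (act Q (eich Q x y)) = D (σ 1) := hσ 1
      have hmap0 : (D 0).map (act Q (eich Q x y)) = D 0 := by
        ext z
        constructor
        · rintro ⟨z', hz', rfl⟩
          rw [hfix z' hz']
          exact hz'
        · intro hz
          exact ⟨z, hz, hfix z hz⟩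
      rw [hmap0] at h0
      have hσ0 : σ 0 = 0 := by
        rcases hfin2 (σ 0) with h | h
        · exact h
        · rw [h] at h0
          exact absurd h0.symm hne01
      have hσ1 : σ 1 = 1 := by
        rcases hfin2 (σ 1) with h | h
        · have h2 : σ 1 = σ 0 := by rw [h, hσ0]
          exact absurd (σ.injective h2) (by decide)
        · exact h
      rw [hσ1] at h1
      have hv1 : act Q (eich Q x y) v ∈ D 1 := by
        rw [← h1]
        exact ⟨v, hvD, rfl⟩
      rw [act_eich Q x y hQx hxy, hQy, zero_mul, add_zero] at hv1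
      have hd1 : QuadraticMap.polar ⇑Q x v • y - QuadraticMap.polar ⇑Q y v • x ∈ D 1 := by
        have h2 := (D 1).sub_mem hv1 hvD
        have e1 : v + QuadraticMap.polar ⇑Q x v • y - QuadraticMap.polar ⇑Q y v • x - v
            = QuadraticMap.polar ⇑Q x v • y - QuadraticMap.polar ⇑Q y v • x := by abel
        rwa [e1] at h2
      have hd0 : QuadraticMap.polar ⇑Q x v • y - QuadraticMap.polar ⇑Q y v • x ∈ D 0 :=
        (D 0).sub_mem ((D 0).smul_mem _ hyD) ((D 0).smul_mem _ hxD)
      have hd : QuadraticMap.polar ⇑Q x v • y - QuadraticMap.polar ⇑Q y v • x ∈ D 0 ⊓ D 1 :=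
        ⟨hd0, hd1⟩
      rw [hdisj] at hd
      have hd' := sub_eq_zero.1 ((Submodule.mem_bot F).1 hd)
      apply hyx
      have hy : y = ((QuadraticMap.polar ⇑Q x v)⁻¹ * QuadraticMap.polar ⇑Q y v) • x := by
        rw [mul_smul, ← hd', smul_smul, inv_mul_cancel₀ hxv, one_smul]
      rw [hy]
      exact Submodule.mem_span_singleton.2 ⟨_, rfl⟩
  · exact exists_move_ts Q hQ hn (D 0) (hts 0) hD0ne

/-- The stabiliser in `Ω` of a totally singular subspace of dimension one less than half the
dimension of a hyperbolic space is not maximal: it stabilises a maximal totally singular subspace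
containing it. -/
theorem submax_not_max (Q : QuadraticForm F (ι → F))
    (hQ : (QuadraticMap.polarBilin Q).Nondegenerate) (hn : 5 ≤ Fintype.card ι) (k : ℕ)
    (hk : Fintype.card ι = 2 * k) (U₀ : Submodule F (ι → F)) (hU₀ : ∀ x ∈ U₀, Q x = 0)
    (hU₀d : finrank F ↥U₀ = k) (W : Submodule F (ι → F)) (hW : ∀ x ∈ W, Q x = 0)
    (hWd : finrank F ↥W + 1 = k) (hW0 : W ≠ ⊥) :
    ∃ K : Subgroup (Matrix.GeneralLinearGroup ι F),
      Cfsg.Geo.subspaceStabilizer W ⊓ Cfsg.Geo.omegaGL ⇑Q < K ∧ K < Cfsg.Geo.omegaGL ⇑Q := by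
  have hc : Fintype.card F ≠ 2 ∨ Fintype.card ι ≠ 4 := Or.inr (by omega)
  have hnd : ∀ x, (∀ y, QuadraticMap.polar ⇑Q x y = 0) → x = 0 := fun x hx => hQ.1 x hx
  -- a hyperplane of `U₀`
  obtain ⟨U', hU'le, hU'd⟩ : ∃ U' ≤ U₀, finrank F ↥U' = finrank F ↥W := by
    have hU₀ne : U₀ ≠ ⊥ := by
      rintro rfl
      rw [finrank_bot] at hU₀d
      omega
    obtain ⟨x₀, hx₀U, hx₀⟩ := Submodule.exists_mem_ne_zero_of_ne_bot hU₀ne
    obtain ⟨i, hi⟩ : ∃ i, x₀ i ≠ 0 := by
      by_contra hno
      apply hx₀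
      funext i
      by_contra h
      exact hno ⟨i, h⟩
    have hnle : ¬ U₀ ≤ LinearMap.ker (LinearMap.proj (R := F) (φ := fun _ : ι => F) i) := by
      intro hle
      exact hi (hle hx₀U)
    have h := finrank_inf_ker (LinearMap.proj (R := F) (φ := fun _ : ι => F) i) U₀
    rw [if_neg hnle] at h
    exact ⟨U₀ ⊓ LinearMap.ker (LinearMap.proj (R := F) (φ := fun _ : ι => F) i), inf_le_left,
      by omega⟩
  obtain ⟨vs, hvs, -, hmap⟩ := ts_trans Q hnd (finrank F ↥W) ⊥ U' W (splits_bot Q)
    (fun x _ => mem_perp_bot Q x) (fun x _ => mem_perp_bot Q x)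
    (fun x hx => hU₀ x (hU'le hx)) hW hU'd rfl
  have hWU₁ : W ≤ U₀.map (act Q (prodRefl Q vs)) := by
    rw [← hmap]
    exact Submodule.map_mono hU'le
  have hU₁ts : ∀ x ∈ U₀.map (act Q (prodRefl Q vs)), Q x = 0 := by
    rintro _ ⟨z, hz, rfl⟩
    rw [act_Q]
    exact hU₀ z hz
  have hU₁d : finrank F ↥(U₀.map (act Q (prodRefl Q vs))) = k := by
    rw [finrank_map_act, hU₀d]
  generalize U₀.map (act Q (prodRefl Q vs)) = U₁ at hWU₁ hU₁ts hU₁d
  have hSO : SelfOrth Q U₁ := selfOrth_of_finrank Q hQ U₁ hU₁ts k hU₁d hk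
  have hlt : W < U₁ := by
    apply lt_of_le_of_ne hWU₁
    rintro rfl
    omega
  have hU₁ne : U₁ ≠ ⊥ := by
    rintro rfl
    rw [finrank_bot] at hU₁d
    omega
  apply between Q (Cfsg.Geo.subspaceStabilizer W) U₁
  · intro s hs hsW x hx
    have hpar := parity_omega Q hQ hc U₁ hSO k hU₁d s hs
    have hWle : W ≤ U₁ ⊓ U₁.map (act Q s) := by
      apply le_inf hWU₁
      rw [← stab_map Q s W hsW]
      exact Submodule.map_mono hWU₁
    have h1 := Submodule.finrank_mono hWle
    have h2 := Submodule.finrank_mono (inf_le_left : U₁ ⊓ U₁.map (act Q s) ≤ U₁)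
    rw [hU₁d] at h2
    have h3 : finrank F ↥(U₁ ⊓ U₁.map (act Q s)) = k := by
      by_contra hne
      have h4 : k - finrank F ↥(U₁ ⊓ U₁.map (act Q s)) = 1 := by omega
      rw [h4] at hpar
      exact absurd hpar (by decide)
    have h5 : U₁ ⊓ U₁.map (act Q s) = U₁ :=
      Submodule.eq_of_le_of_finrank_eq inf_le_left (by rw [h3, hU₁d])
    have h6 : U₁ ≤ U₁.map (act Q s) := by
      intro z hz
      have hz' : z ∈ U₁ ⊓ U₁.map (act Q s) := by
        rw [h5]
        exact hz
      exact hz'.2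
    have h7 : U₁ = U₁.map (act Q s) :=
      Submodule.eq_of_le_of_finrank_eq h6 (by rw [finrank_map_act])
    rw [h7]
    exact ⟨x, hx, rfl⟩
  · obtain ⟨s, hs, hsU, x, hxW, hsx⟩ := exists_stab_move Q hQ hn U₁ W hU₁ts hlt hW0
    refine ⟨s, hs, hsU, ?_⟩
    intro hmem
    exact hsx (((mem_stab_iff Q s W).1 hmem x).1 hxW)
  · exact exists_move_ts Q hQ hn U₁ hU₁ts hU₁ne

end Cfsg.Agent.Lib.Helper15.GeoNotMax
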