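import Mathlib
import Cfsg.Agent.Lib.Helper15.AutOmega
import Cfsg.Agent.S2624

/-!
# Automorphisms of `PΩ` induced by similarities

`simAut Q : GO(Q) →* Aut(PΩ(Q))` is conjugation by similarities.  Its kernel is the group of
scalars, its range is `Cfsg.pgoAut`, and in odd characteristic and even dimension the quotient of
its range by the image of the special orthogonal group is a four-group.
-/

set_option autoImplicit false

namespace Cfsg.Agent.Lib.Helper15.SimAut

open Module Cfsg.Agent.Lib.Helper15.Spinor Cfsg.Agent.Lib.Helper15.CD2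
  Cfsg.Agent.Lib.Helper15.Parity Cfsg.Agent.Lib.Helper15.Witt Cfsg.Agent.Lib.Helper15.WittInf
  Cfsg.Agent.Lib.Helper15.OrthGen Cfsg.Agent.Lib.Helper15.HypPair
  Cfsg.Agent.Lib.Helper15.CenterOmega Cfsg.Agent.Lib.Helper15.Eichler
  Cfsg.Agent.Lib.Helper15.EichGen Cfsg.Agent.Lib.Helper15.SingPts
  Cfsg.Agent.Lib.Helper15.OmegaSimple Cfsg.Agent.Lib.Helper15.AutOmega

/-! ### Generalities on groups -/

/-- For a perfect group, an automorphism inducing the identity modulo the centre is the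
identity. -/
theorem aut_eq_one_of_quot {G : Type*} [Group G] (hperf : commutator G = ⊤) (α : MulAut G)
    (hα : quotAut G α = 1) : α = 1 := by
  have hcen : ∀ s : G, s⁻¹ * α s ∈ Subgroup.center G := by
    intro s
    have h1 : quotAut G α (QuotientGroup.mk s) = QuotientGroup.mk s := by
      rw [hα]
      rfl
    rw [quotAut_mk] at h1
    exact QuotientGroup.eq.1 h1.symm
  obtain ⟨χ, hχ⟩ : ∃ χ : G →* ↥(Subgroup.center G), ∀ s, (χ s : G) = s⁻¹ * α s := by
    refine ⟨MonoidHom.mk' (fun s => ⟨s⁻¹ * α s, hcen s⟩) ?_, fun _ => rfl⟩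
    intro s t
    apply Subtype.ext
    have hz := Subgroup.mem_center_iff.1 (hcen s) t⁻¹
    change (s * t)⁻¹ * α (s * t) = (s⁻¹ * α s) * (t⁻¹ * α t)
    rw [map_mul, mul_inv_rev, mul_assoc, ← mul_assoc s⁻¹, ← mul_assoc t⁻¹, hz]
    group
  have hker : commutator G ≤ χ.ker := by
    rw [commutator_eq_closure (G := G), Subgroup.closure_le]
    rintro _ ⟨a, b, rfl⟩
    rw [SetLike.mem_coe, MonoidHom.mem_ker]
    simp only [commutatorElement_def, map_mul, map_inv]
    have hz := Subgroup.mem_center_iff.1 (χ a).2 (χ b).1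
    apply Subtype.ext
    simp only [Subgroup.coe_mul, Subgroup.coe_inv, Subgroup.coe_one]
    rw [← hz, mul_inv_cancel_right, mul_inv_cancel]
  rw [hperf] at hker
  apply MulEquiv.ext
  intro s
  have h2 : χ s = 1 := hker (Subgroup.mem_top s)
  have h3 : s⁻¹ * α s = 1 := by
    rw [← hχ, h2]
    rfl
  exact (inv_mul_eq_one.1 h3).symm

/-- Factoring a surjection through the range of a homomorphism. -/
theorem exists_factor {G A B : Type*} [Group G] [Group A] [Group B] (f : G →* A) (ψ : G →* B)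
    (hψ : Function.Surjective ψ) (S : Subgroup G)
    (h : ∀ g, ψ g = 1 ↔ ∃ s ∈ S, f g = f s) :
    ∃ φ : ↥f.range →* B, Function.Surjective φ ∧ φ.ker = (S.map f).subgroupOf f.range := by
  have hker : f.rangeRestrict.ker ≤ ψ.ker := by
    intro g hg
    rw [MonoidHom.mem_ker] at hg ⊢
    rw [h]
    refine ⟨1, Subgroup.one_mem S, ?_⟩
    have h1 := congrArg Subtype.val hg
    rw [map_one]
    exact h1
  obtain ⟨φ, hφ⟩ : ∃ φ : ↥f.range →* B, ∀ g, φ (f.rangeRestrict g) = ψ g :=
    ⟨f.rangeRestrict.liftOfSurjective f.rangeRestrict_surjective ⟨ψ, hker⟩, fun g =>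
      MonoidHom.liftOfRightInverse_comp_apply _ _ _ _ g⟩
  refine ⟨φ, ?_, ?_⟩
  · intro b
    obtain ⟨g, rfl⟩ := hψ b
    exact ⟨f.rangeRestrict g, hφ g⟩
  · ext x
    obtain ⟨g, hg⟩ := f.rangeRestrict_surjective x
    rw [MonoidHom.mem_ker, ← hg, hφ, h, Subgroup.mem_subgroupOf]
    constructor
    · rintro ⟨s, hs, hfs⟩
      exact ⟨s, hs, hfs.symm⟩
    · rintro ⟨s, hs, hfs⟩
      exact ⟨s, hs, hfs.symm⟩

/-- A surjection onto the four-group from two characters with values in `{1, z}`. -/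
theorem exists_sign_hom {G M : Type*} [Group G] [CommGroup M] (z : M) (hz : z ≠ 1)
    (hz2 : z * z = 1) (e₁ e₂ : G →* M) (h₁ : ∀ g, e₁ g = 1 ∨ e₁ g = z)
    (h₂ : ∀ g, e₂ g = 1 ∨ e₂ g = z) (a b : G) (ha : e₁ a = z ∧ e₂ a = 1)
    (hb : e₁ b = 1 ∧ e₂ b = z) :
    ∃ ψ : G →* Multiplicative (ZMod 2 × ZMod 2), Function.Surjective ψ ∧
      ∀ g, ψ g = 1 ↔ (e₁ g = 1 ∧ e₂ g = 1) := by
  classical
  obtain ⟨s, hs⟩ : ∃ s : M → ZMod 2, ∀ x, s x = if x = 1 then 0 else 1 := ⟨_, fun _ => rfl⟩
  have hs1 : s 1 = 0 := by rw [hs, if_pos rfl]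
  have hsz : s z = 1 := by rw [hs, if_neg hz]
  have hadd : ∀ x y : M, (x = 1 ∨ x = z) → (y = 1 ∨ y = z) → s (x * y) = s x + s y := by
    intro x y hx hy
    rcases hx with rfl | rfl <;> rcases hy with rfl | rfl
    · rw [mul_one, hs1, add_zero]
    · rw [one_mul, hs1, zero_add]
    · rw [mul_one, hs1, add_zero]
    · rw [hz2, hs1, hsz]
      rfl
  have hs0 : ∀ x : M, s x = 0 ↔ x = 1 := by
    intro x
    rw [hs]
    by_cases hx : x = 1
    · rw [if_pos hx]
      exact ⟨fun _ => hx, fun _ => rfl⟩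
    · rw [if_neg hx]
      exact ⟨fun h => absurd h (by decide), fun h => absurd h hx⟩
  let ψ : G →* Multiplicative (ZMod 2 × ZMod 2) :=
    MonoidHom.mk' (fun g => Multiplicative.ofAdd (s (e₁ g), s (e₂ g))) (by
      intro x y
      rw [map_mul, map_mul, hadd _ _ (h₁ x) (h₁ y), hadd _ _ (h₂ x) (h₂ y)]
      rfl)
  have hψ : ∀ g, ψ g = Multiplicative.ofAdd (s (e₁ g), s (e₂ g)) := fun _ => rfl
  refine ⟨ψ, ?_, ?_⟩
  · intro y
    obtain ⟨⟨i, j⟩, rfl⟩ := Multiplicative.ofAdd.surjective y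
    have hcases : ∀ k : ZMod 2, k = 0 ∨ k = 1 := by decide
    rcases hcases i with rfl | rfl <;> rcases hcases j with rfl | rfl
    · exact ⟨1, by rw [hψ, map_one, map_one, hs1]⟩
    · exact ⟨b, by rw [hψ, hb.1, hb.2, hs1, hsz]⟩
    · exact ⟨a, by rw [hψ, ha.1, ha.2, hs1, hsz]⟩
    · exact ⟨a * b, by
        rw [hψ, map_mul, map_mul, ha.1, ha.2, hb.1, hb.2, mul_one, one_mul, hsz]⟩
  · intro g
    rw [hψ]
    constructor
    · intro h
      have h' : (s (e₁ g), s (e₂ g)) = (0, 0) := h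
      rw [Prod.mk.injEq, hs0, hs0] at h'
      exact h'
    · rintro ⟨h1, h2⟩
      rw [h1, h2, hs1]
      rfl

/-! ### Similarities -/

variable {F : Type*} [Field F] [Fintype F] {ι : Type} [Fintype ι] [DecidableEq ι]

/-- The multiplier of a similarity. -/
noncomputable def mu (Q : QuadraticForm F (ι → F))
    (g : ↥(Cfsg.Geo.quadSimilarityGroup (F := F) ⇑Q)) : Fˣ := Classical.choose g.2

omit [Fintype F] in
theorem mu_spec (Q : QuadraticForm F (ι → F))
    (g : ↥(Cfsg.Geo.quadSimilarityGroup (F := F) ⇑Q)) (v : ι → F) :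
    Q (((g : Matrix.GeneralLinearGroup ι F) : Matrix ι ι F).mulVec v) = (mu Q g : F) * Q v :=
  Classical.choose_spec g.2 v

omit [Fintype F] in
theorem mu_unique (Q : QuadraticForm F (ι → F)) (hne : ∃ v, Q v ≠ 0)
    (g : ↥(Cfsg.Geo.quadSimilarityGroup (F := F) ⇑Q)) (c : F)
    (hc : ∀ v, Q (((g : Matrix.GeneralLinearGroup ι F) : Matrix ι ι F).mulVec v) = c * Q v) :
    (mu Q g : F) = c := by
  obtain ⟨v, hv⟩ := hne
  have h := mu_spec Q g v
  rw [hc v] at h
  exact (mul_right_cancel₀ hv h).symm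

omit [Fintype F] in
theorem mu_mul (Q : QuadraticForm F (ι → F)) (hne : ∃ v, Q v ≠ 0)
    (g h : ↥(Cfsg.Geo.quadSimilarityGroup (F := F) ⇑Q)) : mu Q (g * h) = mu Q g * mu Q h := by
  apply Units.ext
  rw [Units.val_mul]
  apply mu_unique Q hne
  intro v
  rw [Subgroup.coe_mul, Units.val_mul, ← Matrix.mulVec_mulVec, mu_spec, mu_spec, mul_assoc]

/-- The multiplier, as a homomorphism. -/
noncomputable def muHom (Q : QuadraticForm F (ι → F)) (hne : ∃ v, Q v ≠ 0) :
    ↥(Cfsg.Geo.quadSimilarityGroup (F := F) ⇑Q) →* Fˣ :=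
  MonoidHom.mk' (mu Q) (mu_mul Q hne)

omit [Fintype F] in
theorem muHom_apply (Q : QuadraticForm F (ι → F)) (hne : ∃ v, Q v ≠ 0)
    (g : ↥(Cfsg.Geo.quadSimilarityGroup (F := F) ⇑Q)) : muHom Q hne g = mu Q g := rfl

omit [Fintype F] in
theorem mu_polar (Q : QuadraticForm F (ι → F))
    (g : ↥(Cfsg.Geo.quadSimilarityGroup (F := F) ⇑Q)) (u v : ι → F) :
    QuadraticMap.polar ⇑Q (((g : Matrix.GeneralLinearGroup ι F) : Matrix ι ι F).mulVec u)
      (((g : Matrix.GeneralLinearGroup ι F) : Matrix ι ι F).mulVec v)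
      = (mu Q g : F) * QuadraticMap.polar ⇑Q u v := by
  unfold QuadraticMap.polar
  rw [← Matrix.mulVec_add, mu_spec, mu_spec, mu_spec]
  ring

omit [Fintype F] in
theorem iso_le (Q : QuadraticForm F (ι → F)) :
    Cfsg.isometryGroup F ⇑Q ≤ Cfsg.Geo.quadSimilarityGroup (F := F) ⇑Q := by
  intro g hg
  refine ⟨1, fun v => ?_⟩
  rw [Units.val_one, one_mul]
  exact (mem_iso Q g).1 hg v

/-- The inclusion of the isometry group in the similarity group. -/
noncomputable def incl (Q : QuadraticForm F (ι → F)) :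
    ↥(Cfsg.isometryGroup F ⇑Q) →* ↥(Cfsg.Geo.quadSimilarityGroup (F := F) ⇑Q) :=
  Subgroup.inclusion (iso_le Q)

omit [Fintype F] in
theorem coe_incl (Q : QuadraticForm F (ι → F)) (s : ↥(Cfsg.isometryGroup F ⇑Q)) :
    ((incl Q s : ↥(Cfsg.Geo.quadSimilarityGroup (F := F) ⇑Q)) : Matrix.GeneralLinearGroup ι F)
      = (s : Matrix.GeneralLinearGroup ι F) := rfl

omit [Fintype F] in
theorem mu_incl (Q : QuadraticForm F (ι → F)) (hne : ∃ v, Q v ≠ 0)
    (s : ↥(Cfsg.isometryGroup F ⇑Q)) : mu Q (incl Q s) = 1 := by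
  apply Units.ext
  rw [Units.val_one]
  apply mu_unique Q hne
  intro v
  rw [coe_incl, one_mul]
  exact iso_apply Q s v

omit [Fintype F] in
theorem conj_mem (Q : QuadraticForm F (ι → F))
    (g : ↥(Cfsg.Geo.quadSimilarityGroup (F := F) ⇑Q)) (s : ↥(Cfsg.isometryGroup F ⇑Q)) :
    (g : Matrix.GeneralLinearGroup ι F) * (s : Matrix.GeneralLinearGroup ι F)
      * (g : Matrix.GeneralLinearGroup ι F)⁻¹ ∈ Cfsg.isometryGroup F ⇑Q := by
  rw [mem_iso]
  intro x
  have h1 := mu_spec Q g
    (((s : Matrix.GeneralLinearGroup ι F) : Matrix ι ι F).mulVec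
      ((((g : Matrix.GeneralLinearGroup ι F)⁻¹ : Matrix.GeneralLinearGroup ι F) :
        Matrix ι ι F).mulVec x))
  have h2 := mu_spec Q g
    ((((g : Matrix.GeneralLinearGroup ι F)⁻¹ : Matrix.GeneralLinearGroup ι F) :
        Matrix ι ι F).mulVec x)
  rw [Matrix.mulVec_mulVec, ← Units.val_mul, mul_inv_cancel, Units.val_one,
    Matrix.one_mulVec] at h2
  rw [Units.val_mul, Units.val_mul, ← Matrix.mulVec_mulVec, ← Matrix.mulVec_mulVec, h1,
    iso_apply, ← h2]

/-- Conjugation by a similarity, as an automorphism of the isometry group. -/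
noncomputable def simConj (Q : QuadraticForm F (ι → F)) :
    ↥(Cfsg.Geo.quadSimilarityGroup (F := F) ⇑Q) →* MulAut ↥(Cfsg.isometryGroup F ⇑Q) where
  toFun g :=
    { toFun := fun s => ⟨(g : Matrix.GeneralLinearGroup ι F) * (s : Matrix.GeneralLinearGroup ι F)
        * (g : Matrix.GeneralLinearGroup ι F)⁻¹, conj_mem Q g s⟩
      invFun := fun s => ⟨(g : Matrix.GeneralLinearGroup ι F)⁻¹
        * (s : Matrix.GeneralLinearGroup ι F) * (g : Matrix.GeneralLinearGroup ι F), by
          have h := conj_mem Q g⁻¹ s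
          rw [Subgroup.coe_inv, inv_inv] at h
          exact h⟩
      left_inv := fun s => by
        apply Subtype.ext
        change (g : Matrix.GeneralLinearGroup ι F)⁻¹ * ((g : Matrix.GeneralLinearGroup ι F)
          * (s : Matrix.GeneralLinearGroup ι F) * (g : Matrix.GeneralLinearGroup ι F)⁻¹)
          * (g : Matrix.GeneralLinearGroup ι F) = s
        group
      right_inv := fun s => by
        apply Subtype.ext
        change (g : Matrix.GeneralLinearGroup ι F) * ((g : Matrix.GeneralLinearGroup ι F)⁻¹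
          * (s : Matrix.GeneralLinearGroup ι F) * (g : Matrix.GeneralLinearGroup ι F))
          * (g : Matrix.GeneralLinearGroup ι F)⁻¹ = s
        group
      map_mul' := fun s t => by
        apply Subtype.ext
        change (g : Matrix.GeneralLinearGroup ι F) * ((s : Matrix.GeneralLinearGroup ι F)
          * (t : Matrix.GeneralLinearGroup ι F)) * (g : Matrix.GeneralLinearGroup ι F)⁻¹
          = ((g : Matrix.GeneralLinearGroup ι F) * (s : Matrix.GeneralLinearGroup ι F)
            * (g : Matrix.GeneralLinearGroup ι F)⁻¹) * ((g : Matrix.GeneralLinearGroup ι F)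
            * (t : Matrix.GeneralLinearGroup ι F) * (g : Matrix.GeneralLinearGroup ι F)⁻¹)
        group }
  map_one' := by
    apply MulEquiv.ext
    intro s
    apply Subtype.ext
    change ((1 : ↥(Cfsg.Geo.quadSimilarityGroup (F := F) ⇑Q)) : Matrix.GeneralLinearGroup ι F)
      * (s : Matrix.GeneralLinearGroup ι F)
      * ((1 : ↥(Cfsg.Geo.quadSimilarityGroup (F := F) ⇑Q)) : Matrix.GeneralLinearGroup ι F)⁻¹
      = s
    rw [Subgroup.coe_one, one_mul, inv_one, mul_one]
  map_mul' := fun g h => by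
    apply MulEquiv.ext
    intro s
    apply Subtype.ext
    change ((g * h : ↥(Cfsg.Geo.quadSimilarityGroup (F := F) ⇑Q)) :
        Matrix.GeneralLinearGroup ι F) * (s : Matrix.GeneralLinearGroup ι F)
      * ((g * h : ↥(Cfsg.Geo.quadSimilarityGroup (F := F) ⇑Q)) :
        Matrix.GeneralLinearGroup ι F)⁻¹
      = (g : Matrix.GeneralLinearGroup ι F) * ((h : Matrix.GeneralLinearGroup ι F)
        * (s : Matrix.GeneralLinearGroup ι F) * (h : Matrix.GeneralLinearGroup ι F)⁻¹)
        * (g : Matrix.GeneralLinearGroup ι F)⁻¹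
    rw [Subgroup.coe_mul]
    group

omit [Fintype F] in
theorem coe_simConj (Q : QuadraticForm F (ι → F))
    (g : ↥(Cfsg.Geo.quadSimilarityGroup (F := F) ⇑Q)) (s : ↥(Cfsg.isometryGroup F ⇑Q)) :
    ((simConj Q g s : ↥(Cfsg.isometryGroup F ⇑Q)) : Matrix.GeneralLinearGroup ι F)
      = (g : Matrix.GeneralLinearGroup ι F) * (s : Matrix.GeneralLinearGroup ι F)
        * (g : Matrix.GeneralLinearGroup ι F)⁻¹ := rfl

instance commChar (G : Type*) [Group G] : (commutator G).Characteristic :=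
  Subgroup.commutator_characteristic ⊤ ⊤

/-- Conjugation by a similarity, as an automorphism of `Ω`. -/
noncomputable def omConj (Q : QuadraticForm F (ι → F)) :
    ↥(Cfsg.Geo.quadSimilarityGroup (F := F) ⇑Q) →*
      MulAut ↥(commutator ↥(Cfsg.isometryGroup F ⇑Q)) :=
  (MulAut.characteristic (commutator ↥(Cfsg.isometryGroup F ⇑Q))).comp (simConj Q)

omit [Fintype F] in
theorem coe_omConj (Q : QuadraticForm F (ι → F))
    (g : ↥(Cfsg.Geo.quadSimilarityGroup (F := F) ⇑Q))
    (s : ↥(commutator ↥(Cfsg.isometryGroup F ⇑Q))) :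
    (((omConj Q g s : ↥(commutator ↥(Cfsg.isometryGroup F ⇑Q))) :
        ↥(Cfsg.isometryGroup F ⇑Q)) : Matrix.GeneralLinearGroup ι F)
      = (g : Matrix.GeneralLinearGroup ι F)
        * ((s : ↥(Cfsg.isometryGroup F ⇑Q)) : Matrix.GeneralLinearGroup ι F)
        * (g : Matrix.GeneralLinearGroup ι F)⁻¹ := rfl

/-- Conjugation by a similarity, as an automorphism of `PΩ`. -/
noncomputable def simAut (Q : QuadraticForm F (ι → F)) :
    ↥(Cfsg.Geo.quadSimilarityGroup (F := F) ⇑Q) →* MulAut (Cfsg.POmega F ⇑Q) :=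
  (quotAut ↥(commutator ↥(Cfsg.isometryGroup F ⇑Q))).comp (omConj Q)

omit [Fintype F] in
theorem simAut_mk (Q : QuadraticForm F (ι → F))
    (g : ↥(Cfsg.Geo.quadSimilarityGroup (F := F) ⇑Q))
    (s : ↥(commutator ↥(Cfsg.isometryGroup F ⇑Q))) :
    simAut Q g (QuotientGroup.mk s) = QuotientGroup.mk (omConj Q g s) := rfl

omit [Fintype F] in
/-- On isometries, `simAut` is `conjAut`. -/
theorem simAut_incl (Q : QuadraticForm F (ι → F)) (s : ↥(Cfsg.isometryGroup F ⇑Q)) :
    simAut Q (incl Q s) = conjAut Q s := by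
  apply MulEquiv.ext
  intro y
  induction y using QuotientGroup.induction_on with
  | H t =>
    rw [simAut_mk, conjAut_mk]
    congr 1

omit [Fintype F] in
theorem conjAut_eq_comp (Q : QuadraticForm F (ι → F)) :
    conjAut Q = (simAut Q).comp (incl Q) :=
  MonoidHom.ext fun s => (simAut_incl Q s).symm

omit [Fintype F] in
/-- The image of the similarity group is `pgoAut`. -/
theorem pgoAut_eq (Q : QuadraticForm F (ι → F)) :
    Cfsg.pgoAut F ⇑Q = (simAut Q).range := by
  unfold Cfsg.pgoAut Cfsg.autSubgroupOf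
  have hmap : ∀ M : Matrix ι ι F, M.map (RingEquiv.refl F) = M := fun M => by
    ext i j
    rfl
  have hset : {β : MulAut (Cfsg.POmega F ⇑Q) | Cfsg.IsSimilarityInducedAutPOmega ⇑Q β}
      = ((simAut Q).range : Set (MulAut (Cfsg.POmega F ⇑Q))) := by
    ext β
    constructor
    · rintro ⟨g, hg, hind⟩
      refine ⟨⟨g, hg⟩, ?_⟩
      apply MulEquiv.ext
      intro y
      induction y using QuotientGroup.induction_on with
      | H s =>
        rw [simAut_mk]
        symm
        apply hind s (omConj Q ⟨g, hg⟩ s)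
        rw [hmap, coe_omConj]
        rfl
    · rintro ⟨g, rfl⟩
      refine ⟨(g : Matrix.GeneralLinearGroup ι F), g.2, ?_⟩
      intro s s' hs'
      rw [simAut_mk]
      congr 1
      apply Subtype.ext
      apply Subtype.ext
      apply Units.ext
      rw [hs', hmap, coe_omConj]
      rfl
  rw [hset, Subgroup.closure_eq]

/-- The image of the special orthogonal group. -/
theorem psoAut_eq' (Q : QuadraticForm F (ι → F)) :
    Cfsg.psoAut F ⇑Q = ((Cfsg.specialIsometryGroup F ⇑Q).map (incl Q)).map (simAut Q) := by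
  rw [psoAut_eq, Subgroup.map_map, conjAut_eq_comp]

omit [Fintype F] in
/-- The inner automorphisms. -/
theorem inn_eq' (Q : QuadraticForm F (ι → F)) :
    Cfsg.Inn (Cfsg.POmega F ⇑Q)
      = ((commutator ↥(Cfsg.isometryGroup F ⇑Q)).map (incl Q)).map (simAut Q) := by
  rw [inn_eq, Subgroup.map_map, conjAut_eq_comp]

/-! ### The kernel of `simAut` -/

/-- A linear map commuting with `Ω` maps every singular vector to a multiple of itself. -/
theorem comm_eigen (Q : QuadraticForm F (ι → F))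
    (hQ : (QuadraticMap.polarBilin Q).Nondegenerate) (hn : 5 ≤ Fintype.card ι)
    (T : (ι → F) →ₗ[F] (ι → F))
    (hT : ∀ s ∈ commutator ↥(Cfsg.isometryGroup F ⇑Q), ∀ x, T (act Q s x) = act Q s (T x))
    (e : ι → F) (he : Q e = 0) : ∃ c : F, T e = c • e := by
  by_cases he0 : e = 0
  · exact ⟨0, by rw [he0, map_zero, smul_zero]⟩
  have hee : QuadraticMap.polar ⇑Q e e = 0 := by rw [QuadraticMap.polar_self, he, smul_zero]
  have key : ∀ y, QuadraticMap.polar ⇑Q e y = 0 →
      QuadraticMap.polar ⇑Q e (T e) • y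
        = (QuadraticMap.polar ⇑Q y (T e) + Q y * QuadraticMap.polar ⇑Q e (T e)) • e := by
    intro y hey
    have h := hT (eich Q e y) (eich_mem_omega Q hQ hn e y he hey) e
    rw [act_eich Q e y he hey, act_eich Q e y he hey, hee, QuadraticMap.polar_comm ⇑Q y e,
      hey] at h
    simp only [zero_smul, mul_zero, add_zero, sub_zero] at h
    rw [add_sub_assoc, left_eq_add] at h
    exact sub_eq_zero.1 h
  have hA : QuadraticMap.polar ⇑Q e (T e) = 0 := by
    obtain ⟨w, hwW, hw⟩ := exists_nonsing_perp Q hQ (Submodule.span F {e}) (by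
      have := finrank_span_singleton (K := F) he0
      omega)
    have hwe : QuadraticMap.polar ⇑Q w e = 0 :=
      (mem_perp Q _ w).1 hwW e (Submodule.subset_span rfl)
    have hk := key w (by rw [QuadraticMap.polar_comm]; exact hwe)
    by_contra hA0
    apply hw
    have h2 : w = ((QuadraticMap.polar ⇑Q e (T e))⁻¹ * (QuadraticMap.polar ⇑Q w (T e)
        + Q w * QuadraticMap.polar ⇑Q e (T e))) • e := by
      rw [← smul_smul, ← hk, smul_smul, inv_mul_cancel₀ hA0, one_smul]
    rw [h2, QuadraticMap.map_smul, he, smul_zero]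
  have hmem : T e ∈ perp Q (perp Q (Submodule.span F {e})) := by
    rw [mem_perp]
    intro y hy
    have hye : QuadraticMap.polar ⇑Q y e = 0 :=
      (mem_perp Q _ y).1 hy e (Submodule.subset_span rfl)
    have hk := key y (by rw [QuadraticMap.polar_comm]; exact hye)
    rw [hA, zero_smul, mul_zero, add_zero] at hk
    rcases smul_eq_zero.1 hk.symm with h | h
    · rw [QuadraticMap.polar_comm]; exact h
    · exact absurd h he0
  rw [perp_perp Q hQ] at hmem
  obtain ⟨c, hc⟩ := Submodule.mem_span_singleton.1 hmem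
  exact ⟨c, hc.symm⟩

/-- A similarity commuting with `Ω` is a scalar. -/
theorem comm_scalar (Q : QuadraticForm F (ι → F))
    (hQ : (QuadraticMap.polarBilin Q).Nondegenerate) (hn : 5 ≤ Fintype.card ι)
    (T : (ι → F) →ₗ[F] (ι → F)) (μ : F) (hμ : μ ≠ 0)
    (hsim : ∀ u v, QuadraticMap.polar ⇑Q (T u) (T v) = μ * QuadraticMap.polar ⇑Q u v)
    (hT : ∀ s ∈ commutator ↥(Cfsg.isometryGroup F ⇑Q), ∀ x, T (act Q s x) = act Q s (T x))
    (e f : ι → F) (he : Q e = 0) (hf : Q f = 0) (hef : QuadraticMap.polar ⇑Q e f = 1) :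
    ∃ c : F, ∀ x, T x = c • x := by
  obtain ⟨lam, hlam⟩ := comm_eigen Q hQ hn T hT e he
  obtain ⟨mu, hmu⟩ := comm_eigen Q hQ hn T hT f hf
  have hfe : QuadraticMap.polar ⇑Q f e = 1 := by rw [QuadraticMap.polar_comm]; exact hef
  have hee : QuadraticMap.polar ⇑Q e e = 0 := by rw [QuadraticMap.polar_self, he, smul_zero]
  have hff : QuadraticMap.polar ⇑Q f f = 0 := by rw [QuadraticMap.polar_self, hf, smul_zero]
  have hlm : lam * mu = μ := by
    have h := hsim e f
    rw [hlam, hmu, QuadraticMap.polar_smul_left, QuadraticMap.polar_smul_right, hef] at h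
    simpa using h
  have hlam0 : lam ≠ 0 := left_ne_zero_of_mul (hlm ▸ hμ)
  have hmu0 : mu ≠ 0 := right_ne_zero_of_mul (hlm ▸ hμ)
  have key : ∀ w, QuadraticMap.polar ⇑Q w e = 0 → QuadraticMap.polar ⇑Q w f = 0 →
      T w = mu • w ∧ (Q w ≠ 0 → lam = mu) := by
    intro w hwe hwf
    have hv : Q (f + w - Q w • e) = 0 := by
      rw [sub_eq_add_neg, ← neg_smul, QuadraticMap.map_add ⇑Q, QuadraticMap.map_add ⇑Q,
        QuadraticMap.map_smul, hf, he, QuadraticMap.polar_smul_right,
        QuadraticMap.polar_add_left, hfe, hwe, QuadraticMap.polar_comm ⇑Q f w, hwf]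
      simp
    obtain ⟨nu, hnu⟩ := comm_eigen Q hQ hn T hT (f + w - Q w • e) hv
    have hzw : T w = nu • (f + w - Q w • e) - mu • f + (Q w * lam) • e := by
      have h := hnu
      rw [map_sub, map_add, map_smul, hlam, hmu] at h
      rw [← h, smul_smul]
      abel
    have h1 : QuadraticMap.polar ⇑Q (T w) e = 0 := by
      have h := hsim w e
      rw [hlam, QuadraticMap.polar_smul_right, hwe, mul_zero] at h
      rcases smul_eq_zero.1 h with h' | h'
      · exact absurd h' hlam0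
      · exact h'
    have h2 : QuadraticMap.polar ⇑Q (T w) f = 0 := by
      have h := hsim w f
      rw [hmu, QuadraticMap.polar_smul_right, hwf, mul_zero] at h
      rcases smul_eq_zero.1 h with h' | h'
      · exact absurd h' hmu0
      · exact h'
    have h1' : nu = mu := by
      rw [hzw] at h1
      simp only [QuadraticMap.polar_add_left, QuadraticMap.polar_sub_left,
        QuadraticMap.polar_smul_left, hfe, hwe, hee, smul_eq_mul, mul_zero, mul_one, add_zero,
        sub_zero] at h1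
      exact sub_eq_zero.1 h1
    have h2' : Q w * (lam - nu) = 0 := by
      rw [hzw] at h2
      simp only [QuadraticMap.polar_add_left, QuadraticMap.polar_sub_left,
        QuadraticMap.polar_smul_left, hff, hwf, hef, smul_eq_mul, mul_zero, mul_one, add_zero,
        zero_sub, sub_zero] at h2
      linear_combination h2
    constructor
    · rw [hzw, h1']
      rw [h1'] at h2'
      have h5 : (Q w * lam) • e = (Q w * mu) • e := by
        have h6 : Q w * lam = Q w * mu := by linear_combination h2'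
        rw [h6]
      rw [h5, smul_sub, smul_add, smul_smul, mul_comm mu (Q w)]
      abel
    · intro hQw
      rcases mul_eq_zero.1 h2' with h | h
      · exact absurd h hQw
      · rw [← h1']
        exact sub_eq_zero.1 h
  obtain ⟨w, hwW, hQw⟩ := exists_nonsing_perp Q hQ (Submodule.span F ({e, f} : Set (ι → F)))
    (by have := finrank_pair_le e f; omega)
  have hwe : QuadraticMap.polar ⇑Q w e = 0 :=
    (mem_perp Q _ w).1 hwW e (Submodule.subset_span (by simp))
  have hwf : QuadraticMap.polar ⇑Q w f = 0 :=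
    (mem_perp Q _ w).1 hwW f (Submodule.subset_span (by simp))
  have hlm' : lam = mu := (key w hwe hwf).2 hQw
  rw [hlm'] at hlam
  refine ⟨mu, fun x => ?_⟩
  obtain ⟨wx, hwxdef⟩ : ∃ wx, wx = x - QuadraticMap.polar ⇑Q x f • e
      - QuadraticMap.polar ⇑Q x e • f := ⟨_, rfl⟩
  have hwxe : QuadraticMap.polar ⇑Q wx e = 0 := by
    rw [hwxdef]
    simp only [QuadraticMap.polar_sub_left, QuadraticMap.polar_smul_left, hee, hfe,
      smul_eq_mul, mul_zero, mul_one, sub_zero, sub_self]
  have hwxf : QuadraticMap.polar ⇑Q wx f = 0 := by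
    rw [hwxdef]
    simp only [QuadraticMap.polar_sub_left, QuadraticMap.polar_smul_left, hff, hef,
      smul_eq_mul, mul_zero, mul_one, sub_self]
  have hx : x = wx + QuadraticMap.polar ⇑Q x f • e + QuadraticMap.polar ⇑Q x e • f := by
    rw [hwxdef]
    abel
  conv_lhs => rw [hx]
  rw [map_add, map_add, map_smul, map_smul, (key wx hwxe hwxf).1, hlam, hmu]
  conv_rhs => rw [hx]
  rw [smul_add, smul_add, smul_smul, smul_smul, smul_smul, smul_smul, mul_comm mu, mul_comm mu]

/-- A similarity inducing the trivial automorphism of `PΩ` is a scalar. -/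
theorem simAut_eq_one (Q : QuadraticForm F (ι → F))
    (hQ : (QuadraticMap.polarBilin Q).Nondegenerate) (hn : 5 ≤ Fintype.card ι) (hH : HP2 Q)
    (g : ↥(Cfsg.Geo.quadSimilarityGroup (F := F) ⇑Q)) (hg : simAut Q g = 1) :
    ∃ c : F, ((g : Matrix.GeneralLinearGroup ι F) : Matrix ι ι F) = c • 1 := by
  have h1 : omConj Q g = 1 := aut_eq_one_of_quot (omega_perfect_top Q hQ hn hH) _ hg
  obtain ⟨e₁, f₁, -, -, he₁, hf₁, hef₁, -⟩ := id hH
  obtain ⟨c, hc⟩ := comm_scalar Q hQ hn
    (Matrix.mulVecLin ((g : Matrix.GeneralLinearGroup ι F) : Matrix ι ι F)) (mu Q g : F)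
    (Units.ne_zero _) (fun u v => mu_polar Q g u v) (fun s hs x => by
      have h2 : omConj Q g ⟨s, hs⟩ = ⟨s, hs⟩ := by rw [h1]; rfl
      have h3 : (g : Matrix.GeneralLinearGroup ι F) * (s : Matrix.GeneralLinearGroup ι F)
          * (g : Matrix.GeneralLinearGroup ι F)⁻¹ = (s : Matrix.GeneralLinearGroup ι F) := by
        rw [← coe_omConj Q g ⟨s, hs⟩, h2]
      have h4 : (g : Matrix.GeneralLinearGroup ι F) * (s : Matrix.GeneralLinearGroup ι F)
          = (s : Matrix.GeneralLinearGroup ι F) * (g : Matrix.GeneralLinearGroup ι F) :=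
        mul_inv_eq_iff_eq_mul.1 h3
      have h5 := congrArg (fun M : Matrix.GeneralLinearGroup ι F =>
        (M : Matrix ι ι F).mulVec x) h4
      simp only [Units.val_mul, ← Matrix.mulVec_mulVec] at h5
      exact h5) e₁ f₁ he₁ hf₁ hef₁
  refine ⟨c, mat_ext fun x => ?_⟩
  rw [Matrix.smul_mulVec, Matrix.one_mulVec]
  exact hc x

omit [Fintype F] in
/-- Proportional similarities induce the same automorphism. -/
theorem simAut_congr (Q : QuadraticForm F (ι → F))
    (g h : ↥(Cfsg.Geo.quadSimilarityGroup (F := F) ⇑Q)) (a : F)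
    (hgh : ((g : Matrix.GeneralLinearGroup ι F) : Matrix ι ι F)
      = a • ((h : Matrix.GeneralLinearGroup ι F) : Matrix ι ι F)) :
    simAut Q g = simAut Q h := by
  have h1 : omConj Q g = omConj Q h := by
    apply MulEquiv.ext
    intro t
    apply Subtype.ext
    apply Subtype.ext
    rw [coe_omConj, coe_omConj, mul_inv_eq_iff_eq_mul]
    apply Units.ext
    simp only [Units.val_mul]
    rw [hgh, Matrix.smul_mul, Matrix.mul_smul]
    simp only [mul_assoc, Units.inv_mul, mul_one]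
  unfold simAut
  rw [MonoidHom.comp_apply, MonoidHom.comp_apply, h1]

/-! ### The two characters of the similarity group -/

theorem pow_half_cases (h2 : (2 : F) ≠ 0) (a : Fˣ) :
    a ^ (Fintype.card F / 2) = 1 ∨ a ^ (Fintype.card F / 2) = -1 := by
  rcases FiniteField.pow_dichotomy (ringChar_ne_two h2) a.ne_zero with h | h
  · left
    apply Units.ext
    rw [Units.val_pow_eq_pow_val, h, Units.val_one]
  · right
    apply Units.ext
    rw [Units.val_pow_eq_pow_val, h, Units.val_neg, Units.val_one]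

omit [Fintype F] in
theorem units_sq_cases (x : Fˣ) (hx : x * x = 1) : x = 1 ∨ x = -1 := by
  have h : ((x : F) - 1) * ((x : F) + 1) = 0 := by
    have h' := congrArg Units.val hx
    rw [Units.val_mul, Units.val_one] at h'
    linear_combination h'
  rcases mul_eq_zero.1 h with h | h
  · left
    apply Units.ext
    rw [Units.val_one]
    exact sub_eq_zero.1 h
  · right
    apply Units.ext
    rw [Units.val_neg, Units.val_one]
    exact eq_neg_of_add_eq_zero_left h

omit [Fintype F] in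
/-- `det² = μⁿ` for a similarity. -/
theorem det_sq (Q : QuadraticForm F (ι → F))
    (hQ : (QuadraticMap.polarBilin Q).Nondegenerate)
    (g : ↥(Cfsg.Geo.quadSimilarityGroup (F := F) ⇑Q)) :
    ((g : Matrix.GeneralLinearGroup ι F) : Matrix ι ι F).det
        * ((g : Matrix.GeneralLinearGroup ι F) : Matrix ι ι F).det
      = (mu Q g : F) ^ Fintype.card ι := by
  obtain ⟨M, hM⟩ : ∃ M : Matrix ι ι F, M = ((g : Matrix.GeneralLinearGroup ι F) : Matrix ι ι F) :=
    ⟨_, rfl⟩
  rw [← hM]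
  have hB : LinearMap.BilinForm.toMatrix' (LinearMap.BilinForm.comp (QuadraticMap.polarBilin Q)
      (Matrix.toLin' M) (Matrix.toLin' M)) = M.transpose * LinearMap.BilinForm.toMatrix' (QuadraticMap.polarBilin Q)
        * M := by
    rw [LinearMap.BilinForm.toMatrix'_comp, LinearMap.toMatrix'_toLin']
  have hB2 : LinearMap.BilinForm.comp (QuadraticMap.polarBilin Q) (Matrix.toLin' M)
      (Matrix.toLin' M) = (mu Q g : F) • QuadraticMap.polarBilin Q := by
    apply LinearMap.ext₂
    intro u v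
    rw [LinearMap.BilinForm.comp_apply, Matrix.toLin'_apply, Matrix.toLin'_apply,
      LinearMap.smul_apply, LinearMap.smul_apply, hM]
    exact mu_polar Q g u v
  rw [hB2, map_smul] at hB
  have hdet := congrArg Matrix.det hB
  rw [Matrix.det_smul, Matrix.det_mul, Matrix.det_mul, Matrix.det_transpose] at hdet
  have hB0 : (LinearMap.BilinForm.toMatrix' (QuadraticMap.polarBilin Q)).det ≠ 0 := by
    rw [← Matrix.nondegenerate_iff_det_ne_zero]
    exact LinearMap.BilinForm.Nondegenerate.toMatrix' hQ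
  apply mul_right_cancel₀ hB0
  linear_combination -hdet

/-- The character `μ ^ ((q - 1) / 2)`. -/
noncomputable def chiMu (Q : QuadraticForm F (ι → F)) (hne : ∃ v, Q v ≠ 0) :
    ↥(Cfsg.Geo.quadSimilarityGroup (F := F) ⇑Q) →* Fˣ :=
  MonoidHom.mk' (fun g => mu Q g ^ (Fintype.card F / 2)) (by
    intro a b
    rw [mu_mul Q hne, mul_pow])

theorem chiMu_apply (Q : QuadraticForm F (ι → F)) (hne : ∃ v, Q v ≠ 0)
    (g : ↥(Cfsg.Geo.quadSimilarityGroup (F := F) ⇑Q)) :
    chiMu Q hne g = mu Q g ^ (Fintype.card F / 2) := rfl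

/-- The character `det / μ ^ k`. -/
noncomputable def delta (Q : QuadraticForm F (ι → F)) (hne : ∃ v, Q v ≠ 0) (k : ℕ) :
    ↥(Cfsg.Geo.quadSimilarityGroup (F := F) ⇑Q) →* Fˣ :=
  MonoidHom.mk' (fun g => Matrix.GeneralLinearGroup.det (g : Matrix.GeneralLinearGroup ι F)
      * (mu Q g)⁻¹ ^ k) (by
    intro a b
    rw [Subgroup.coe_mul, map_mul, mu_mul Q hne, mul_inv, mul_pow]
    exact mul_mul_mul_comm _ _ _ _)

omit [Fintype F] in
theorem delta_apply (Q : QuadraticForm F (ι → F)) (hne : ∃ v, Q v ≠ 0) (k : ℕ)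
    (g : ↥(Cfsg.Geo.quadSimilarityGroup (F := F) ⇑Q)) :
    delta Q hne k g = Matrix.GeneralLinearGroup.det (g : Matrix.GeneralLinearGroup ι F)
      * (mu Q g)⁻¹ ^ k := rfl

omit [Fintype F] in
theorem delta_cases (Q : QuadraticForm F (ι → F))
    (hQ : (QuadraticMap.polarBilin Q).Nondegenerate) (hne : ∃ v, Q v ≠ 0) (k : ℕ)
    (hk : Fintype.card ι = k + k) (g : ↥(Cfsg.Geo.quadSimilarityGroup (F := F) ⇑Q)) :
    delta Q hne k g = 1 ∨ delta Q hne k g = -1 := by
  apply units_sq_cases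
  rw [delta_apply]
  have hD : Matrix.GeneralLinearGroup.det (g : Matrix.GeneralLinearGroup ι F)
      * Matrix.GeneralLinearGroup.det (g : Matrix.GeneralLinearGroup ι F)
      = mu Q g ^ (k + k) := by
    apply Units.ext
    rw [Units.val_mul, Matrix.GeneralLinearGroup.val_det_apply, Units.val_pow_eq_pow_val, ← hk]
    exact det_sq Q hQ g
  rw [mul_mul_mul_comm, hD, ← pow_add, ← mul_pow, mul_inv_cancel, one_pow]

/-- Similarities with a prescribed multiplier exist in even dimension. -/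
theorem exists_sim (Q : QuadraticForm F (ι → F))
    (hQ : (QuadraticMap.polarBilin Q).Nondegenerate) (hn : 2 ≤ Fintype.card ι)
    (heven : Even (Fintype.card ι)) (c : F) (hc : c ≠ 0) :
    ∃ g : ↥(Cfsg.Geo.quadSimilarityGroup (F := F) ⇑Q),
      ∀ v, Q (((g : Matrix.GeneralLinearGroup ι F) : Matrix ι ι F).mulVec v) = c * Q v := by
  classical
  obtain ⟨L⟩ : Nonempty ((Fin (Fintype.card ι) → F) ≃ₗ[F] (ι → F)) :=
    ⟨LinearEquiv.funCongrLeft F F (Fintype.equivFin ι)⟩
  have hQ' : (QuadraticMap.polarBilin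
      (Q.comp (L : (Fin (Fintype.card ι) → F) →ₗ[F] (ι → F)))).Nondegenerate := by
    apply Cfsg.Agent.Lib.Helper15.StdForms.nondeg_of_sep
    intro x hx
    have h1 : L x = 0 := hQ.1 (L x) (fun y => by
      have h := hx (L.symm y)
      rw [Cfsg.Agent.Lib.Helper15.StdEquiv.polar_comp_equiv, LinearEquiv.apply_symm_apply] at h
      exact h)
    exact L.map_eq_zero_iff.1 h1
  obtain ⟨g', hg'⟩ := Cfsg.Agent.S2624.result hn heven
    (Q.comp (L : (Fin (Fintype.card ι) → F) →ₗ[F] (ι → F))) hQ' c hc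
  obtain ⟨T, hTdef⟩ : ∃ T : (ι → F) ≃ₗ[F] (ι → F), T = (L.symm.trans g').trans L := ⟨_, rfl⟩
  have hT : ∀ v, Q (T v) = c * Q v := by
    intro v
    have h := hg' (L.symm v)
    rw [QuadraticMap.comp_apply, QuadraticMap.comp_apply] at h
    simp only [LinearEquiv.coe_coe, LinearEquiv.apply_symm_apply] at h
    rw [hTdef]
    exact h
  have hT1 : LinearMap.toMatrix' (T : (ι → F) →ₗ[F] (ι → F))
      * LinearMap.toMatrix' (T.symm : (ι → F) →ₗ[F] (ι → F)) = 1 := by
    rw [← LinearMap.toMatrix'_comp, LinearEquiv.comp_coe, LinearEquiv.symm_trans_self,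
      LinearEquiv.refl_toLinearMap, LinearMap.toMatrix'_id]
  have hT2 : LinearMap.toMatrix' (T.symm : (ι → F) →ₗ[F] (ι → F))
      * LinearMap.toMatrix' (T : (ι → F) →ₗ[F] (ι → F)) = 1 := by
    rw [← LinearMap.toMatrix'_comp, LinearEquiv.comp_coe, LinearEquiv.self_trans_symm,
      LinearEquiv.refl_toLinearMap, LinearMap.toMatrix'_id]
  have hT3 : ∀ v, Q ((LinearMap.toMatrix' (T : (ι → F) →ₗ[F] (ι → F))).mulVec v) = c * Q v := by
    intro v
    rw [LinearMap.toMatrix'_mulVec]
    exact hT v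
  exact ⟨⟨⟨LinearMap.toMatrix' (T : (ι → F) →ₗ[F] (ι → F)),
    LinearMap.toMatrix' (T.symm : (ι → F) →ₗ[F] (ι → F)), hT1, hT2⟩,
    ⟨Units.mk0 c hc, hT3⟩⟩, hT3⟩

/-- The character pair `(chiMu, delta)` and its kernel. -/
theorem exists_psi (h2 : (2 : F) ≠ 0) (Q : QuadraticForm F (ι → F))
    (hQ : (QuadraticMap.polarBilin Q).Nondegenerate) (hn : 5 ≤ Fintype.card ι) (hH : HP2 Q)
    (heven : Even (Fintype.card ι)) :
    ∃ ψ : ↥(Cfsg.Geo.quadSimilarityGroup (F := F) ⇑Q) →* Multiplicative (ZMod 2 × ZMod 2),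
      Function.Surjective ψ ∧ ∀ g, ψ g = 1 ↔
        ∃ s ∈ (Cfsg.specialIsometryGroup F ⇑Q).map (incl Q), simAut Q g = simAut Q s := by
  obtain ⟨k, hk⟩ := heven
  obtain ⟨w, -, hw⟩ := exists_nonsing_perp Q hQ ⊥ (by rw [finrank_bot]; omega)
  have hne : ∃ v, Q v ≠ 0 := ⟨w, hw⟩
  have hneg : (-1 : Fˣ) ≠ 1 := by
    intro h
    have h' := congrArg Units.val h
    rw [Units.val_neg, Units.val_one] at h'
    apply h2
    linear_combination -h'
  have hb1 : chiMu Q hne (incl Q (reflO Q w)) = 1 := by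
    rw [chiMu_apply, mu_incl Q hne, one_pow]
  have hb2 : delta Q hne k (incl Q (reflO Q w)) = -1 := by
    rw [delta_apply, mu_incl Q hne, inv_one, one_pow, mul_one, coe_incl]
    apply Units.ext
    rw [Matrix.GeneralLinearGroup.val_det_apply, coe_reflO Q w hw,
      Cfsg.Agent.Lib.Helper15.CartanD.refl_det Q w hw,
      Units.val_neg, Units.val_one]
  obtain ⟨ν, hν⟩ := FiniteField.exists_nonsquare (F := F) (ringChar_ne_two h2)
  have hν0 : ν ≠ 0 := by
    rintro rfl
    exact hν ⟨0, by simp⟩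
  obtain ⟨d, hd⟩ := exists_sim Q hQ (by omega) ⟨k, hk⟩ ν hν0
  have hdmu : (mu Q d : F) = ν := mu_unique Q hne d ν hd
  have hd1 : chiMu Q hne d = -1 := by
    rcases pow_half_cases h2 (mu Q d) with h | h
    · exfalso
      obtain ⟨r, hr⟩ := (FiniteField.unit_isSquare_iff (ringChar_ne_two h2) (mu Q d)).2 h
      apply hν
      refine ⟨(r : F), ?_⟩
      rw [← hdmu, hr, Units.val_mul]
    · exact h
  obtain ⟨a, ha1, ha2⟩ : ∃ a, chiMu Q hne a = -1 ∧ delta Q hne k a = 1 := by
    rcases delta_cases Q hQ hne k hk d with h | h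
    · exact ⟨d, hd1, h⟩
    · refine ⟨d * incl Q (reflO Q w), ?_, ?_⟩
      · rw [map_mul, hd1, hb1, mul_one]
      · rw [map_mul, h, hb2, neg_mul_neg, one_mul]
  obtain ⟨ψ, hψs, hψ⟩ := exists_sign_hom (-1 : Fˣ) hneg (by rw [neg_mul_neg, one_mul])
    (chiMu Q hne) (delta Q hne k) (fun g => pow_half_cases h2 (mu Q g))
    (delta_cases Q hQ hne k hk) a (incl Q (reflO Q w)) ⟨ha1, ha2⟩ ⟨hb1, hb2⟩
  refine ⟨ψ, hψs, fun g => ?_⟩
  rw [hψ]
  constructor
  · rintro ⟨h1, h2'⟩
    rw [chiMu_apply] at h1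
    obtain ⟨c, hc⟩ := (FiniteField.unit_isSquare_iff (ringChar_ne_two h2) (mu Q g)).2 h1
    obtain ⟨cF, hcF⟩ : ∃ cF : F, cF = (c : F) := ⟨_, rfl⟩
    have hc0 : cF ≠ 0 := by rw [hcF]; exact Units.ne_zero c
    have hmuF : (mu Q g : F) = cF * cF := by rw [hc, Units.val_mul, hcF]
    obtain ⟨M, hM⟩ : ∃ M : Matrix ι ι F,
      M = ((g : Matrix.GeneralLinearGroup ι F) : Matrix ι ι F) := ⟨_, rfl⟩
    obtain ⟨N, hN⟩ : ∃ N : Matrix ι ι F,
      N = (((g : Matrix.GeneralLinearGroup ι F)⁻¹ : Matrix.GeneralLinearGroup ι F) :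
        Matrix ι ι F) := ⟨_, rfl⟩
    have hMN : M * N = 1 := by rw [hM, hN, Units.mul_inv]
    have hNM : N * M = 1 := by rw [hM, hN, Units.inv_mul]
    have hM1 : (cF⁻¹ • M) * (cF • N) = 1 := by
      rw [Matrix.smul_mul, Matrix.mul_smul, smul_smul, inv_mul_cancel₀ hc0, one_smul, hMN]
    have hM2 : (cF • N) * (cF⁻¹ • M) = 1 := by
      rw [Matrix.smul_mul, Matrix.mul_smul, smul_smul, mul_inv_cancel₀ hc0, one_smul, hNM]
    have hMQ : ∀ x, Q ((cF⁻¹ • M).mulVec x) = Q x := by
      intro x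
      rw [Matrix.smul_mulVec, QuadraticMap.map_smul, hM, mu_spec, hmuF, smul_eq_mul]
      field_simp
    obtain ⟨s, hs⟩ := exists_iso Q (cF⁻¹ • M) (cF • N) hM1 hM2 hMQ
    have hdet : M.det = (cF * cF) ^ k := by
      have h3 := congrArg Units.val h2'
      rw [delta_apply, Units.val_mul, Matrix.GeneralLinearGroup.val_det_apply,
        Units.val_pow_eq_pow_val, Units.val_inv_eq_inv_val, hmuF, Units.val_one, inv_pow,
        ← hM] at h3
      exact (mul_inv_eq_one₀ (pow_ne_zero k (mul_ne_zero hc0 hc0))).1 h3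
    have hsSO : s ∈ Cfsg.specialIsometryGroup F ⇑Q := by
      rw [Cfsg.Agent.Lib.Helper15.CartanD.mem_special, hs, Matrix.det_smul, hk, hdet, pow_add,
        ← mul_pow, ← mul_pow]
      have h4 : cF⁻¹ * cF⁻¹ * (cF * cF) = 1 := by field_simp
      rw [h4, one_pow]
    refine ⟨incl Q s, ⟨s, hsSO, rfl⟩, ?_⟩
    apply simAut_congr Q g (incl Q s) cF
    rw [coe_incl, hs, smul_smul, mul_inv_cancel₀ hc0, one_smul, hM]
  · rintro ⟨s', ⟨s, hs, rfl⟩, hgs⟩
    have hker : simAut Q (g * (incl Q s)⁻¹) = 1 := by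
      rw [map_mul, map_inv, hgs, mul_inv_cancel]
    obtain ⟨c, hc⟩ := simAut_eq_one Q hQ hn hH _ hker
    have hgM : ((g : Matrix.GeneralLinearGroup ι F) : Matrix ι ι F)
        = c • ((s : Matrix.GeneralLinearGroup ι F) : Matrix ι ι F) := by
      have h3 : ((g * (incl Q s)⁻¹ : ↥(Cfsg.Geo.quadSimilarityGroup (F := F) ⇑Q)) :
          Matrix.GeneralLinearGroup ι F) * (s : Matrix.GeneralLinearGroup ι F)
          = (g : Matrix.GeneralLinearGroup ι F) := by
        rw [Subgroup.coe_mul, Subgroup.coe_inv, coe_incl, inv_mul_cancel_right]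
      have h4 := congrArg (fun X : Matrix.GeneralLinearGroup ι F => (X : Matrix ι ι F)) h3
      simp only [Units.val_mul] at h4
      rw [← h4, hc, Matrix.smul_mul, one_mul]
    have hc0 : c ≠ 0 := by
      rintro rfl
      have h5 := mu_spec Q g w
      rw [hgM, zero_smul, Matrix.zero_mulVec, map_zero] at h5
      exact mul_ne_zero (Units.ne_zero _) hw h5.symm
    have hmu : (mu Q g : F) = c * c := mu_unique Q hne g (c * c) (fun v => by
      rw [hgM, Matrix.smul_mulVec, QuadraticMap.map_smul, iso_apply, smul_eq_mul])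
    constructor
    · rw [chiMu_apply]
      apply (FiniteField.unit_isSquare_iff (ringChar_ne_two h2) (mu Q g)).1
      exact ⟨Units.mk0 c hc0, Units.ext (by rw [Units.val_mul]; exact hmu)⟩
    · rw [delta_apply]
      apply Units.ext
      have h6 : c ^ (k + k) = (c * c) ^ k := by rw [pow_add, mul_pow]
      rw [Units.val_mul, Matrix.GeneralLinearGroup.val_det_apply, Units.val_pow_eq_pow_val,
        Units.val_inv_eq_inv_val, hmu, Units.val_one, hgM, Matrix.det_smul,
        (Cfsg.Agent.Lib.Helper15.CartanD.mem_special Q s).1 (SetLike.mem_coe.1 hs), mul_one, hk, h6,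
        ← mul_pow,
        mul_inv_cancel₀ (mul_ne_zero hc0 hc0), one_pow]

/-- **The image of the conformal orthogonal group modulo the image of the special orthogonal
group is a four-group** (odd characteristic, even dimension). -/
theorem pgo_mod_pso (h2 : (2 : F) ≠ 0) (Q : QuadraticForm F (ι → F))
    (hQ : (QuadraticMap.polarBilin Q).Nondegenerate) (hn : 5 ≤ Fintype.card ι) (hH : HP2 Q)
    (heven : Even (Fintype.card ι)) :
    ∃ φ : ↥(Cfsg.pgoAut F ⇑Q) →* Multiplicative (ZMod 2 × ZMod 2), Function.Surjective φ ∧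
      φ.ker = (Cfsg.psoAut F ⇑Q).subgroupOf (Cfsg.pgoAut F ⇑Q) := by
  rw [pgoAut_eq, psoAut_eq']
  obtain ⟨ψ, hψs, hψ⟩ := exists_psi h2 Q hQ hn hH heven
  exact exists_factor (simAut Q) ψ hψs _ hψ

end Cfsg.Agent.Lib.Helper15.SimAut
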