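import Mathlib
import Cfsg.Agent.Lib.Helper15.SimAut
import Cfsg.Agent.Lib.Helper15.Dih8

/-!
# The image of the conformal orthogonal group modulo the inner automorphisms

In odd characteristic and even dimension, `pgoAut / Inn` is a four-group when `-1 ∉ Ω` and is
dihedral of order eight when `-1 ∈ Ω`.
-/

set_option autoImplicit false

namespace Cfsg.Agent.Lib.Helper15.SimAut2

open Module Cfsg.Agent.Lib.Helper15.Spinor Cfsg.Agent.Lib.Helper15.CD2
  Cfsg.Agent.Lib.Helper15.Parity Cfsg.Agent.Lib.Helper15.Witt Cfsg.Agent.Lib.Helper15.WittInf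
  Cfsg.Agent.Lib.Helper15.OrthGen Cfsg.Agent.Lib.Helper15.HypPair
  Cfsg.Agent.Lib.Helper15.CenterOmega Cfsg.Agent.Lib.Helper15.Eichler
  Cfsg.Agent.Lib.Helper15.EichGen Cfsg.Agent.Lib.Helper15.SingPts
  Cfsg.Agent.Lib.Helper15.OmegaSimple Cfsg.Agent.Lib.Helper15.AutOmega
  Cfsg.Agent.Lib.Helper15.SimAut

/-- The inner automorphisms form a normal subgroup. -/
theorem inn_normal (G : Type*) [Group G] : (Cfsg.Inn G).Normal := by
  constructor
  rintro _ ⟨g, rfl⟩ α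
  refine ⟨α g, ?_⟩
  apply MulEquiv.ext
  intro x
  simp [MulAut.conj_apply]

variable {F : Type*} [Field F] [Fintype F] {ι : Type} [Fintype ι] [DecidableEq ι]

/-- An isometry inducing an inner automorphism lies in `Ω` when `-1 ∈ Ω`. -/
theorem mem_omega_of_inn (Q : QuadraticForm F (ι → F))
    (hQ : (QuadraticMap.polarBilin Q).Nondegenerate) (hn : 5 ≤ Fintype.card ι) (hH : HP2 Q)
    (hneg : ∃ g : ↥(Cfsg.isometryGroup F ⇑Q), g ∈ Cfsg.Omega F ⇑Q ∧
      ((g : Matrix.GeneralLinearGroup ι F) : Matrix ι ι F) = -1)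
    (s : ↥(Cfsg.isometryGroup F ⇑Q)) (hs : conjAut Q s ∈ Cfsg.Inn (Cfsg.POmega F ⇑Q)) :
    s ∈ commutator ↥(Cfsg.isometryGroup F ⇑Q) := by
  rw [inn_eq] at hs
  obtain ⟨ω, hω, hωs⟩ := hs
  have hω' : ω ∈ commutator ↥(Cfsg.isometryGroup F ⇑Q) := hω
  have hker : conjAut Q (s * ω⁻¹) = 1 := by rw [map_mul, map_inv, hωs, mul_inv_cancel]
  obtain ⟨z, hz, hzmat⟩ := hneg
  rcases conjAut_eq_one Q hQ hn hH _ hker with h | h
  · have h1 : s * ω⁻¹ = 1 := act_ext Q (fun x => by rw [h, act_one])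
    have h2 : s = ω := mul_inv_eq_one.1 h1
    rw [h2]
    exact hω'
  · have h1 : s * ω⁻¹ = z := act_ext Q (fun x => by
      rw [h, act_apply Q z, hzmat, Matrix.neg_mulVec, Matrix.one_mulVec])
    have h2 : s = z * ω := by rw [← h1, inv_mul_cancel_right]
    rw [h2]
    exact Subgroup.mul_mem _ hz hω'

omit [Fintype F] in
/-- Conjugating a reflection by a similarity. -/
theorem simConj_reflO (Q : QuadraticForm F (ι → F))
    (d : ↥(Cfsg.Geo.quadSimilarityGroup (F := F) ⇑Q)) (v : ι → F) (hv : Q v ≠ 0) :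
    simConj Q d (reflO Q v)
      = reflO Q (((d : Matrix.GeneralLinearGroup ι F) : Matrix ι ι F).mulVec v) := by
  have hμ : (mu Q d : F) ≠ 0 := Units.ne_zero _
  have hdv : Q (((d : Matrix.GeneralLinearGroup ι F) : Matrix ι ι F).mulVec v) ≠ 0 := by
    rw [mu_spec]
    exact mul_ne_zero hμ hv
  apply iso_ext
  rw [coe_simConj, Units.val_mul, Units.val_mul, coe_reflO Q v hv, coe_reflO Q _ hdv]
  have key : ((d : Matrix.GeneralLinearGroup ι F) : Matrix ι ι F) * Cfsg.reflectionMatrix ⇑Q v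
      = Cfsg.reflectionMatrix ⇑Q (((d : Matrix.GeneralLinearGroup ι F) : Matrix ι ι F).mulVec v)
        * ((d : Matrix.GeneralLinearGroup ι F) : Matrix ι ι F) := by
    apply mat_ext
    intro x
    rw [← Matrix.mulVec_mulVec, ← Matrix.mulVec_mulVec, refl_mulVec, refl_mulVec,
      Matrix.mulVec_sub, Matrix.mulVec_smul, mu_spec, mu_polar]
    congr 2
    field_simp
  rw [key, mul_assoc, Units.mul_inv, mul_one]

theorem inn_le_pso (Q : QuadraticForm F (ι → F)) :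
    Cfsg.Inn (Cfsg.POmega F ⇑Q) ≤ Cfsg.psoAut F ⇑Q := by
  rw [inn_eq, psoAut_eq]
  apply Subgroup.map_mono
  unfold Cfsg.specialIsometryGroup
  exact Abelianization.commutator_subset_ker _

theorem pso_le_pgo (Q : QuadraticForm F (ι → F)) :
    Cfsg.psoAut F ⇑Q ≤ Cfsg.pgoAut F ⇑Q := by
  rw [psoAut_eq', pgoAut_eq]
  exact Subgroup.map_le_range _ _

/-- **`pgoAut / Inn` is a four-group when `-1 ∉ Ω`.** -/
theorem pgo_mod_inn_out (h2 : (2 : F) ≠ 0) (Q : QuadraticForm F (ι → F))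
    (hQ : (QuadraticMap.polarBilin Q).Nondegenerate) (hn : 5 ≤ Fintype.card ι) (hH : HP2 Q)
    (heven : Even (Fintype.card ι))
    (hneg : ¬ ∃ g : ↥(Cfsg.isometryGroup F ⇑Q), g ∈ Cfsg.Omega F ⇑Q ∧
      ((g : Matrix.GeneralLinearGroup ι F) : Matrix ι ι F) = -1) :
    ∃ φ : ↥(Cfsg.pgoAut F ⇑Q) →* Multiplicative (ZMod 2 × ZMod 2), Function.Surjective φ ∧
      φ.ker = (Cfsg.Inn (Cfsg.POmega F ⇑Q)).subgroupOf (Cfsg.pgoAut F ⇑Q) := by
  have h1 := (relIndex_cases h2 Q hQ hn hH heven).2 hneg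
  have hle : Cfsg.psoAut F ⇑Q ≤ Cfsg.Inn (Cfsg.POmega F ⇑Q) := Subgroup.relIndex_eq_one.1 h1
  rw [← le_antisymm hle (inn_le_pso Q)]
  exact pgo_mod_pso h2 Q hQ hn hH heven

set_option maxHeartbeats 1600000 in
/-- **`pgoAut / Inn` is dihedral of order eight when `-1 ∈ Ω`.** -/
theorem pgo_mod_inn_in (h2 : (2 : F) ≠ 0) (Q : QuadraticForm F (ι → F))
    (hQ : (QuadraticMap.polarBilin Q).Nondegenerate) (hn : 5 ≤ Fintype.card ι) (hH : HP2 Q)
    (heven : Even (Fintype.card ι))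
    (hneg : ∃ g : ↥(Cfsg.isometryGroup F ⇑Q), g ∈ Cfsg.Omega F ⇑Q ∧
      ((g : Matrix.GeneralLinearGroup ι F) : Matrix ι ι F) = -1) :
    ∃ φ : ↥(Cfsg.pgoAut F ⇑Q) →* DihedralGroup 4, Function.Surjective φ ∧
      φ.ker = (Cfsg.Inn (Cfsg.POmega F ⇑Q)).subgroupOf (Cfsg.pgoAut F ⇑Q) := by
  have hInn := inn_normal (Cfsg.POmega F ⇑Q)
  have hidx : ((Cfsg.Inn (Cfsg.POmega F ⇑Q)).subgroupOf (Cfsg.pgoAut F ⇑Q)).index = 8 := by
    obtain ⟨φ₀, hφ₀s, hφ₀k⟩ := pgo_mod_pso h2 Q hQ hn hH heven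
    have h4 : (Cfsg.psoAut F ⇑Q).relIndex (Cfsg.pgoAut F ⇑Q) = 4 := by
      change ((Cfsg.psoAut F ⇑Q).subgroupOf (Cfsg.pgoAut F ⇑Q)).index = 4
      rw [← hφ₀k, Subgroup.index_ker, MonoidHom.range_eq_top.2 hφ₀s, Subgroup.card_top,
        Nat.card_eq_fintype_card]
      rfl
    have h2' := (relIndex_cases h2 Q hQ hn hH heven).1 hneg
    have h8 := Subgroup.relIndex_mul_relIndex (Cfsg.Inn (Cfsg.POmega F ⇑Q)) (Cfsg.psoAut F ⇑Q)
      (Cfsg.pgoAut F ⇑Q) (inn_le_pso Q) (pso_le_pgo Q)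
    rw [h2', h4] at h8
    exact h8.symm
  obtain ⟨w, -, hw⟩ := exists_nonsing_perp Q hQ ⊥ (by rw [finrank_bot]; omega)
  have hne : ∃ v, Q v ≠ 0 := ⟨w, hw⟩
  obtain ⟨ν, hν⟩ := FiniteField.exists_nonsquare (F := F) (ringChar_ne_two h2)
  have hν0 : ν ≠ 0 := by
    rintro rfl
    exact hν ⟨0, by simp⟩
  obtain ⟨d, hd⟩ := exists_sim Q hQ (by omega) heven ν hν0
  obtain ⟨w', hw'def⟩ : ∃ w' : ι → F,
    w' = ((d : Matrix.GeneralLinearGroup ι F) : Matrix ι ι F).mulVec w := ⟨_, rfl⟩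
  have hw'Q : Q w' = ν * Q w := by rw [hw'def]; exact hd w
  have hw'0 : Q w' ≠ 0 := by rw [hw'Q]; exact mul_ne_zero hν0 hw
  have hr1 : ∀ v, Q v ≠ 0 → reflO Q v ∉ commutator ↥(Cfsg.isometryGroup F ⇑Q) := by
    intro v hv h
    have h3 := (prodRefl_mem_omega_iff h2 Q [v] (by
      intro y hy
      rw [List.mem_singleton] at hy
      rw [hy]
      exact hv)).1 (by rw [prodRefl_cons, prodRefl_nil, mul_one]; exact h)
    have h4 := h3.1
    rw [List.length_singleton] at h4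
    exact absurd h4 (by decide)
  have hr2 : reflO Q w * reflO Q w' ∉ commutator ↥(Cfsg.isometryGroup F ⇑Q) := by
    intro h
    have h3 := (prodRefl_mem_omega_iff h2 Q [w, w'] (by
      intro y hy
      rw [List.mem_cons, List.mem_singleton] at hy
      rcases hy with rfl | rfl
      · exact hw
      · exact hw'0)).1 (by rw [prodRefl_cons, prodRefl_cons, prodRefl_nil, mul_one]; exact h)
    apply hν
    have h4 : IsSquare (Q w ^ 2 * ν) := by
      have h5 := h3.2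
      simp only [List.map_cons, List.map_nil, List.prod_cons, List.prod_nil, mul_one] at h5
      rw [hw'Q] at h5
      have h6 : Q w ^ 2 * ν = Q w * (ν * Q w) := by ring
      rw [h6]
      exact h5
    exact (Cfsg.Agent.Lib.Helper15.Gram.isSquare_sq_mul (Q w) ν hw).1 h4
  rw [pgoAut_eq] at hidx ⊢
  have hIn : ((Cfsg.Inn (Cfsg.POmega F ⇑Q)).subgroupOf (simAut Q).range).Normal :=
    Subgroup.normal_subgroupOf
  have hcard : Nat.card (↥(simAut Q).range ⧸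
      (Cfsg.Inn (Cfsg.POmega F ⇑Q)).subgroupOf (simAut Q).range) = 8 := by
    rw [← Subgroup.index_eq_card]
    exact hidx
  -- membership of images of isometries
  have hmem : ∀ (s : ↥(Cfsg.isometryGroup F ⇑Q)) (hs : simAut Q (incl Q s) ∈ (simAut Q).range),
      (QuotientGroup.mk (⟨simAut Q (incl Q s), hs⟩ : ↥(simAut Q).range) :
        ↥(simAut Q).range ⧸ (Cfsg.Inn (Cfsg.POmega F ⇑Q)).subgroupOf (simAut Q).range) = 1 →
      s ∈ commutator ↥(Cfsg.isometryGroup F ⇑Q) := by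
    intro s hs h
    rw [QuotientGroup.eq_one_iff, Subgroup.mem_subgroupOf] at h
    change simAut Q (incl Q s) ∈ Cfsg.Inn (Cfsg.POmega F ⇑Q) at h
    rw [simAut_incl] at h
    exact mem_omega_of_inn Q hQ hn hH hneg s h
  obtain ⟨ρ, hρ⟩ : ∃ ρ : ↥(simAut Q).range, (ρ : MulAut (Cfsg.POmega F ⇑Q))
    = simAut Q (incl Q (reflO Q w)) := ⟨⟨_, ⟨_, rfl⟩⟩, rfl⟩
  obtain ⟨ρ', hρ'⟩ : ∃ ρ' : ↥(simAut Q).range, (ρ' : MulAut (Cfsg.POmega F ⇑Q))
    = simAut Q (incl Q (reflO Q w')) := ⟨⟨_, ⟨_, rfl⟩⟩, rfl⟩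
  obtain ⟨Δ, hΔ⟩ : ∃ Δ : ↥(simAut Q).range, (Δ : MulAut (Cfsg.POmega F ⇑Q))
    = simAut Q d := ⟨⟨_, ⟨_, rfl⟩⟩, rfl⟩
  have hΔρ : Δ * ρ * Δ⁻¹ = ρ' := by
    apply Subtype.ext
    rw [Subgroup.coe_mul, Subgroup.coe_mul, Subgroup.coe_inv, hΔ, hρ, hρ', ← map_inv, ← map_mul,
      ← map_mul]
    congr 1
    apply Subtype.ext
    rw [Subgroup.coe_mul, Subgroup.coe_mul, Subgroup.coe_inv, coe_incl, coe_incl, ← coe_simConj,
      simConj_reflO Q d w hw, hw'def]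
  have hρρ : ρ * ρ = 1 := by
    apply Subtype.ext
    rw [Subgroup.coe_mul, hρ, ← map_mul, ← map_mul, reflO_mul_self, map_one, map_one]
    rfl
  have hρρ' : ρ' * ρ' = 1 := by
    apply Subtype.ext
    rw [Subgroup.coe_mul, hρ', ← map_mul, ← map_mul, reflO_mul_self, map_one, map_one]
    rfl
  have hu1 : (QuotientGroup.mk ρ : ↥(simAut Q).range ⧸
      (Cfsg.Inn (Cfsg.POmega F ⇑Q)).subgroupOf (simAut Q).range) ≠ 1 := by
    intro h
    have h3 : ρ = ⟨simAut Q (incl Q (reflO Q w)), ⟨_, rfl⟩⟩ := Subtype.ext hρ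
    rw [h3] at h
    exact hr1 w hw (hmem _ _ h)
  have hw1 : (QuotientGroup.mk ρ' : ↥(simAut Q).range ⧸
      (Cfsg.Inn (Cfsg.POmega F ⇑Q)).subgroupOf (simAut Q).range) ≠ 1 := by
    intro h
    have h3 : ρ' = ⟨simAut Q (incl Q (reflO Q w')), ⟨_, rfl⟩⟩ := Subtype.ext hρ'
    rw [h3] at h
    exact hr1 w' hw'0 (hmem _ _ h)
  have huw : (QuotientGroup.mk ρ : ↥(simAut Q).range ⧸
      (Cfsg.Inn (Cfsg.POmega F ⇑Q)).subgroupOf (simAut Q).range) ≠ QuotientGroup.mk ρ' := by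
    intro h
    have h3 : (QuotientGroup.mk (ρ * ρ') : ↥(simAut Q).range ⧸
        (Cfsg.Inn (Cfsg.POmega F ⇑Q)).subgroupOf (simAut Q).range) = 1 := by
      rw [QuotientGroup.mk_mul, ← h, ← QuotientGroup.mk_mul, hρρ]
      rfl
    have h4 : ρ * ρ' = ⟨simAut Q (incl Q (reflO Q w * reflO Q w')), ⟨_, rfl⟩⟩ := by
      apply Subtype.ext
      rw [Subgroup.coe_mul, hρ, hρ']
      have h5 : simAut Q (incl Q (reflO Q w * reflO Q w'))
          = simAut Q (incl Q (reflO Q w)) * simAut Q (incl Q (reflO Q w')) := by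
        rw [map_mul, map_mul]
      exact h5.symm
    rw [h4] at h3
    exact hr2 (hmem _ _ h3)
  obtain ⟨e⟩ := Cfsg.Agent.Lib.Helper15.Dih8.dihedral_of_eight hcard
    (QuotientGroup.mk ρ) (QuotientGroup.mk ρ') (QuotientGroup.mk Δ) (QuotientGroup.mk ρ)
    (by rw [← QuotientGroup.mk_mul, hρρ]; rfl) (by rw [← QuotientGroup.mk_mul, hρρ']; rfl)
    hu1 hw1 huw (by
      intro h
      apply huw
      rw [← hΔρ, QuotientGroup.mk_mul, QuotientGroup.mk_mul, h, QuotientGroup.mk_inv,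
        mul_inv_cancel_right])
  refine ⟨e.toMonoidHom.comp
    (QuotientGroup.mk' ((Cfsg.Inn (Cfsg.POmega F ⇑Q)).subgroupOf (simAut Q).range)), ?_, ?_⟩
  · exact e.surjective.comp (QuotientGroup.mk'_surjective _)
  · ext x
    rw [MonoidHom.mem_ker, MonoidHom.comp_apply, MulEquiv.coe_toMonoidHom,
      MulEquiv.map_eq_one_iff, QuotientGroup.mk'_apply, QuotientGroup.eq_one_iff]

end Cfsg.Agent.Lib.Helper15.SimAut2
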