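import Mathlib
import Cfsg.Agent.Lib.Helper15.SimAut2
import Cfsg.Agent.S0831
import Cfsg.Agent.S2629
import Cfsg.Agent.S2611

/-!
# Similarities preserving the two classes of maximal totally singular subspaces

For the hyperbolic form `Σ xᵢ yᵢ` over a finite field of odd order, a similarity `g` with
multiplier `μ` preserves each of the two classes of maximal totally singular subspaces if and only
if `det g = μ ^ m`.
-/

set_option autoImplicit false

namespace Cfsg.Agent.Lib.Helper15.PSC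

open Module Cfsg.Agent.Lib.Helper15.Spinor Cfsg.Agent.Lib.Helper15.CD2
  Cfsg.Agent.Lib.Helper15.Parity Cfsg.Agent.Lib.Helper15.Witt Cfsg.Agent.Lib.Helper15.WittInf
  Cfsg.Agent.Lib.Helper15.StdForms Cfsg.Agent.Lib.Helper15.SimAut

/-- Subspaces of every smaller dimension exist. -/
theorem exists_sub_finrank {F V : Type*} [Field F] [AddCommGroup V] [Module F V]
    (W : Submodule F V) [FiniteDimensional F W] (k : ℕ) (hk : k ≤ finrank F W) :
    ∃ W' : Submodule F V, W' ≤ W ∧ finrank F W' = k := by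
  classical
  obtain ⟨b⟩ : Nonempty (Basis (Fin (finrank F W)) F W) := ⟨Module.finBasis F W⟩
  have hli : LinearIndependent F (fun i : Fin k => ((b (Fin.castLE hk i) : W) : V)) := by
    have h1 := b.linearIndependent.comp (Fin.castLE hk) (Fin.castLE_injective hk)
    exact h1.map' W.subtype (Submodule.ker_subtype W)
  refine ⟨Submodule.span F (Set.range (fun i : Fin k => ((b (Fin.castLE hk i) : W) : V))), ?_, ?_⟩
  · rw [Submodule.span_le]
    rintro _ ⟨i, rfl⟩
    exact (b _).2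
  · rw [finrank_span_eq_card hli, Fintype.card_fin]

variable {F : Type*} [Field F] [Fintype F] {m : ℕ}

omit [Fintype F] in
/-- The maximal totally singular subspaces of the hyperbolic form are the totally singular
subspaces of dimension `m`. -/
theorem max_ts_iff (U : Submodule F (Fin m ⊕ Fin m → F)) :
    Cfsg.IsMaxTotallySingular (Cfsg.quadFormPlus m F) U
      ↔ ((∀ w ∈ U, plusQF m F w = 0) ∧ finrank F U = m) := by
  classical
  have hQ := plus_nondeg (F := F) m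
  have hnd : ∀ x, (∀ y, QuadraticMap.polar ⇑(plusQF m F) x y = 0) → x = 0 := fun x hx => hQ.1 x hx
  have hcard : Fintype.card (Fin m ⊕ Fin m) = 2 * m := by
    rw [Fintype.card_sum, Fintype.card_fin]; omega
  have hle : ∀ W : Submodule F (Fin m ⊕ Fin m → F), (∀ w ∈ W, plusQF m F w = 0) →
      finrank F W ≤ m := by
    intro W hW
    have h1 : W ≤ perp (plusQF m F) W := fun x hx s hs => polar_of_sing _ W hW x s hx hs
    have h2 := Submodule.finrank_mono h1
    rw [finrank_perp _ hQ, hcard] at h2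
    omega
  constructor
  · rintro ⟨hts, hmax⟩
    have hts' : ∀ w ∈ U, plusQF m F w = 0 := hts
    refine ⟨hts', ?_⟩
    by_contra hne
    have hk := hle U hts'
    obtain ⟨U', hU'le, hU'k⟩ := exists_sub_finrank (U0 m F) (finrank F U) (by
      rw [finrank_U0]; exact hk)
    have hU'ts : ∀ w ∈ U', plusQF m F w = 0 := fun w hw => (selfOrth_U0 m).1 w (hU'le hw)
    obtain ⟨vs, hvs, -, hmap⟩ := ts_trans_inf (plusQF m F) hnd (finrank F U) ⊥ U' U
      (splits_bot _) (fun x _ => mem_perp_bot _ x) (fun x _ => mem_perp_bot _ x) hU'ts hts' hU'k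
      rfl
    have hW := hmax ((U0 m F).map (act (plusQF m F) (prodRefl (plusQF m F) vs)))
      ((selfOrth_map _ _ (selfOrth_U0 m) _).1) (by rw [← hmap]; exact Submodule.map_mono hU'le)
    have h3 := finrank_map_act (plusQF m F) (prodRefl (plusQF m F) vs) (U0 m F)
    rw [hW, finrank_U0] at h3
    exact hne h3
  · rintro ⟨hts, hdim⟩
    refine ⟨hts, fun W hW hUW => ?_⟩
    exact (Submodule.eq_of_le_of_finrank_le hUW (by rw [hdim]; exact hle W hW)).symm

/-- The image of a subspace under a similarity. -/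
noncomputable def sm (g : ↥(Cfsg.Geo.quadSimilarityGroup (F := F) ⇑(plusQF m F)))
    (U : Submodule F (Fin m ⊕ Fin m → F)) : Submodule F (Fin m ⊕ Fin m → F) :=
  U.map (Matrix.toLin' ((g : Matrix.GeneralLinearGroup (Fin m ⊕ Fin m) F) :
    Matrix (Fin m ⊕ Fin m) (Fin m ⊕ Fin m) F))

omit [Fintype F] in
theorem sm_inj (g : ↥(Cfsg.Geo.quadSimilarityGroup (F := F) ⇑(plusQF m F))) :
    Function.Injective (Matrix.toLin' ((g : Matrix.GeneralLinearGroup (Fin m ⊕ Fin m) F) :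
      Matrix (Fin m ⊕ Fin m) (Fin m ⊕ Fin m) F)) := by
  apply Function.LeftInverse.injective (g := Matrix.toLin'
    (((g : Matrix.GeneralLinearGroup (Fin m ⊕ Fin m) F)⁻¹ :
      Matrix.GeneralLinearGroup (Fin m ⊕ Fin m) F) : Matrix (Fin m ⊕ Fin m) (Fin m ⊕ Fin m) F))
  intro x
  rw [Matrix.toLin'_apply, Matrix.toLin'_apply, Matrix.mulVec_mulVec, Units.inv_mul,
    Matrix.one_mulVec]

omit [Fintype F] in
theorem finrank_sm (g : ↥(Cfsg.Geo.quadSimilarityGroup (F := F) ⇑(plusQF m F)))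
    (U : Submodule F (Fin m ⊕ Fin m → F)) : finrank F ↥(sm g U) = finrank F ↥U :=
  (LinearEquiv.finrank_eq (Submodule.equivMapOfInjective _ (sm_inj g) U)).symm

omit [Fintype F] in
theorem sm_inf (g : ↥(Cfsg.Geo.quadSimilarityGroup (F := F) ⇑(plusQF m F)))
    (U W : Submodule F (Fin m ⊕ Fin m → F)) : sm g (U ⊓ W) = sm g U ⊓ sm g W :=
  Submodule.map_inf _ (sm_inj g)

omit [Fintype F] in
theorem sm_ts (g : ↥(Cfsg.Geo.quadSimilarityGroup (F := F) ⇑(plusQF m F)))
    (U : Submodule F (Fin m ⊕ Fin m → F)) (hU : ∀ w ∈ U, plusQF m F w = 0) :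
    ∀ w ∈ sm g U, plusQF m F w = 0 := by
  rintro w ⟨u, hu, rfl⟩
  rw [Matrix.toLin'_apply, mu_spec, hU u hu, mul_zero]

omit [Fintype F] in
theorem sm_mul (g h : ↥(Cfsg.Geo.quadSimilarityGroup (F := F) ⇑(plusQF m F)))
    (U : Submodule F (Fin m ⊕ Fin m → F)) : sm (g * h) U = sm g (sm h U) := by
  unfold sm
  rw [Subgroup.coe_mul, Units.val_mul, Matrix.toLin'_mul, Submodule.map_comp]

omit [Fintype F] in
/-- A similarity preserving the class of `U₀` preserves the class of every maximal totally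
singular subspace. -/
theorem psc_of_U0 (g : ↥(Cfsg.Geo.quadSimilarityGroup (F := F) ⇑(plusQF m F)))
    (hg : Even (m - finrank F ↥(U0 m F ⊓ sm g (U0 m F))))
    (U : Submodule F (Fin m ⊕ Fin m → F)) (hU : ∀ w ∈ U, plusQF m F w = 0)
    (hUm : finrank F U = m) : Even (m - finrank F ↥(U ⊓ sm g U)) := by
  have h0 : finrank F (U0 m F) = m ∧ ∀ w ∈ U0 m F, plusQF m F w = 0 :=
    ⟨finrank_U0 m, (selfOrth_U0 m).1⟩
  have hgU : finrank F (sm g U) = m ∧ ∀ w ∈ sm g U, plusQF m F w = 0 :=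
    ⟨by rw [finrank_sm, hUm], sm_ts g U hU⟩
  have hgU0 : finrank F (sm g (U0 m F)) = m ∧ ∀ w ∈ sm g (U0 m F), plusQF m F w = 0 :=
    ⟨by rw [finrank_sm, finrank_U0], sm_ts g _ (selfOrth_U0 m).1⟩
  have t1 := Cfsg.Agent.S0831.three m (U0 m F) U (sm g U) h0 ⟨hUm, hU⟩ hgU
  have t2 := Cfsg.Agent.S0831.three m (U0 m F) (sm g (U0 m F)) (sm g U) h0 hgU0 hgU
  rw [← sm_inf, finrank_sm] at t2
  rw [Nat.even_iff] at hg t1 t2 ⊢
  omega

/-! ### The similarity `diag(μ, 1)` -/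

/-- The matrix `diag(μ, …, μ, 1, …, 1)`. -/
def dmat (m : ℕ) {F : Type*} [Field F] (μ : F) : Matrix (Fin m ⊕ Fin m) (Fin m ⊕ Fin m) F :=
  Matrix.diagonal (Sum.elim (fun _ => μ) (fun _ => 1))

omit [Fintype F] in
theorem dmat_mulVec (μ : F) (v : Fin m ⊕ Fin m → F) :
    (dmat m μ).mulVec v = fun i => Sum.elim (fun _ => μ) (fun _ => 1) i * v i := by
  funext i
  rw [dmat, Matrix.mulVec_diagonal]

omit [Fintype F] in
theorem dmat_mul (μ ν : F) : dmat m μ * dmat m ν = dmat m (μ * ν) := by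
  unfold dmat
  rw [Matrix.diagonal_mul_diagonal]
  congr 1
  funext i
  cases i <;> simp

omit [Fintype F] in
theorem dmat_one : dmat m (1 : F) = 1 := by
  unfold dmat
  rw [← Matrix.diagonal_one]
  congr 1
  funext i
  cases i <;> rfl

omit [Fintype F] in
theorem dmat_Q (μ : F) (v : Fin m ⊕ Fin m → F) :
    plusQF m F ((dmat m μ).mulVec v) = μ * plusQF m F v := by
  rw [plusQF_apply, plusQF_apply, dmat_mulVec]
  unfold Cfsg.quadFormPlus
  rw [Finset.mul_sum]
  apply Finset.sum_congr rfl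
  intro i _
  simp only [Sum.elim_inl, Sum.elim_inr, one_mul]
  ring

omit [Fintype F] in
theorem det_dmat (μ : F) : (dmat m μ).det = μ ^ m := by
  unfold dmat
  rw [Matrix.det_diagonal, Fintype.prod_sum_type]
  simp

/-- The similarity `diag(μ, 1)`. -/
noncomputable def dsim (μ : F) (hμ : μ ≠ 0) :
    ↥(Cfsg.Geo.quadSimilarityGroup (F := F) ⇑(plusQF m F)) :=
  ⟨⟨dmat m μ, dmat m μ⁻¹, by rw [dmat_mul, mul_inv_cancel₀ hμ, dmat_one],
    by rw [dmat_mul, inv_mul_cancel₀ hμ, dmat_one]⟩,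
   ⟨Units.mk0 μ hμ, fun v => dmat_Q μ v⟩⟩

omit [Fintype F] in
theorem coe_dsim (μ : F) (hμ : μ ≠ 0) :
    (((dsim μ hμ : ↥(Cfsg.Geo.quadSimilarityGroup (F := F) ⇑(plusQF m F))) :
      Matrix.GeneralLinearGroup (Fin m ⊕ Fin m) F) : Matrix (Fin m ⊕ Fin m) (Fin m ⊕ Fin m) F)
      = dmat m μ := rfl

omit [Fintype F] in
theorem mu_dsim (hne : ∃ v, plusQF m F v ≠ 0) (μ : F) (hμ : μ ≠ 0) :
    (mu (plusQF m F) (dsim μ hμ) : F) = μ :=
  mu_unique _ hne _ μ (fun v => dmat_Q μ v)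

omit [Fintype F] in
theorem sm_dsim_U0 (μ : F) (hμ : μ ≠ 0) : sm (dsim μ hμ) (U0 m F) = U0 m F := by
  apply Submodule.eq_of_le_of_finrank_eq
  · rintro w ⟨u, hu, rfl⟩
    have hu' : u ∈ U0 m F := hu
    rw [mem_U0] at hu' ⊢
    intro i
    rw [Matrix.toLin'_apply, coe_dsim, dmat_mulVec]
    simp [hu' i]
  · rw [finrank_sm]

/-- **A similarity of the hyperbolic form preserves the two classes of maximal totally singular
subspaces iff `det = μ ^ m`.** -/
theorem psc_iff (h2 : (2 : F) ≠ 0) (hne : ∃ v, plusQF m F v ≠ 0)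
    (g : ↥(Cfsg.Geo.quadSimilarityGroup (F := F) ⇑(plusQF m F))) :
    Cfsg.PreservesSingularClasses (Cfsg.quadFormPlus m F)
        ((g : Matrix.GeneralLinearGroup (Fin m ⊕ Fin m) F) :
          Matrix (Fin m ⊕ Fin m) (Fin m ⊕ Fin m) F)
      ↔ delta (plusQF m F) hne m g = 1 := by
  obtain ⟨μ, hμdef⟩ : ∃ μ : F, μ = (mu (plusQF m F) g : F) := ⟨_, rfl⟩
  have hμ : μ ≠ 0 := by rw [hμdef]; exact Units.ne_zero _
  obtain ⟨d, hddef⟩ : ∃ d : ↥(Cfsg.Geo.quadSimilarityGroup (F := F) ⇑(plusQF m F)),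
    d = dsim μ hμ := ⟨_, rfl⟩
  have hd : (mu (plusQF m F) d : F) = μ := by rw [hddef]; exact mu_dsim hne μ hμ
  have hmu1 : mu (plusQF m F) (d⁻¹ * g) = 1 := by
    have h1 : mu (plusQF m F) d = mu (plusQF m F) g := Units.ext (by rw [hd, hμdef])
    rw [mu_mul _ hne, ← muHom_apply _ hne d⁻¹, map_inv, muHom_apply, h1, inv_mul_cancel]
  have hiso : ((d⁻¹ * g : ↥(Cfsg.Geo.quadSimilarityGroup (F := F) ⇑(plusQF m F))) :
      Matrix.GeneralLinearGroup (Fin m ⊕ Fin m) F) ∈ Cfsg.isometryGroup F ⇑(plusQF m F) := by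
    rw [mem_iso]
    intro x
    rw [mu_spec, hmu1, Units.val_one, one_mul]
  obtain ⟨h, hh⟩ : ∃ h : ↥(Cfsg.isometryGroup F ⇑(plusQF m F)),
    incl (plusQF m F) h = d⁻¹ * g := ⟨⟨_, hiso⟩, rfl⟩
  have hg : g = d * incl (plusQF m F) h := by rw [hh, mul_inv_cancel_left]
  have hE := Cfsg.Agent.S2629.aux h2 h
  have hsmh : sm (incl (plusQF m F) h) (U0 m F) = (U0 m F).map (act (plusQF m F) h) := rfl
  have h0 : finrank F (U0 m F) = m ∧ ∀ w ∈ U0 m F, plusQF m F w = 0 :=
    ⟨finrank_U0 m, (selfOrth_U0 m).1⟩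
  have hhU : finrank F (sm (incl (plusQF m F) h) (U0 m F)) = m ∧
      ∀ w ∈ sm (incl (plusQF m F) h) (U0 m F), plusQF m F w = 0 :=
    ⟨by rw [finrank_sm, finrank_U0], sm_ts _ _ (selfOrth_U0 m).1⟩
  have hdhU : finrank F (sm d (sm (incl (plusQF m F) h) (U0 m F))) = m ∧
      ∀ w ∈ sm d (sm (incl (plusQF m F) h) (U0 m F)), plusQF m F w = 0 :=
    ⟨by rw [finrank_sm, hhU.1], sm_ts _ _ hhU.2⟩
  have hd0 : Even (m - finrank F ↥(U0 m F ⊓ sm d (U0 m F))) := by
    rw [hddef, sm_dsim_U0, inf_idem, finrank_U0]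
    simp
  have hp1 := psc_of_U0 d hd0 (sm (incl (plusQF m F) h) (U0 m F)) hhU.2 hhU.1
  have t := Cfsg.Agent.S0831.three m (U0 m F) (sm (incl (plusQF m F) h) (U0 m F))
    (sm d (sm (incl (plusQF m F) h) (U0 m F))) h0 hhU hdhU
  have hpar : Even (m - finrank F ↥(U0 m F ⊓ sm g (U0 m F)))
      ↔ Even (m - finrank F ↥(U0 m F ⊓ sm (incl (plusQF m F) h) (U0 m F))) := by
    rw [hg, sm_mul]
    rw [Nat.even_iff] at hp1 t ⊢
    rw [Nat.even_iff]
    omega
  have hdelta : delta (plusQF m F) hne m g = 1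
      ↔ ((h : Matrix.GeneralLinearGroup (Fin m ⊕ Fin m) F) :
          Matrix (Fin m ⊕ Fin m) (Fin m ⊕ Fin m) F).det = 1 := by
    have h1 : delta (plusQF m F) hne m d = 1 := by
      rw [delta_apply]
      apply Units.ext
      rw [Units.val_mul, Matrix.GeneralLinearGroup.val_det_apply, hddef, coe_dsim, det_dmat,
        Units.val_pow_eq_pow_val, Units.val_inv_eq_inv_val, ← hddef, hd, Units.val_one, inv_pow,
        mul_inv_cancel₀ (pow_ne_zero m hμ)]
    rw [hg, map_mul, h1, one_mul, delta_apply, mu_incl _ hne, inv_one, one_pow, mul_one, coe_incl,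
      Units.ext_iff, Matrix.GeneralLinearGroup.val_det_apply, Units.val_one]
  constructor
  · intro hpsc
    rw [hdelta, ← hE, ← hsmh, ← hpar]
    have h3 := hpsc (U0 m F) ((max_ts_iff _).2 ⟨(selfOrth_U0 m).1, finrank_U0 m⟩)
    unfold Cfsg.SameParityClass Cfsg.imageSubmodule at h3
    rw [finrank_U0] at h3
    exact h3
  · intro hdel U hU
    rw [max_ts_iff] at hU
    unfold Cfsg.SameParityClass Cfsg.imageSubmodule
    rw [hU.2]
    exact psc_of_U0 g (hpar.2 (by rw [hsmh, hE, ← hdelta]; exact hdel)) U hU.1 hU.2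

end Cfsg.Agent.Lib.Helper15.PSC
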