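import Mathlib

/-!
# Recognising the groups of order two and four, and homomorphisms from quotients
-/

set_option autoImplicit false

namespace Cfsg.Agent.Lib.Helper15.SmallGroups

/-- A cyclic group of order `n` is isomorphic to `ZMod n`. -/
theorem mulEquiv_zmod_of_cyclic {K : Type*} [Group K] (n : ℕ) (hcard : Nat.card K = n)
    (h : IsCyclic K) : Nonempty (K ≃* Multiplicative (ZMod n)) := by
  subst hcard
  exact ⟨(zmodCyclicMulEquiv h).symm⟩

/-- A group of order two. -/
theorem cyclic2 {K : Type*} [Group K] (hcard : Nat.card K = 2) :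
    Nonempty (K ≃* Multiplicative (ZMod 2)) := by
  have : Fact (Nat.Prime 2) := ⟨Nat.prime_two⟩
  exact mulEquiv_zmod_of_cyclic 2 hcard (isCyclic_of_prime_card hcard)

/-- A group of order four with an element whose square is not trivial is cyclic. -/
theorem cyclic4 {K : Type*} [Group K] (hcard : Nat.card K = 4) (x : K) (hx : x * x ≠ 1) :
    Nonempty (K ≃* Multiplicative (ZMod 4)) := by
  have : Finite K := Nat.finite_of_card_ne_zero (by omega)
  have h4 : x ^ 4 = 1 := by
    rw [← hcard]
    exact pow_card_eq_one'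
  have hdvd := orderOf_dvd_of_pow_eq_one h4
  have hmem : orderOf x ∈ Nat.divisors 4 := Nat.mem_divisors.2 ⟨hdvd, by norm_num⟩
  have hdiv : Nat.divisors 4 = {1, 2, 4} := by decide
  rw [hdiv] at hmem
  simp only [Finset.mem_insert, Finset.mem_singleton] at hmem
  have hord : orderOf x = 4 := by
    rcases hmem with h | h | h
    · exfalso
      rw [orderOf_eq_one_iff] at h
      apply hx
      rw [h, mul_one]
    · exfalso
      apply hx
      rw [← pow_two, ← h]
      exact pow_orderOf_eq_one x
    · exact h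
  exact mulEquiv_zmod_of_cyclic 4 hcard (isCyclic_of_orderOf_eq_card x (by rw [hord, hcard]))

/-- A group of order four with two distinct involutions is a four-group. -/
theorem klein4 {K : Type*} [Group K] (hcard : Nat.card K = 4) (u w : K) (hu : u * u = 1)
    (hw : w * w = 1) (hu1 : u ≠ 1) (hw1 : w ≠ 1) (huw : u ≠ w) :
    Nonempty (K ≃* Multiplicative (ZMod 2 × ZMod 2)) := by
  have : Finite K := Nat.finite_of_card_ne_zero (by omega)
  have hsq : ∀ x : K, x * x = 1 := by
    intro x
    by_contra hx
    have h4 : x ^ 4 = 1 := by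
      rw [← hcard]
      exact pow_card_eq_one'
    have hdvd := orderOf_dvd_of_pow_eq_one h4
    have hmem : orderOf x ∈ Nat.divisors 4 := Nat.mem_divisors.2 ⟨hdvd, by norm_num⟩
    have hdiv : Nat.divisors 4 = {1, 2, 4} := by decide
    rw [hdiv] at hmem
    simp only [Finset.mem_insert, Finset.mem_singleton] at hmem
    have hord : orderOf x = 4 := by
      rcases hmem with h | h | h
      · exfalso
        rw [orderOf_eq_one_iff] at h
        apply hx
        rw [h, mul_one]
      · exfalso
        apply hx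
        rw [← pow_two, ← h]
        exact pow_orderOf_eq_one x
      · exact h
    have htop : Subgroup.zpowers x = ⊤ := by
      apply Subgroup.eq_top_of_card_eq
      rw [Nat.card_zpowers, hord, hcard]
    have hmod : ∀ k : ℤ, x ^ k = x ^ (k % 4) := by
      intro k
      have h := zpow_mod_orderOf x k
      rw [hord] at h
      exact h.symm
    have hdvd' : ∀ k : ℤ, x ^ k = 1 ↔ (4 : ℤ) ∣ k := by
      intro k
      have h := orderOf_dvd_iff_zpow_eq_one (x := x) (i := k)
      rw [hord] at h
      exact h.symm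
    have hinv : ∀ y : K, y * y = 1 → y ≠ 1 → y = x ^ (2 : ℤ) := by
      intro y hy2 hy1
      have hy : y ∈ Subgroup.zpowers x := by rw [htop]; exact Subgroup.mem_top y
      obtain ⟨k, rfl⟩ := Subgroup.mem_zpowers_iff.1 hy
      rw [← zpow_add, hdvd'] at hy2
      rw [Ne, hdvd'] at hy1
      have h2 : k % 4 = 2 := by omega
      rw [hmod k, h2]
    apply huw
    rw [hinv u hu hu1, hinv w hw hw1]
  have hK : IsKleinFour K := by
    refine ⟨hcard, ?_⟩
    have hdvd : Monoid.exponent K ∣ 2 :=
      Monoid.exponent_dvd_of_forall_pow_eq_one (fun x => by rw [pow_two]; exact hsq x)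
    rcases (Nat.dvd_prime Nat.prime_two).1 hdvd with h | h
    · exfalso
      rw [Monoid.exp_eq_one_iff] at h
      exact hu1 (Subsingleton.elim u 1)
    · exact h
  exact IsKleinFour.nonempty_mulEquiv

/-- A homomorphism with prescribed kernel from an isomorphism of the quotient. -/
theorem exists_quot_hom {A T : Type*} [Group A] [Group T] (N : Subgroup A) [N.Normal]
    (e : Nonempty (A ⧸ N ≃* T)) : ∃ φ : A →* T, Function.Surjective φ ∧ φ.ker = N := by
  obtain ⟨e⟩ := e
  refine ⟨e.toMonoidHom.comp (QuotientGroup.mk' N), ?_, ?_⟩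
  · exact e.surjective.comp (QuotientGroup.mk'_surjective _)
  · ext x
    rw [MonoidHom.mem_ker, MonoidHom.comp_apply, MulEquiv.coe_toMonoidHom,
      MulEquiv.map_eq_one_iff, QuotientGroup.mk'_apply, QuotientGroup.eq_one_iff]

/-- The index of the kernel of a surjection. -/
theorem index_of_surj {G T : Type*} [Group G] [Group T] (φ : G →* T)
    (hφ : Function.Surjective φ) (N : Subgroup G) (hk : φ.ker = N) : N.index = Nat.card T := by
  rw [← hk, Subgroup.index_ker, MonoidHom.range_eq_top.2 hφ, Subgroup.card_top]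

/-- A surjection onto the group of order two from a character with values in `{1, z}`. -/
theorem exists_sign_hom1 {G M : Type*} [Group G] [CommGroup M] (z : M) (hz : z ≠ 1)
    (hz2 : z * z = 1) (e : G →* M) (h : ∀ g, e g = 1 ∨ e g = z) (b : G) (hb : e b = z) :
    ∃ ψ : G →* Multiplicative (ZMod 2), Function.Surjective ψ ∧ ∀ g, ψ g = 1 ↔ e g = 1 := by
  classical
  obtain ⟨s, hs⟩ : ∃ s : M → ZMod 2, ∀ x, s x = if x = 1 then 0 else 1 := ⟨_, fun _ => rfl⟩
  have hs1 : s 1 = 0 := by rw [hs, if_pos rfl]
  have hsz : s z = 1 := by rw [hs, if_neg hz]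
  have hadd : ∀ x y : M, (x = 1 ∨ x = z) → (y = 1 ∨ y = z) → s (x * y) = s x + s y := by
    intro x y hx hy
    rcases hx with rfl | rfl <;> rcases hy with rfl | rfl
    · rw [mul_one, hs1, add_zero]
    · rw [one_mul, hs1, zero_add]
    · rw [mul_one, hs1, add_zero]
    · rw [hz2, hs1, hsz]
      rfl
  have hs0 : ∀ x : M, s x = 0 ↔ x = 1 := by
    intro x
    rw [hs]
    by_cases hx : x = 1
    · rw [if_pos hx]
      exact ⟨fun _ => hx, fun _ => rfl⟩
    · rw [if_neg hx]
      exact ⟨fun h => absurd h (by decide), fun h => absurd h hx⟩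
  let ψ : G →* Multiplicative (ZMod 2) :=
    MonoidHom.mk' (fun g => Multiplicative.ofAdd (s (e g))) (by
      intro x y
      rw [map_mul, hadd _ _ (h x) (h y)]
      rfl)
  have hψ : ∀ g, ψ g = Multiplicative.ofAdd (s (e g)) := fun _ => rfl
  refine ⟨ψ, ?_, ?_⟩
  · intro y
    obtain ⟨i, rfl⟩ := Multiplicative.ofAdd.surjective y
    have hcases : ∀ k : ZMod 2, k = 0 ∨ k = 1 := by decide
    rcases hcases i with rfl | rfl
    · exact ⟨1, by rw [hψ, map_one, hs1]⟩
    · exact ⟨b, by rw [hψ, hb, hsz]⟩
  · intro g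
    rw [hψ]
    constructor
    · intro h'
      have h'' : s (e g) = 0 := h'
      exact (hs0 _).1 h''
    · intro h1
      rw [h1, hs1]
      rfl

end Cfsg.Agent.Lib.Helper15.SmallGroups
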