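import Mathlib
import Cfsg.Agent.Lib.Helper15.OmegaSimple
import Cfsg.Agent.Lib.Helper15.StdForms
import Cfsg.Agent.Lib.Helper15.Spinor3

/-!
# Two orthogonal hyperbolic pairs in the standard forms
-/

set_option autoImplicit false

namespace Cfsg.Agent.Lib.Helper15.StdHyp

open Cfsg.Agent.Lib.Helper15.StdForms Cfsg.Agent.Lib.Helper15.EichGen
  Cfsg.Agent.Lib.Helper15.Spinor3

variable {F : Type*} [Field F]

theorem fin_ne (m : ℕ) (hm : 2 ≤ m) : (⟨0, by omega⟩ : Fin m) ≠ ⟨1, by omega⟩ := by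
  intro h
  have := congrArg Fin.val h
  simp at this

theorem hp2_plus (m : ℕ) (hm : 2 ≤ m) : HP2 (plusQF m F) := by
  classical
  have hne := fin_ne m hm
  refine ⟨Pi.single (Sum.inl ⟨0, by omega⟩) 1, Pi.single (Sum.inr ⟨0, by omega⟩) 1,
    Pi.single (Sum.inl ⟨1, by omega⟩) 1, Pi.single (Sum.inr ⟨1, by omega⟩) 1,
    ?_, ?_, ?_, ?_, ?_, ?_, ?_, ?_, ?_, ?_⟩
  · rw [plusQF_apply]; unfold Cfsg.quadFormPlus; simp [Pi.single_apply]
  · rw [plusQF_apply]; unfold Cfsg.quadFormPlus; simp [Pi.single_apply]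
  · rw [coe_plusQF, polar_plus]; simp [Pi.single_apply]
  · rw [plusQF_apply]; unfold Cfsg.quadFormPlus; simp [Pi.single_apply]
  · rw [plusQF_apply]; unfold Cfsg.quadFormPlus; simp [Pi.single_apply]
  · rw [coe_plusQF, polar_plus]; simp [Pi.single_apply]
  · rw [coe_plusQF, polar_plus]; simp [Pi.single_apply]
  · rw [coe_plusQF, polar_plus]; simp [Pi.single_apply, hne.symm]
  · rw [coe_plusQF, polar_plus]; simp [Pi.single_apply, hne]
  · rw [coe_plusQF, polar_plus]; simp [Pi.single_apply]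

theorem hp2_minus (k : ℕ) (hk : 2 ≤ k) (a b : F) : HP2 (minusQF k F a b) := by
  classical
  have hne := fin_ne k hk
  refine ⟨Pi.single (Sum.inl (Sum.inl ⟨0, by omega⟩)) 1,
    Pi.single (Sum.inl (Sum.inr ⟨0, by omega⟩)) 1,
    Pi.single (Sum.inl (Sum.inl ⟨1, by omega⟩)) 1,
    Pi.single (Sum.inl (Sum.inr ⟨1, by omega⟩)) 1,
    ?_, ?_, ?_, ?_, ?_, ?_, ?_, ?_, ?_, ?_⟩
  · rw [minusQF_apply]; unfold Cfsg.quadFormMinus; simp [Pi.single_apply]
  · rw [minusQF_apply]; unfold Cfsg.quadFormMinus; simp [Pi.single_apply]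
  · rw [coe_minusQF, polar_minus]; simp [Pi.single_apply]
  · rw [minusQF_apply]; unfold Cfsg.quadFormMinus; simp [Pi.single_apply]
  · rw [minusQF_apply]; unfold Cfsg.quadFormMinus; simp [Pi.single_apply]
  · rw [coe_minusQF, polar_minus]; simp [Pi.single_apply]
  · rw [coe_minusQF, polar_minus]; simp [Pi.single_apply]
  · rw [coe_minusQF, polar_minus]; simp [Pi.single_apply, hne.symm]
  · rw [coe_minusQF, polar_minus]; simp [Pi.single_apply, hne]
  · rw [coe_minusQF, polar_minus]; simp [Pi.single_apply]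

theorem hp2_odd (m : ℕ) (hm : 2 ≤ m) : HP2 (oddQF m F) := by
  classical
  have hne := fin_ne m hm
  refine ⟨Pi.single (Sum.inr (Sum.inl ⟨0, by omega⟩)) 1,
    Pi.single (Sum.inr (Sum.inr ⟨0, by omega⟩)) 1,
    Pi.single (Sum.inr (Sum.inl ⟨1, by omega⟩)) 1,
    Pi.single (Sum.inr (Sum.inr ⟨1, by omega⟩)) 1,
    ?_, ?_, ?_, ?_, ?_, ?_, ?_, ?_, ?_, ?_⟩
  · rw [coe_oddQF]; unfold Cfsg.quadFormOdd; simp [Pi.single_apply]
  · rw [coe_oddQF]; unfold Cfsg.quadFormOdd; simp [Pi.single_apply]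
  · rw [coe_oddQF, polar_odd]; simp [Pi.single_apply]
  · rw [coe_oddQF]; unfold Cfsg.quadFormOdd; simp [Pi.single_apply]
  · rw [coe_oddQF]; unfold Cfsg.quadFormOdd; simp [Pi.single_apply]
  · rw [coe_oddQF, polar_odd]; simp [Pi.single_apply]
  · rw [coe_oddQF, polar_odd]; simp [Pi.single_apply]
  · rw [coe_oddQF, polar_odd]; simp [Pi.single_apply, hne.symm]
  · rw [coe_oddQF, polar_odd]; simp [Pi.single_apply, hne]
  · rw [coe_oddQF, polar_odd]; simp [Pi.single_apply]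

end Cfsg.Agent.Lib.Helper15.StdHyp
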