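import Mathlib
import Cfsg.Agent.Lib.Helper15.PSC
import Cfsg.Agent.Lib.Helper15.SmallGroups
import Cfsg.Agent.Lib.Helper15.StdHyp

/-!
# The inner-diagonal automorphisms of `PΩ⁺` modulo the inner automorphisms
-/

set_option autoImplicit false

namespace Cfsg.Agent.Lib.Helper15.InnDiag

open Module Cfsg.Agent.Lib.Helper15.Spinor Cfsg.Agent.Lib.Helper15.CD2
  Cfsg.Agent.Lib.Helper15.Parity Cfsg.Agent.Lib.Helper15.Witt Cfsg.Agent.Lib.Helper15.WittInf
  Cfsg.Agent.Lib.Helper15.OrthGen Cfsg.Agent.Lib.Helper15.HypPair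
  Cfsg.Agent.Lib.Helper15.CenterOmega Cfsg.Agent.Lib.Helper15.Eichler
  Cfsg.Agent.Lib.Helper15.EichGen Cfsg.Agent.Lib.Helper15.SingPts
  Cfsg.Agent.Lib.Helper15.OmegaSimple Cfsg.Agent.Lib.Helper15.AutOmega
  Cfsg.Agent.Lib.Helper15.SimAut Cfsg.Agent.Lib.Helper15.SimAut2
  Cfsg.Agent.Lib.Helper15.SmallGroups

section General

variable {F : Type*} [Field F] [Fintype F] {ι : Type} [Fintype ι] [DecidableEq ι]

/-- A similarity inducing the same automorphism as an isometry is a scalar multiple of it. -/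
theorem scalar_of_simAut_eq (Q : QuadraticForm F (ι → F))
    (hQ : (QuadraticMap.polarBilin Q).Nondegenerate) (hn : 5 ≤ Fintype.card ι) (hH : HP2 Q)
    (g h : ↥(Cfsg.Geo.quadSimilarityGroup (F := F) ⇑Q))
    (hgh : simAut Q g = simAut Q h) :
    ∃ c : F, c ≠ 0 ∧ ((g : Matrix.GeneralLinearGroup ι F) : Matrix ι ι F)
      = c • ((h : Matrix.GeneralLinearGroup ι F) : Matrix ι ι F) := by
  have hker : simAut Q (g * h⁻¹) = 1 := by
    rw [map_mul, map_inv, hgh, mul_inv_cancel]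
  obtain ⟨c, hc⟩ := simAut_eq_one Q hQ hn hH _ hker
  have hgM : ((g : Matrix.GeneralLinearGroup ι F) : Matrix ι ι F)
      = c • ((h : Matrix.GeneralLinearGroup ι F) : Matrix ι ι F) := by
    have h3 : ((g * h⁻¹ : ↥(Cfsg.Geo.quadSimilarityGroup (F := F) ⇑Q)) :
        Matrix.GeneralLinearGroup ι F) * (h : Matrix.GeneralLinearGroup ι F)
        = (g : Matrix.GeneralLinearGroup ι F) := by
      rw [Subgroup.coe_mul, Subgroup.coe_inv, inv_mul_cancel_right]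
    have h4 := congrArg (fun X : Matrix.GeneralLinearGroup ι F => (X : Matrix ι ι F)) h3
    simp only [Units.val_mul] at h4
    rw [← h4, hc, Matrix.smul_mul, one_mul]
  refine ⟨c, ?_, hgM⟩
  rintro rfl
  obtain ⟨w, -, hw⟩ := exists_nonsing_perp Q hQ ⊥ (by rw [finrank_bot]; omega)
  have h5 := mu_spec Q g w
  rw [hgM, zero_smul, Matrix.zero_mulVec, map_zero] at h5
  exact mul_ne_zero (Units.ne_zero _) hw h5.symm

omit [Fintype F] in
/-- Multiplier of a scalar multiple. -/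
theorem mu_smul (Q : QuadraticForm F (ι → F)) (hne : ∃ v, Q v ≠ 0)
    (g h : ↥(Cfsg.Geo.quadSimilarityGroup (F := F) ⇑Q)) (c : F)
    (hgh : ((g : Matrix.GeneralLinearGroup ι F) : Matrix ι ι F)
      = c • ((h : Matrix.GeneralLinearGroup ι F) : Matrix ι ι F)) :
    (mu Q g : F) = c * c * (mu Q h : F) :=
  mu_unique Q hne g _ (fun v => by
    rw [hgh, Matrix.smul_mulVec, QuadraticMap.map_smul, mu_spec, smul_eq_mul]
    ring)

omit [Fintype F] in
/-- `delta` of a scalar multiple. -/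
theorem delta_smul (Q : QuadraticForm F (ι → F)) (hne : ∃ v, Q v ≠ 0) (k : ℕ)
    (hk : Fintype.card ι = k + k)
    (g h : ↥(Cfsg.Geo.quadSimilarityGroup (F := F) ⇑Q)) (c : F) (hc : c ≠ 0)
    (hgh : ((g : Matrix.GeneralLinearGroup ι F) : Matrix ι ι F)
      = c • ((h : Matrix.GeneralLinearGroup ι F) : Matrix ι ι F)) :
    delta Q hne k g = delta Q hne k h := by
  rw [delta_apply, delta_apply]
  apply Units.ext
  have hμ : (mu Q h : F) ≠ 0 := Units.ne_zero _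
  have h6 : c ^ (k + k) = (c * c) ^ k := by rw [pow_add, mul_pow]
  rw [Units.val_mul, Units.val_mul, Matrix.GeneralLinearGroup.val_det_apply,
    Matrix.GeneralLinearGroup.val_det_apply, Units.val_pow_eq_pow_val, Units.val_pow_eq_pow_val,
    Units.val_inv_eq_inv_val, Units.val_inv_eq_inv_val, mu_smul Q hne g h c hgh, hgh,
    Matrix.det_smul, hk, inv_pow, inv_pow, mul_pow, mul_pow, pow_add]
  have hck : c ^ k ≠ 0 := pow_ne_zero _ hc
  have hμk : (mu Q h : F) ^ k ≠ 0 := pow_ne_zero _ hμ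
  field_simp

/-- The image of the kernel of `delta` has index two in the image of the similarity group. -/
theorem relIndex_ker_delta (h2 : (2 : F) ≠ 0) (Q : QuadraticForm F (ι → F))
    (hQ : (QuadraticMap.polarBilin Q).Nondegenerate) (hn : 5 ≤ Fintype.card ι) (hH : HP2 Q)
    (hne : ∃ v, Q v ≠ 0) (k : ℕ) (hk : Fintype.card ι = k + k) :
    ((delta Q hne k).ker.map (simAut Q)).relIndex (simAut Q).range = 2 := by
  obtain ⟨w, hw⟩ := hne
  have hneg : (-1 : Fˣ) ≠ 1 := by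
    intro h
    have h' := congrArg Units.val h
    rw [Units.val_neg, Units.val_one] at h'
    apply h2
    linear_combination -h'
  have hb2 : delta Q ⟨w, hw⟩ k (incl Q (reflO Q w)) = -1 := by
    rw [delta_apply, mu_incl Q ⟨w, hw⟩, inv_one, one_pow, mul_one, coe_incl]
    apply Units.ext
    rw [Matrix.GeneralLinearGroup.val_det_apply, coe_reflO Q w hw,
      Cfsg.Agent.Lib.Helper15.CartanD.refl_det Q w hw, Units.val_neg, Units.val_one]
  obtain ⟨ψ, hψs, hψ⟩ := exists_sign_hom1 (-1 : Fˣ) hneg (by rw [neg_mul_neg, one_mul])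
    (delta Q ⟨w, hw⟩ k) (delta_cases Q hQ ⟨w, hw⟩ k hk) (incl Q (reflO Q w)) hb2
  obtain ⟨φ, hφs, hφk⟩ := exists_factor (simAut Q) ψ hψs (delta Q ⟨w, hw⟩ k).ker (by
    intro g
    rw [hψ]
    constructor
    · intro hg
      exact ⟨g, hg, rfl⟩
    · rintro ⟨s, hs, hgs⟩
      obtain ⟨c, hc0, hc⟩ := scalar_of_simAut_eq Q hQ hn hH g s hgs
      rw [delta_smul Q ⟨w, hw⟩ k hk g s c hc0 hc]
      exact hs)
  change (((delta Q ⟨w, hw⟩ k).ker.map (simAut Q)).subgroupOf (simAut Q).range).index = 2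
  rw [index_of_surj φ hφs _ hφk, Nat.card_eq_fintype_card]
  rfl

omit [Fintype F] in
/-- `Ω` lies in the kernel of `delta`. -/
theorem omega_le_ker (Q : QuadraticForm F (ι → F)) (hne : ∃ v, Q v ≠ 0) (k : ℕ) :
    (commutator ↥(Cfsg.isometryGroup F ⇑Q)).map (incl Q) ≤ (delta Q hne k).ker := by
  rintro _ ⟨s, hs, rfl⟩
  rw [MonoidHom.mem_ker, delta_apply, mu_incl Q hne, inv_one, one_pow, mul_one, coe_incl]
  have hle : commutator ↥(Cfsg.isometryGroup F ⇑Q) ≤ Cfsg.specialIsometryGroup F ⇑Q := by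
    unfold Cfsg.specialIsometryGroup
    exact Abelianization.commutator_subset_ker _
  exact MonoidHom.mem_ker.1 (hle hs)

/-- The image of the kernel of `delta` in the automorphism group of `PΩ`. -/
noncomputable def idg (Q : QuadraticForm F (ι → F)) (hne : ∃ v, Q v ≠ 0) (k : ℕ) :
    Subgroup (MulAut (Cfsg.POmega F ⇑Q)) :=
  (delta Q hne k).ker.map (simAut Q)

omit [Fintype F] in
theorem inn_le_idg (Q : QuadraticForm F (ι → F)) (hne : ∃ v, Q v ≠ 0) (k : ℕ) :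
    Cfsg.Inn (Cfsg.POmega F ⇑Q) ≤ idg Q hne k := by
  rw [inn_eq']
  exact Subgroup.map_mono (omega_le_ker Q hne k)

/-- The index of the inner automorphisms in `idg`. -/
theorem relIndex_inn_idg (h2 : (2 : F) ≠ 0) (Q : QuadraticForm F (ι → F))
    (hQ : (QuadraticMap.polarBilin Q).Nondegenerate) (hn : 5 ≤ Fintype.card ι) (hH : HP2 Q)
    (hne : ∃ v, Q v ≠ 0) (k : ℕ) (hk : Fintype.card ι = k + k) :
    ((∃ g : ↥(Cfsg.isometryGroup F ⇑Q), g ∈ Cfsg.Omega F ⇑Q ∧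
        ((g : Matrix.GeneralLinearGroup ι F) : Matrix ι ι F) = -1) →
      (Cfsg.Inn (Cfsg.POmega F ⇑Q)).relIndex (idg Q hne k) = 4) ∧
    ((¬ ∃ g : ↥(Cfsg.isometryGroup F ⇑Q), g ∈ Cfsg.Omega F ⇑Q ∧
        ((g : Matrix.GeneralLinearGroup ι F) : Matrix ι ι F) = -1) →
      (Cfsg.Inn (Cfsg.POmega F ⇑Q)).relIndex (idg Q hne k) = 2) := by
  have heven : Even (Fintype.card ι) := ⟨k, hk⟩
  have h1 := Subgroup.relIndex_mul_relIndex (Cfsg.Inn (Cfsg.POmega F ⇑Q)) (idg Q hne k)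
    (simAut Q).range (inn_le_idg Q hne k) (Subgroup.map_le_range _ _)
  have h3 : (idg Q hne k).relIndex (simAut Q).range = 2 :=
    relIndex_ker_delta h2 Q hQ hn hH hne k hk
  rw [h3] at h1
  constructor
  · intro hneg
    obtain ⟨φ, hφs, hφk⟩ := pgo_mod_inn_in h2 Q hQ hn hH heven hneg
    have h4 := index_of_surj φ hφs _ hφk
    rw [DihedralGroup.nat_card] at h4
    rw [pgoAut_eq] at h4
    change (Cfsg.Inn (Cfsg.POmega F ⇑Q)).relIndex (simAut Q).range = 2 * 4 at h4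
    omega
  · intro hneg
    obtain ⟨φ, hφs, hφk⟩ := pgo_mod_inn_out h2 Q hQ hn hH heven hneg
    have h4 := index_of_surj φ hφs _ hφk
    have h5 : Nat.card (Multiplicative (ZMod 2 × ZMod 2)) = 4 := by
      rw [Nat.card_eq_fintype_card]
      rfl
    rw [h5] at h4
    rw [pgoAut_eq] at h4
    change (Cfsg.Inn (Cfsg.POmega F ⇑Q)).relIndex (simAut Q).range = 4 at h4
    omega

omit [Fintype F] in
theorem mk_eq_one_iff (Q : QuadraticForm F (ι → F)) (hne : ∃ v, Q v ≠ 0) (k : ℕ)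
    [hN : ((Cfsg.Inn (Cfsg.POmega F ⇑Q)).subgroupOf (idg Q hne k)).Normal]
    (x : ↥(idg Q hne k)) :
    (QuotientGroup.mk x : ↥(idg Q hne k) ⧸
        (Cfsg.Inn (Cfsg.POmega F ⇑Q)).subgroupOf (idg Q hne k)) = 1
      ↔ (x : MulAut (Cfsg.POmega F ⇑Q)) ∈ Cfsg.Inn (Cfsg.POmega F ⇑Q) := by
  rw [QuotientGroup.eq_one_iff, Subgroup.mem_subgroupOf]

/-- `idg / Inn` has order two when `-1 ∉ Ω`. -/
theorem idg_c2 (h2 : (2 : F) ≠ 0) (Q : QuadraticForm F (ι → F))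
    (hQ : (QuadraticMap.polarBilin Q).Nondegenerate) (hn : 5 ≤ Fintype.card ι) (hH : HP2 Q)
    (hne : ∃ v, Q v ≠ 0) (k : ℕ) (hk : Fintype.card ι = k + k)
    (hneg : ¬ ∃ g : ↥(Cfsg.isometryGroup F ⇑Q), g ∈ Cfsg.Omega F ⇑Q ∧
        ((g : Matrix.GeneralLinearGroup ι F) : Matrix ι ι F) = -1) :
    ∃ φ : ↥(idg Q hne k) →* Multiplicative (ZMod 2), Function.Surjective φ ∧
      φ.ker = (Cfsg.Inn (Cfsg.POmega F ⇑Q)).subgroupOf (idg Q hne k) := by
  have hInn := inn_normal (Cfsg.POmega F ⇑Q)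
  have hN : ((Cfsg.Inn (Cfsg.POmega F ⇑Q)).subgroupOf (idg Q hne k)).Normal :=
    Subgroup.normal_subgroupOf
  apply exists_quot_hom
  apply cyclic2
  rw [← Subgroup.index_eq_card]
  exact (relIndex_inn_idg h2 Q hQ hn hH hne k hk).2 hneg

/-- `idg / Inn` is cyclic of order four when `-1 ∈ Ω` and some element of `idg` has its square
outside `Inn`. -/
theorem idg_c4 (h2 : (2 : F) ≠ 0) (Q : QuadraticForm F (ι → F))
    (hQ : (QuadraticMap.polarBilin Q).Nondegenerate) (hn : 5 ≤ Fintype.card ι) (hH : HP2 Q)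
    (hne : ∃ v, Q v ≠ 0) (k : ℕ) (hk : Fintype.card ι = k + k)
    (hneg : ∃ g : ↥(Cfsg.isometryGroup F ⇑Q), g ∈ Cfsg.Omega F ⇑Q ∧
        ((g : Matrix.GeneralLinearGroup ι F) : Matrix ι ι F) = -1)
    (d₀ : ↥(Cfsg.Geo.quadSimilarityGroup (F := F) ⇑Q)) (hd₀ : d₀ ∈ (delta Q hne k).ker)
    (hsq : simAut Q (d₀ * d₀) ∉ Cfsg.Inn (Cfsg.POmega F ⇑Q)) :
    ∃ φ : ↥(idg Q hne k) →* Multiplicative (ZMod 4), Function.Surjective φ ∧
      φ.ker = (Cfsg.Inn (Cfsg.POmega F ⇑Q)).subgroupOf (idg Q hne k) := by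
  have hInn := inn_normal (Cfsg.POmega F ⇑Q)
  have hN : ((Cfsg.Inn (Cfsg.POmega F ⇑Q)).subgroupOf (idg Q hne k)).Normal :=
    Subgroup.normal_subgroupOf
  apply exists_quot_hom
  have hcard : Nat.card (↥(idg Q hne k) ⧸
      (Cfsg.Inn (Cfsg.POmega F ⇑Q)).subgroupOf (idg Q hne k)) = 4 := by
    rw [← Subgroup.index_eq_card]
    exact (relIndex_inn_idg h2 Q hQ hn hH hne k hk).1 hneg
  obtain ⟨x, hx⟩ : ∃ x : ↥(idg Q hne k), (x : MulAut (Cfsg.POmega F ⇑Q)) = simAut Q d₀ :=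
    ⟨⟨_, ⟨d₀, hd₀, rfl⟩⟩, rfl⟩
  apply cyclic4 hcard (QuotientGroup.mk x)
  rw [← QuotientGroup.mk_mul, Ne, mk_eq_one_iff, Subgroup.coe_mul, hx, ← map_mul]
  exact hsq

set_option maxHeartbeats 1000000 in
/-- `idg / Inn` is a four-group when `-1 ∈ Ω` and some element of `idg` with non-square multiplier
has its square in `Inn`. -/
theorem idg_k4 (h2 : (2 : F) ≠ 0) (Q : QuadraticForm F (ι → F))
    (hQ : (QuadraticMap.polarBilin Q).Nondegenerate) (hn : 5 ≤ Fintype.card ι) (hH : HP2 Q)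
    (hne : ∃ v, Q v ≠ 0) (k : ℕ) (hk : Fintype.card ι = k + k)
    (hneg : ∃ g : ↥(Cfsg.isometryGroup F ⇑Q), g ∈ Cfsg.Omega F ⇑Q ∧
        ((g : Matrix.GeneralLinearGroup ι F) : Matrix ι ι F) = -1)
    (d₀ : ↥(Cfsg.Geo.quadSimilarityGroup (F := F) ⇑Q)) (hd₀ : d₀ ∈ (delta Q hne k).ker)
    (hns : ¬ IsSquare (mu Q d₀ : F))
    (hsq : simAut Q (d₀ * d₀) ∈ Cfsg.Inn (Cfsg.POmega F ⇑Q)) :
    ∃ φ : ↥(idg Q hne k) →* Multiplicative (ZMod 2 × ZMod 2), Function.Surjective φ ∧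
      φ.ker = (Cfsg.Inn (Cfsg.POmega F ⇑Q)).subgroupOf (idg Q hne k) := by
  have hInn := inn_normal (Cfsg.POmega F ⇑Q)
  have hN : ((Cfsg.Inn (Cfsg.POmega F ⇑Q)).subgroupOf (idg Q hne k)).Normal :=
    Subgroup.normal_subgroupOf
  apply exists_quot_hom
  have hcard : Nat.card (↥(idg Q hne k) ⧸
      (Cfsg.Inn (Cfsg.POmega F ⇑Q)).subgroupOf (idg Q hne k)) = 4 := by
    rw [← Subgroup.index_eq_card]
    exact (relIndex_inn_idg h2 Q hQ hn hH hne k hk).1 hneg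
  have hnd : ∀ x, (∀ y, QuadraticMap.polar ⇑Q x y = 0) → x = 0 := fun x hx => hQ.1 x hx
  have hc : Fintype.card F ≠ 2 ∨ Fintype.card ι ≠ 4 := Or.inr (by omega)
  obtain ⟨w, hw⟩ := id hne
  obtain ⟨w', hw'def⟩ : ∃ w' : ι → F,
    w' = ((d₀ : Matrix.GeneralLinearGroup ι F) : Matrix ι ι F).mulVec w := ⟨_, rfl⟩
  have hw'Q : Q w' = (mu Q d₀ : F) * Q w := by rw [hw'def]; exact mu_spec Q d₀ w
  have hw'0 : Q w' ≠ 0 := by rw [hw'Q]; exact mul_ne_zero (Units.ne_zero _) hw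
  obtain ⟨z, hzdef⟩ : ∃ z : ↥(Cfsg.isometryGroup F ⇑Q), z = reflO Q w * reflO Q w' := ⟨_, rfl⟩
  have hz : z ∉ commutator ↥(Cfsg.isometryGroup F ⇑Q) := by
    intro h
    rw [hzdef] at h
    have h3 := (prodRefl_mem_omega_iff h2 Q [w, w'] (by
      intro y hy
      rw [List.mem_cons, List.mem_singleton] at hy
      rcases hy with rfl | rfl
      · exact hw
      · exact hw'0)).1 (by rw [prodRefl_cons, prodRefl_cons, prodRefl_nil, mul_one]; exact h)
    apply hns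
    have h4 : IsSquare (Q w ^ 2 * (mu Q d₀ : F)) := by
      have h5 := h3.2
      simp only [List.map_cons, List.map_nil, List.prod_cons, List.prod_nil, mul_one] at h5
      rw [hw'Q] at h5
      have h6 : Q w ^ 2 * (mu Q d₀ : F) = Q w * ((mu Q d₀ : F) * Q w) := by ring
      rw [h6]
      exact h5
    exact (Cfsg.Agent.Lib.Helper15.Gram.isSquare_sq_mul (Q w) _ hw).1 h4
  have hzδ : incl Q z ∈ (delta Q hne k).ker := by
    rw [MonoidHom.mem_ker, delta_apply, mu_incl Q hne, inv_one, one_pow, mul_one, coe_incl]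
    apply Units.ext
    rw [Matrix.GeneralLinearGroup.val_det_apply, hzdef, coe_mul, Matrix.det_mul,
      coe_reflO Q w hw, coe_reflO Q w' hw'0, Cfsg.Agent.Lib.Helper15.CartanD.refl_det Q w hw,
      Cfsg.Agent.Lib.Helper15.CartanD.refl_det Q w' hw'0, Units.val_one]
    ring
  -- an inner automorphism induced by a similarity has square multiplier
  have hmusq : ∀ g : ↥(Cfsg.Geo.quadSimilarityGroup (F := F) ⇑Q),
      simAut Q g ∈ Cfsg.Inn (Cfsg.POmega F ⇑Q) → ∃ c : F, c ≠ 0 ∧ (mu Q g : F) = c * c := by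
    intro g hg
    rw [inn_eq'] at hg
    obtain ⟨_, ⟨ω, -, rfl⟩, hωg⟩ := hg
    obtain ⟨c, hc0, hcg⟩ := scalar_of_simAut_eq Q hQ hn hH g (incl Q ω) hωg.symm
    refine ⟨c, hc0, ?_⟩
    rw [mu_smul Q hne g (incl Q ω) c hcg, mu_incl Q hne, Units.val_one, mul_one]
  obtain ⟨x, hx⟩ : ∃ x : ↥(idg Q hne k), (x : MulAut (Cfsg.POmega F ⇑Q)) = simAut Q d₀ :=
    ⟨⟨_, ⟨d₀, hd₀, rfl⟩⟩, rfl⟩
  obtain ⟨y, hy⟩ : ∃ y : ↥(idg Q hne k),
    (y : MulAut (Cfsg.POmega F ⇑Q)) = simAut Q (incl Q z) := ⟨⟨_, ⟨incl Q z, hzδ, rfl⟩⟩, rfl⟩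
  apply klein4 hcard (QuotientGroup.mk x) (QuotientGroup.mk y)
  · rw [← QuotientGroup.mk_mul, mk_eq_one_iff, Subgroup.coe_mul, hx, ← map_mul]
    exact hsq
  · rw [← QuotientGroup.mk_mul, mk_eq_one_iff, Subgroup.coe_mul, hy, ← map_mul, ← map_mul,
      simAut_incl, inn_eq]
    exact ⟨z * z, sq_mem_commutator Q hnd hc z, rfl⟩
  · rw [Ne, mk_eq_one_iff, hx]
    intro h
    obtain ⟨c, -, hc⟩ := hmusq d₀ h
    exact hns ⟨c, hc⟩
  · rw [Ne, mk_eq_one_iff, hy, simAut_incl]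
    intro h
    exact hz (mem_omega_of_inn Q hQ hn hH hneg z h)
  · intro h
    rw [QuotientGroup.eq, Subgroup.mem_subgroupOf, Subgroup.coe_mul, Subgroup.coe_inv, hx, hy,
      ← map_inv, ← map_mul] at h
    obtain ⟨c, hc0, hc⟩ := hmusq _ h
    rw [mu_mul Q hne, ← muHom_apply Q hne d₀⁻¹, map_inv, muHom_apply, mu_incl Q hne, mul_one,
      Units.val_inv_eq_inv_val] at hc
    apply hns
    refine ⟨c⁻¹, ?_⟩
    rw [← mul_inv, ← hc, inv_inv]

omit [Fintype F] in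
/-- The automorphisms induced by the similarities in a subgroup `S` form the image of `S`. -/
theorem closure_induced (Q : QuadraticForm F (ι → F))
    (S : Subgroup ↥(Cfsg.Geo.quadSimilarityGroup (F := F) ⇑Q)) :
    Subgroup.closure {β : MulAut (Cfsg.POmega F ⇑Q) | ∃ (g : Matrix.GeneralLinearGroup ι F)
        (hg : g ∈ Cfsg.Geo.quadSimilarityGroup (F := F) ⇑Q),
        (⟨g, hg⟩ : ↥(Cfsg.Geo.quadSimilarityGroup (F := F) ⇑Q)) ∈ S ∧
        Cfsg.IsInducedBySemilinearPOmega ⇑Q g (RingEquiv.refl F) β}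
      = S.map (simAut Q) := by
  have hmap : ∀ M : Matrix ι ι F, M.map (RingEquiv.refl F) = M := fun M => by
    ext i j
    rfl
  have hset : {β : MulAut (Cfsg.POmega F ⇑Q) | ∃ (g : Matrix.GeneralLinearGroup ι F)
        (hg : g ∈ Cfsg.Geo.quadSimilarityGroup (F := F) ⇑Q),
        (⟨g, hg⟩ : ↥(Cfsg.Geo.quadSimilarityGroup (F := F) ⇑Q)) ∈ S ∧
        Cfsg.IsInducedBySemilinearPOmega ⇑Q g (RingEquiv.refl F) β}
      = ((S.map (simAut Q) : Subgroup (MulAut (Cfsg.POmega F ⇑Q))) :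
        Set (MulAut (Cfsg.POmega F ⇑Q))) := by
    ext β
    constructor
    · rintro ⟨g, hg, hS, hind⟩
      refine ⟨⟨g, hg⟩, hS, ?_⟩
      apply MulEquiv.ext
      intro y
      induction y using QuotientGroup.induction_on with
      | H s =>
        rw [simAut_mk]
        symm
        apply hind s (omConj Q ⟨g, hg⟩ s)
        rw [hmap, coe_omConj]
        rfl
    · rintro ⟨g, hgS, rfl⟩
      refine ⟨(g : Matrix.GeneralLinearGroup ι F), g.2, hgS, ?_⟩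
      intro s s' hs'
      rw [simAut_mk]
      congr 1
      apply Subtype.ext
      apply Subtype.ext
      apply Units.ext
      rw [hs', hmap, coe_omConj]
      rfl
  rw [hset, Subgroup.closure_eq]

end General

section Plus

open Cfsg.Agent.Lib.Helper15.StdForms Cfsg.Agent.Lib.Helper15.PSC
  Cfsg.Agent.Lib.Helper15.StdHyp

variable {F : Type*} [Field F] [Fintype F] {m : ℕ}

/-- `Inndiag(PΩ⁺)` is the image of the kernel of `delta`. -/
theorem inndiag_eq (h2 : (2 : F) ≠ 0) (hne : ∃ v, plusQF m F v ≠ 0) :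
    Cfsg.inndiagPOmegaPlus m F = idg (plusQF m F) hne m := by
  have hset : {β : MulAut (Cfsg.POmega F ⇑(plusQF m F)) |
        Cfsg.IsInnerDiagonalAutPOmegaPlus m β}
      = {β : MulAut (Cfsg.POmega F ⇑(plusQF m F)) |
        ∃ (g : Matrix.GeneralLinearGroup (Fin m ⊕ Fin m) F)
        (hg : g ∈ Cfsg.Geo.quadSimilarityGroup (F := F) ⇑(plusQF m F)),
        (⟨g, hg⟩ : ↥(Cfsg.Geo.quadSimilarityGroup (F := F) ⇑(plusQF m F)))
          ∈ (delta (plusQF m F) hne m).ker ∧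
        Cfsg.IsInducedBySemilinearPOmega ⇑(plusQF m F) g (RingEquiv.refl F) β} := by
    ext β
    constructor
    · rintro ⟨g, hg, hpsc, hind⟩
      exact ⟨g, hg, (psc_iff h2 hne ⟨g, hg⟩).1 hpsc, hind⟩
    · rintro ⟨g, hg, hk, hind⟩
      exact ⟨g, hg, (psc_iff h2 hne ⟨g, hg⟩).2 hk, hind⟩
  have h3 : Subgroup.closure {β : MulAut (Cfsg.POmega F ⇑(plusQF m F)) |
      Cfsg.IsInnerDiagonalAutPOmegaPlus m β} = idg (plusQF m F) hne m := by
    rw [hset]
    exact closure_induced (plusQF m F) (delta (plusQF m F) hne m).ker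
  exact h3

omit [Fintype F] in
theorem dsim_mem_ker (hne : ∃ v, plusQF m F v ≠ 0) (ν : F) (hν0 : ν ≠ 0) :
    dsim ν hν0 ∈ (delta (plusQF m F) hne m).ker := by
  rw [MonoidHom.mem_ker, delta_apply]
  apply Units.ext
  rw [Units.val_mul, Matrix.GeneralLinearGroup.val_det_apply, coe_dsim, det_dmat,
    Units.val_pow_eq_pow_val, Units.val_inv_eq_inv_val, mu_dsim hne ν hν0, Units.val_one, inv_pow,
    mul_inv_cancel₀ (pow_ne_zero m hν0)]

/-- The square of `diag(ν, 1)` induces an inner automorphism iff `m` is even (`ν` a non-square,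
`-1 ∈ Ω`). -/
theorem dsim_sq_inn (hm : 4 ≤ m)
    (hneg : ∃ g : ↥(Cfsg.isometryGroup F ⇑(plusQF m F)), g ∈ Cfsg.Omega F ⇑(plusQF m F) ∧
        ((g : Matrix.GeneralLinearGroup (Fin m ⊕ Fin m) F) :
          Matrix (Fin m ⊕ Fin m) (Fin m ⊕ Fin m) F) = -1)
    (ν : F) (hν0 : ν ≠ 0) (hν : ¬ IsSquare ν) :
    simAut (plusQF m F) (dsim ν hν0 * dsim ν hν0) ∈ Cfsg.Inn (Cfsg.POmega F ⇑(plusQF m F))
      ↔ Even m := by
  classical
  have hQ := plus_nondeg (F := F) m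
  have hn : 5 ≤ Fintype.card (Fin m ⊕ Fin m) := by
    rw [Fintype.card_sum, Fintype.card_fin]; omega
  have hH := hp2_plus (F := F) m (by omega)
  have hinv : ((ν • 1 : Matrix (Fin m) (Fin m) F))⁻¹ = ν⁻¹ • 1 :=
    Matrix.inv_eq_right_inv (by
      rw [Matrix.smul_mul, Matrix.mul_smul, smul_smul, one_mul, mul_inv_cancel₀ hν0, one_smul])
  have hL : ν⁻¹ • (dmat m ν * dmat m ν)
      = Matrix.fromBlocks (ν • (1 : Matrix (Fin m) (Fin m) F)) 0 0
        ((ν • (1 : Matrix (Fin m) (Fin m) F))⁻¹).transpose := by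
    rw [hinv, dmat_mul]
    unfold dmat
    ext i j
    rcases i with i | i <;> rcases j with j | j
    · by_cases hij : i = j
      · subst hij
        simp
        field_simp
      · simp [hij]
    · simp
    · simp
    · by_cases hij : i = j
      · subst hij
        simp
      · simp [hij]
  have hM1 : (ν⁻¹ • (dmat m ν * dmat m ν)) * (ν • (dmat m ν⁻¹ * dmat m ν⁻¹)) = 1 := by
    have h : ν * ν * (ν⁻¹ * ν⁻¹) = 1 := by field_simp
    rw [Matrix.smul_mul, Matrix.mul_smul, smul_smul, inv_mul_cancel₀ hν0, one_smul, dmat_mul,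
      dmat_mul, dmat_mul, h, dmat_one]
  have hM2 : (ν • (dmat m ν⁻¹ * dmat m ν⁻¹)) * (ν⁻¹ • (dmat m ν * dmat m ν)) = 1 := by
    have h : ν⁻¹ * ν⁻¹ * (ν * ν) = 1 := by field_simp
    rw [Matrix.smul_mul, Matrix.mul_smul, smul_smul, mul_inv_cancel₀ hν0, one_smul, dmat_mul,
      dmat_mul, dmat_mul, h, dmat_one]
  have hMQ : ∀ x, plusQF m F ((ν⁻¹ • (dmat m ν * dmat m ν)).mulVec x) = plusQF m F x := by
    intro x
    rw [Matrix.smul_mulVec, QuadraticMap.map_smul, ← Matrix.mulVec_mulVec, dmat_Q, dmat_Q,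
      smul_eq_mul]
    field_simp
  obtain ⟨s, hs⟩ := exists_iso (plusQF m F) _ _ hM1 hM2 hMQ
  have hsim : simAut (plusQF m F) (dsim ν hν0 * dsim ν hν0)
      = simAut (plusQF m F) (incl (plusQF m F) s) :=
    simAut_congr (plusQF m F) _ _ ν (by
      rw [Subgroup.coe_mul, Units.val_mul, coe_dsim, coe_incl, hs, smul_smul,
        mul_inv_cancel₀ hν0, one_smul])
  rw [hsim, simAut_incl]
  have hiff : conjAut (plusQF m F) s ∈ Cfsg.Inn (Cfsg.POmega F ⇑(plusQF m F))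
      ↔ s ∈ commutator ↥(Cfsg.isometryGroup F ⇑(plusQF m F)) :=
    ⟨mem_omega_of_inn (plusQF m F) hQ hn hH hneg s, fun h => by
      rw [inn_eq]
      exact ⟨s, h, rfl⟩⟩
  rw [hiff]
  obtain ⟨A, hA⟩ : ∃ A : GL (Fin m) F, (A : Matrix (Fin m) (Fin m) F) = ν • 1 :=
    ⟨⟨ν • 1, ν⁻¹ • 1, by
      rw [Matrix.smul_mul, Matrix.mul_smul, smul_smul, one_mul, mul_inv_cancel₀ hν0, one_smul],
      by
      rw [Matrix.smul_mul, Matrix.mul_smul, smul_smul, one_mul, inv_mul_cancel₀ hν0, one_smul]⟩,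
      rfl⟩
  have hS := Cfsg.Agent.S2611.aux (F := F) (by omega : 1 ≤ m) (Or.inr (by omega)) A
  rw [hA, ← hL, Matrix.det_smul, Matrix.det_one, mul_one, Fintype.card_fin] at hS
  have hsΩ : s ∈ commutator ↥(Cfsg.isometryGroup F ⇑(plusQF m F))
      ↔ ∃ g : ↥(Cfsg.isometryGroup F ⇑(plusQF m F)),
        g ∈ commutator ↥(Cfsg.isometryGroup F ⇑(plusQF m F)) ∧
        ((g : Matrix.GeneralLinearGroup (Fin m ⊕ Fin m) F) :
          Matrix (Fin m ⊕ Fin m) (Fin m ⊕ Fin m) F) = ν⁻¹ • (dmat m ν * dmat m ν) := by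
    constructor
    · intro h
      exact ⟨s, h, hs⟩
    · rintro ⟨g, hg, hgm⟩
      have h3 : g = s := iso_ext _ (by rw [hgm, hs])
      rw [← h3]
      exact hg
  rw [hsΩ, hS]
  constructor
  · intro hsq
    by_contra hodd
    rw [Nat.not_even_iff_odd] at hodd
    obtain ⟨j, hj⟩ := hodd
    apply hν
    have h4 : ν ^ m = (ν ^ j) ^ 2 * ν := by rw [hj]; ring
    rw [h4] at hsq
    exact (Cfsg.Agent.Lib.Helper15.Gram.isSquare_sq_mul (ν ^ j) ν (pow_ne_zero j hν0)).1 hsq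
  · rintro ⟨j, hj⟩
    exact ⟨ν ^ j, by rw [hj, pow_add]⟩

end Plus

end Cfsg.Agent.Lib.Helper15.InnDiag
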