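import Mathlib
import Cfsg.Agent.Lib.Helper15.InnDiag
import Cfsg.Agent.Lib.Helper15.BaseChange

/-!
# Similarities of the minus-type form preserving the singular classes over the quadratic extension

A similarity `g` of the minus-type form `Σ xᵢ yᵢ + (z₁² + a z₁ z₂ + b z₂²)` in dimension `2m + 2`
preserves, over a quadratic extension, the two classes of maximal totally singular subspaces iff
`det g = μ ^ (m + 1)`.
-/

set_option autoImplicit false

namespace Cfsg.Agent.Lib.Helper15.MinusPSC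

open Module Cfsg.Agent.Lib.Helper15.Spinor Cfsg.Agent.Lib.Helper15.StdForms
  Cfsg.Agent.Lib.Helper15.SimAut Cfsg.Agent.Lib.Helper15.PSC
  Cfsg.Agent.Lib.Helper15.BaseChange Cfsg.Agent.Lib.Helper15.InnDiag

section Transport

variable {K : Type*} [Field K] {ι₁ ι₂ : Type} [Fintype ι₁] [DecidableEq ι₁] [Fintype ι₂]
  [DecidableEq ι₂]

/-- Preservation of the singular classes is transported along a linear equivalence. -/
theorem psc_transport (Q₁ : (ι₁ → K) → K) (Q₂ : (ι₂ → K) → K) (T : (ι₁ → K) ≃ₗ[K] (ι₂ → K))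
    (hQ : ∀ v, Q₁ v = Q₂ (T v)) (M₁ : Matrix ι₁ ι₁ K) (M₂ : Matrix ι₂ ι₂ K)
    (hM : ∀ v, T (M₁.mulVec v) = M₂.mulVec (T v)) (h : Cfsg.PreservesSingularClasses Q₂ M₂) :
    Cfsg.PreservesSingularClasses Q₁ M₁ := by
  intro U hU
  have hT : Function.Injective (T : (ι₁ → K) →ₗ[K] (ι₂ → K)) := T.injective
  have hmax : Cfsg.IsMaxTotallySingular Q₂ (U.map (T : (ι₁ → K) →ₗ[K] (ι₂ → K))) := by
    refine ⟨?_, ?_⟩
    · rintro w ⟨u, hu, rfl⟩
      have h1 := hU.1 u hu
      rw [hQ] at h1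
      exact h1
    · intro W hW hle
      have h1 : W.comap (T : (ι₁ → K) →ₗ[K] (ι₂ → K)) = U := by
        apply hU.2
        · intro w hw
          rw [hQ]
          exact hW _ hw
        · exact Submodule.map_le_iff_le_comap.1 hle
      rw [← h1, Submodule.map_comap_eq_of_surjective T.surjective]
  have h3 := h _ hmax
  unfold Cfsg.SameParityClass Cfsg.imageSubmodule at h3 ⊢
  have himg : (U.map (T : (ι₁ → K) →ₗ[K] (ι₂ → K))).map (Matrix.toLin' M₂)
      = (U.map (Matrix.toLin' M₁)).map (T : (ι₁ → K) →ₗ[K] (ι₂ → K)) := by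
    rw [← Submodule.map_comp, ← Submodule.map_comp]
    congr 1
    apply LinearMap.ext
    intro v
    rw [LinearMap.comp_apply, LinearMap.comp_apply, Matrix.toLin'_apply, Matrix.toLin'_apply]
    exact (hM v).symm
  rw [himg, ← Submodule.map_inf _ hT, LinearEquiv.finrank_map_eq, LinearEquiv.finrank_map_eq] at h3
  exact h3

end Transport

section BC

variable {F : Type*} [Field F] {K : Type*} [Field K] (f : F →+* K) {ι : Type} [Fintype ι]
  [DecidableEq ι]

/-- Base change of a similarity. -/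
theorem base_change_sim (QF : (ι → F) → F) (QK : QuadraticForm K (ι → K))
    (hcompat : ∀ v : ι → F, QK (f ∘ v) = f (QF v)) (M : Matrix ι ι F) (μ : F)
    (hM : ∀ v, QF (M.mulVec v) = μ * QF v) :
    ∀ x : ι → K, QK ((M.map f).mulVec x) = f μ * QK x := by
  classical
  have hvec : ∀ u : ι → F, QK ((M.map f).mulVec (f ∘ u)) = f μ * QK (f ∘ u) := by
    intro u
    have h1 : (M.map f).mulVec (f ∘ u) = f ∘ (M.mulVec u) := by
      funext i
      exact (RingHom.map_mulVec f _ u i).symm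
    rw [h1, hcompat, hcompat, hM, map_mul]
  have hb : ∀ i, (Pi.basisFun K ι) i = f ∘ (Pi.single i (1 : F)) := by
    intro i
    funext j
    simp only [Pi.basisFun_apply, Function.comp_apply, Pi.single_apply]
    split_ifs <;> simp
  have hb2 : ∀ i j, (Pi.basisFun K ι) i + (Pi.basisFun K ι) j
      = f ∘ (Pi.single i (1 : F) + Pi.single j (1 : F)) := by
    intro i j
    rw [hb, hb]
    funext l
    simp only [Pi.add_apply, Function.comp_apply, map_add]
  have key : QK.comp (Matrix.toLin' (M.map f)) = f μ • QK := by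
    apply Cfsg.Agent.Lib.Helper15.QForm.ext_basis (Pi.basisFun K ι)
    · intro i
      rw [QuadraticMap.comp_apply, smul_apply, Matrix.toLin'_apply, hb, hvec,
        smul_eq_mul]
    · intro i j
      unfold QuadraticMap.polar
      rw [hb2, QuadraticMap.comp_apply, QuadraticMap.comp_apply, QuadraticMap.comp_apply,
        smul_apply, smul_apply, smul_apply,
        Matrix.toLin'_apply, Matrix.toLin'_apply, Matrix.toLin'_apply, hb, hb, hvec, hvec, hvec]
      simp only [smul_eq_mul]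
  intro x
  have h1 := congrArg (fun q : QuadraticForm K (ι → K) => q x) key
  simp only [QuadraticMap.comp_apply, smul_apply, Matrix.toLin'_apply,
    smul_eq_mul] at h1
  exact h1

end BC

section Minus

variable {F : Type*} [Field F] [Fintype F] {m : ℕ}

/-- Over any quadratic extension, the base change of a similarity `g` of the minus-type form
preserves the singular classes iff `det g = μ ^ (m + 1)`. -/
theorem psc_K_iff (h2 : (2 : F) ≠ 0) (a b : F)
    (hab : ∀ z₁ z₂ : F, z₁ ^ 2 + a * z₁ * z₂ + b * z₂ ^ 2 = 0 → z₁ = 0 ∧ z₂ = 0)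
    (hne : ∃ v, minusQF m F a b v ≠ 0) (K : Type*) [Field K] [Algebra F K]
    (hK : finrank F K = 2)
    (g : ↥(Cfsg.Geo.quadSimilarityGroup (F := F) ⇑(minusQF m F a b))) :
    Cfsg.PreservesSingularClasses
        (Cfsg.quadFormMinus m K (algebraMap F K a) (algebraMap F K b))
        (((g : Matrix.GeneralLinearGroup ((Fin m ⊕ Fin m) ⊕ Fin 2) F) :
          Matrix ((Fin m ⊕ Fin m) ⊕ Fin 2) ((Fin m ⊕ Fin m) ⊕ Fin 2) F).map (algebraMap F K))
      ↔ delta (minusQF m F a b) hne (m + 1) g = 1 := by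
  classical
  have hfin : Module.Finite F K := Module.finite_of_finrank_pos (by rw [hK]; norm_num)
  have hKfin : Finite K := Module.finite_of_finite F
  let _ : Fintype K := Fintype.ofFinite K
  obtain ⟨θ, hθ⟩ := root_in_quadratic_ext hK a b hab
  have hinj : Function.Injective (algebraMap F K) := (algebraMap F K).injective
  have hd : 4 * algebraMap F K b - (algebraMap F K a) ^ 2 ≠ 0 := by
    have h := disc_ne_zero a b hab
    intro h0
    apply h
    apply hinj
    rw [map_sub, map_mul, map_pow, map_ofNat, map_zero]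
    exact h0
  obtain ⟨T, hT⟩ := minus_to_plus m (algebraMap F K a) (algebraMap F K b) θ hθ hd
  have h2K : (2 : K) ≠ 0 := by
    intro h
    apply h2
    apply hinj
    rw [map_ofNat, map_zero]
    exact h
  obtain ⟨M, hMdef⟩ : ∃ M : Matrix ((Fin m ⊕ Fin m) ⊕ Fin 2) ((Fin m ⊕ Fin m) ⊕ Fin 2) F,
    M = ((g : Matrix.GeneralLinearGroup ((Fin m ⊕ Fin m) ⊕ Fin 2) F) :
      Matrix ((Fin m ⊕ Fin m) ⊕ Fin 2) ((Fin m ⊕ Fin m) ⊕ Fin 2) F) := ⟨_, rfl⟩
  obtain ⟨Mi, hMidef⟩ : ∃ Mi : Matrix ((Fin m ⊕ Fin m) ⊕ Fin 2) ((Fin m ⊕ Fin m) ⊕ Fin 2) F,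
    Mi = (((g : Matrix.GeneralLinearGroup ((Fin m ⊕ Fin m) ⊕ Fin 2) F)⁻¹ :
      Matrix.GeneralLinearGroup ((Fin m ⊕ Fin m) ⊕ Fin 2) F) :
      Matrix ((Fin m ⊕ Fin m) ⊕ Fin 2) ((Fin m ⊕ Fin m) ⊕ Fin 2) F) := ⟨_, rfl⟩
  have hMMi : M * Mi = 1 := by rw [hMdef, hMidef]; exact Units.mul_inv _
  have hMiM : Mi * M = 1 := by rw [hMdef, hMidef]; exact Units.inv_mul _
  obtain ⟨μ, hμdef⟩ : ∃ μ : F, μ = (mu (minusQF m F a b) g : F) := ⟨_, rfl⟩
  have hμ0 : μ ≠ 0 := by rw [hμdef]; exact Units.ne_zero _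
  have hMQ : ∀ v, Cfsg.quadFormMinus m F a b (M.mulVec v) = μ * Cfsg.quadFormMinus m F a b v := by
    intro v
    have h1 := mu_spec (minusQF m F a b) g v
    rw [minusQF_apply, minusQF_apply] at h1
    rw [hMdef, hμdef]
    exact h1
  have hMiQ : ∀ v, Cfsg.quadFormMinus m F a b (Mi.mulVec v)
      = μ⁻¹ * Cfsg.quadFormMinus m F a b v := by
    intro v
    have h1 := hMQ (Mi.mulVec v)
    rw [Matrix.mulVec_mulVec, hMMi, Matrix.one_mulVec] at h1
    rw [h1, ← mul_assoc, inv_mul_cancel₀ hμ0, one_mul]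
  have hcompat : ∀ v : (Fin m ⊕ Fin m) ⊕ Fin 2 → F,
      minusQF m K (algebraMap F K a) (algebraMap F K b) ((algebraMap F K) ∘ v)
        = algebraMap F K (Cfsg.quadFormMinus m F a b v) := by
    intro v
    rw [minusQF_apply]
    unfold Cfsg.quadFormMinus
    simp only [Function.comp_apply, map_add, map_mul, map_sum, map_pow]
  have hMK := base_change_sim (algebraMap F K) (Cfsg.quadFormMinus m F a b)
    (minusQF m K (algebraMap F K a) (algebraMap F K b)) hcompat M μ hMQ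
  have hMiK := base_change_sim (algebraMap F K) (Cfsg.quadFormMinus m F a b)
    (minusQF m K (algebraMap F K a) (algebraMap F K b)) hcompat Mi μ⁻¹ hMiQ
  obtain ⟨N, hNdef⟩ : ∃ N : Matrix (Fin (m + 1) ⊕ Fin (m + 1)) (Fin (m + 1) ⊕ Fin (m + 1)) K,
    N = LinearMap.toMatrix' ((T : ((Fin m ⊕ Fin m) ⊕ Fin 2 → K) →ₗ[K] _)
      ∘ₗ Matrix.toLin' (M.map (algebraMap F K))
      ∘ₗ (T.symm : (Fin (m + 1) ⊕ Fin (m + 1) → K) →ₗ[K] _)) := ⟨_, rfl⟩
  obtain ⟨Ni, hNidef⟩ : ∃ Ni : Matrix (Fin (m + 1) ⊕ Fin (m + 1)) (Fin (m + 1) ⊕ Fin (m + 1)) K,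
    Ni = LinearMap.toMatrix' ((T : ((Fin m ⊕ Fin m) ⊕ Fin 2 → K) →ₗ[K] _)
      ∘ₗ Matrix.toLin' (Mi.map (algebraMap F K))
      ∘ₗ (T.symm : (Fin (m + 1) ⊕ Fin (m + 1) → K) →ₗ[K] _)) := ⟨_, rfl⟩
  have hNv : ∀ y, N.mulVec y = T ((M.map (algebraMap F K)).mulVec (T.symm y)) := by
    intro y
    rw [hNdef, LinearMap.toMatrix'_mulVec]
    rfl
  have hNiv : ∀ y, Ni.mulVec y = T ((Mi.map (algebraMap F K)).mulVec (T.symm y)) := by
    intro y
    rw [hNidef, LinearMap.toMatrix'_mulVec]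
    rfl
  have hNNi : N * Ni = 1 := by
    apply mat_ext
    intro y
    rw [← Matrix.mulVec_mulVec, hNv, hNiv, LinearEquiv.symm_apply_apply, Matrix.mulVec_mulVec,
      ← Matrix.map_mul, hMMi, Matrix.map_one _ (map_zero _) (map_one _), Matrix.one_mulVec,
      Matrix.one_mulVec, LinearEquiv.apply_symm_apply]
  have hNiN : Ni * N = 1 := by
    apply mat_ext
    intro y
    rw [← Matrix.mulVec_mulVec, hNv, hNiv, LinearEquiv.symm_apply_apply, Matrix.mulVec_mulVec,
      ← Matrix.map_mul, hMiM, Matrix.map_one _ (map_zero _) (map_one _), Matrix.one_mulVec,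
      Matrix.one_mulVec, LinearEquiv.apply_symm_apply]
  have hNQ : ∀ y, plusQF (m + 1) K (N.mulVec y) = algebraMap F K μ * plusQF (m + 1) K y := by
    intro y
    rw [plusQF_apply, plusQF_apply, hNv, ← hT, ← minusQF_apply, hMK, minusQF_apply, hT,
      LinearEquiv.apply_symm_apply]
  have hμK : algebraMap F K μ ≠ 0 := by
    intro h
    apply hμ0
    apply hinj
    rw [map_zero]
    exact h
  obtain ⟨g', hg'⟩ : ∃ g' : ↥(Cfsg.Geo.quadSimilarityGroup (F := K) ⇑(plusQF (m + 1) K)),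
      ((g' : Matrix.GeneralLinearGroup (Fin (m + 1) ⊕ Fin (m + 1)) K) :
        Matrix (Fin (m + 1) ⊕ Fin (m + 1)) (Fin (m + 1) ⊕ Fin (m + 1)) K) = N :=
    ⟨⟨⟨N, Ni, hNNi, hNiN⟩, ⟨Units.mk0 (algebraMap F K μ) hμK, hNQ⟩⟩, rfl⟩
  have hneK : ∃ v, plusQF (m + 1) K v ≠ 0 := by
    obtain ⟨w, -, hw⟩ := Cfsg.Agent.Lib.Helper15.Witt.exists_nonsing_perp
      (plusQF (m + 1) K) (plus_nondeg (F := K) (m + 1)) ⊥ (by
        rw [finrank_bot, Fintype.card_sum, Fintype.card_fin]; omega)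
    exact ⟨w, hw⟩
  have hmu' : (mu (plusQF (m + 1) K) g' : K) = algebraMap F K μ :=
    mu_unique _ hneK _ _ (by rw [hg']; exact hNQ)
  have hdet : N.det = algebraMap F K M.det := by
    rw [hNdef, LinearMap.det_toMatrix', LinearMap.det_conj, LinearMap.det_toLin',
      RingHom.map_det]
    rfl
  have hpsc : Cfsg.PreservesSingularClasses
        (Cfsg.quadFormMinus m K (algebraMap F K a) (algebraMap F K b))
        (M.map (algebraMap F K))
      ↔ Cfsg.PreservesSingularClasses (Cfsg.quadFormPlus (m + 1) K) N := by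
    constructor
    · intro h
      refine psc_transport _ _ T.symm (fun v => ?_) _ _ (fun v => ?_) h
      · rw [hT, LinearEquiv.apply_symm_apply]
      · rw [hNv, LinearEquiv.symm_apply_apply]
    · intro h
      refine psc_transport _ _ T hT _ _ (fun v => ?_) h
      rw [hNv, LinearEquiv.symm_apply_apply]
  rw [← hMdef, hpsc, ← hg', psc_iff h2K hneK g', delta_apply, delta_apply, Units.ext_iff,
    Units.ext_iff, Units.val_mul, Units.val_mul, Matrix.GeneralLinearGroup.val_det_apply,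
    Matrix.GeneralLinearGroup.val_det_apply, Units.val_pow_eq_pow_val, Units.val_pow_eq_pow_val,
    Units.val_inv_eq_inv_val, Units.val_inv_eq_inv_val, hg', hdet, hmu', ← hMdef, ← hμdef,
    Units.val_one, Units.val_one, ← map_inv₀, ← map_pow, ← map_mul]
  constructor
  · intro h
    apply hinj
    rw [h, map_one]
  · intro h
    rw [h, map_one]

/-- **A similarity of the minus-type form preserves the two classes of maximal totally singular
subspaces over the quadratic extension iff `det = μ ^ (m + 1)`.** -/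
theorem psc_minus_iff (h2 : (2 : F) ≠ 0) (a b : F)
    (hab : ∀ z₁ z₂ : F, z₁ ^ 2 + a * z₁ * z₂ + b * z₂ ^ 2 = 0 → z₁ = 0 ∧ z₂ = 0)
    (hne : ∃ v, minusQF m F a b v ≠ 0)
    (g : ↥(Cfsg.Geo.quadSimilarityGroup (F := F) ⇑(minusQF m F a b))) :
    Cfsg.PreservesSingularClassesMinus m a b
        ((g : Matrix.GeneralLinearGroup ((Fin m ⊕ Fin m) ⊕ Fin 2) F) :
          Matrix ((Fin m ⊕ Fin m) ⊕ Fin 2) ((Fin m ⊕ Fin m) ⊕ Fin 2) F)
      ↔ delta (minusQF m F a b) hne (m + 1) g = 1 := by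
  constructor
  · rintro ⟨K, hKf, hKa, hK, hpsc⟩
    exact (psc_K_iff h2 a b hab hne K hK g).1 hpsc
  · intro hdel
    let P : Polynomial F := Polynomial.C 1 * Polynomial.X ^ 2 + Polynomial.C (-a) * Polynomial.X
      + Polynomial.C b
    have hdeg : P.natDegree = 2 := Polynomial.natDegree_quadratic one_ne_zero
    have hP0 : P ≠ 0 := by
      intro h
      rw [h, Polynomial.natDegree_zero] at hdeg
      omega
    have hirr : Irreducible P := by
      apply Polynomial.irreducible_of_degree_le_three_of_not_isRoot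
      · rw [hdeg]; decide
      · intro r hr
        have h0 : 1 * r ^ 2 + -a * r + b = 0 := by simpa [P, Polynomial.IsRoot] using hr
        have h1 := hab r (-1) (by linear_combination h0)
        exact one_ne_zero (neg_eq_zero.mp h1.2)
    have : Fact (Irreducible P) := ⟨hirr⟩
    have hfr : finrank F (AdjoinRoot P) = 2 := by
      rw [(AdjoinRoot.powerBasis hP0).finrank, AdjoinRoot.powerBasis_dim, hdeg]
    exact ⟨AdjoinRoot P, inferInstance, inferInstance, hfr,
      (psc_K_iff h2 a b hab hne (AdjoinRoot P) hfr g).2 hdel⟩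

/-- The inner-diagonal automorphisms of `PΩ⁻` generate the image of the kernel of `delta`. -/
theorem closure_minus_eq (h2 : (2 : F) ≠ 0) (a b : F)
    (hab : ∀ z₁ z₂ : F, z₁ ^ 2 + a * z₁ * z₂ + b * z₂ ^ 2 = 0 → z₁ = 0 ∧ z₂ = 0)
    (hne : ∃ v, minusQF m F a b v ≠ 0) :
    Subgroup.closure {β : MulAut (Cfsg.POmega F ⇑(minusQF m F a b)) |
        ∃ g : Matrix.GeneralLinearGroup ((Fin m ⊕ Fin m) ⊕ Fin 2) F,
          g ∈ Cfsg.Geo.quadSimilarityGroup (F := F) ⇑(minusQF m F a b) ∧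
          Cfsg.PreservesSingularClassesMinus m a b
            (g : Matrix ((Fin m ⊕ Fin m) ⊕ Fin 2) ((Fin m ⊕ Fin m) ⊕ Fin 2) F) ∧
          Cfsg.IsInducedBySemilinearPOmega ⇑(minusQF m F a b) g (RingEquiv.refl F) β}
      = idg (minusQF m F a b) hne (m + 1) := by
  have hset : {β : MulAut (Cfsg.POmega F ⇑(minusQF m F a b)) |
        ∃ g : Matrix.GeneralLinearGroup ((Fin m ⊕ Fin m) ⊕ Fin 2) F,
          g ∈ Cfsg.Geo.quadSimilarityGroup (F := F) ⇑(minusQF m F a b) ∧
          Cfsg.PreservesSingularClassesMinus m a b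
            (g : Matrix ((Fin m ⊕ Fin m) ⊕ Fin 2) ((Fin m ⊕ Fin m) ⊕ Fin 2) F) ∧
          Cfsg.IsInducedBySemilinearPOmega ⇑(minusQF m F a b) g (RingEquiv.refl F) β}
      = {β : MulAut (Cfsg.POmega F ⇑(minusQF m F a b)) |
        ∃ (g : Matrix.GeneralLinearGroup ((Fin m ⊕ Fin m) ⊕ Fin 2) F)
        (hg : g ∈ Cfsg.Geo.quadSimilarityGroup (F := F) ⇑(minusQF m F a b)),
        (⟨g, hg⟩ : ↥(Cfsg.Geo.quadSimilarityGroup (F := F) ⇑(minusQF m F a b)))
          ∈ (delta (minusQF m F a b) hne (m + 1)).ker ∧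
        Cfsg.IsInducedBySemilinearPOmega ⇑(minusQF m F a b) g (RingEquiv.refl F) β} := by
    ext β
    constructor
    · rintro ⟨g, hg, hpsc, hind⟩
      exact ⟨g, hg, (psc_minus_iff h2 a b hab hne ⟨g, hg⟩).1 hpsc, hind⟩
    · rintro ⟨g, hg, hk, hind⟩
      exact ⟨g, hg, (psc_minus_iff h2 a b hab hne ⟨g, hg⟩).2 hk, hind⟩
  rw [hset]
  exact closure_induced (minusQF m F a b) (delta (minusQF m F a b) hne (m + 1)).ker

end Minus

end Cfsg.Agent.Lib.Helper15.MinusPSC
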