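import Mathlib
import Cfsg.Agent.Lib.Helper15.MinusPSC

/-!
# The inner-diagonal automorphisms of `PΩ⁻` modulo the inner automorphisms

An explicit similarity of the minus-type form whose square is a scalar, and the resulting cyclic
quotient of order four.
-/

set_option autoImplicit false

namespace Cfsg.Agent.Lib.Helper15.MinusDiag

open Module Cfsg.Agent.Lib.Helper15.Spinor Cfsg.Agent.Lib.Helper15.StdForms
  Cfsg.Agent.Lib.Helper15.SimAut Cfsg.Agent.Lib.Helper15.SimAut2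
  Cfsg.Agent.Lib.Helper15.AutOmega Cfsg.Agent.Lib.Helper15.EichGen
  Cfsg.Agent.Lib.Helper15.InnDiag Cfsg.Agent.Lib.Helper15.StdHyp

section General

variable {F : Type*} [Field F] [Fintype F] {ι : Type} [Fintype ι] [DecidableEq ι]

/-- `idg / Inn` is cyclic of order four when `-1 ∈ Ω` and there is a similarity with non-square
multiplier, scalar square and `delta = -1`. -/
theorem idg_c4_of_sq (h2 : (2 : F) ≠ 0) (Q : QuadraticForm F (ι → F))
    (hQ : (QuadraticMap.polarBilin Q).Nondegenerate) (hn : 5 ≤ Fintype.card ι) (hH : HP2 Q)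
    (hne : ∃ v, Q v ≠ 0) (k : ℕ) (hk : Fintype.card ι = k + k)
    (hneg : ∃ g : ↥(Cfsg.isometryGroup F ⇑Q), g ∈ Cfsg.Omega F ⇑Q ∧
        ((g : Matrix.GeneralLinearGroup ι F) : Matrix ι ι F) = -1)
    (d : ↥(Cfsg.Geo.quadSimilarityGroup (F := F) ⇑Q)) (hns : ¬ IsSquare (mu Q d : F)) (ν : F)
    (hD : ((d : Matrix.GeneralLinearGroup ι F) : Matrix ι ι F)
      * ((d : Matrix.GeneralLinearGroup ι F) : Matrix ι ι F) = ν • 1)
    (hδ : delta Q hne k d = -1) :
    ∃ φ : ↥(idg Q hne k) →* Multiplicative (ZMod 4), Function.Surjective φ ∧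
      φ.ker = (Cfsg.Inn (Cfsg.POmega F ⇑Q)).subgroupOf (idg Q hne k) := by
  obtain ⟨w, hw⟩ := id hne
  obtain ⟨d₀, hd₀def⟩ : ∃ d₀ : ↥(Cfsg.Geo.quadSimilarityGroup (F := F) ⇑Q),
    d₀ = d * incl Q (reflO Q w) := ⟨_, rfl⟩
  have hb2 : delta Q hne k (incl Q (reflO Q w)) = -1 := by
    rw [delta_apply, mu_incl Q hne, inv_one, one_pow, mul_one, coe_incl]
    apply Units.ext
    rw [Matrix.GeneralLinearGroup.val_det_apply, coe_reflO Q w hw,
      Cfsg.Agent.Lib.Helper15.CartanD.refl_det Q w hw, Units.val_neg, Units.val_one]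
  have hd₀ : d₀ ∈ (delta Q hne k).ker := by
    rw [MonoidHom.mem_ker, hd₀def, map_mul, hδ, hb2, neg_mul_neg, one_mul]
  apply idg_c4 h2 Q hQ hn hH hne k hk hneg d₀ hd₀
  obtain ⟨w', hw'def⟩ : ∃ w' : ι → F,
    w' = ((d : Matrix.GeneralLinearGroup ι F) : Matrix ι ι F).mulVec w := ⟨_, rfl⟩
  have hw'Q : Q w' = (mu Q d : F) * Q w := by rw [hw'def]; exact mu_spec Q d w
  have hw'0 : Q w' ≠ 0 := by rw [hw'Q]; exact mul_ne_zero (Units.ne_zero _) hw
  have hconj := simConj_reflO Q d w hw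
  rw [← hw'def] at hconj
  have hDR : ((d : Matrix.GeneralLinearGroup ι F) : Matrix ι ι F)
        * ((reflO Q w : ↥(Cfsg.isometryGroup F ⇑Q)) : Matrix.GeneralLinearGroup ι F)
      = (((reflO Q w' : ↥(Cfsg.isometryGroup F ⇑Q)) : Matrix.GeneralLinearGroup ι F) :
          Matrix ι ι F) * ((d : Matrix.GeneralLinearGroup ι F) : Matrix ι ι F) := by
    have h1 := congrArg (fun s : ↥(Cfsg.isometryGroup F ⇑Q) =>
      (s : Matrix.GeneralLinearGroup ι F)) hconj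
    simp only [coe_simConj] at h1
    have h3 := mul_inv_eq_iff_eq_mul.1 h1
    have h4 := congrArg (fun X : Matrix.GeneralLinearGroup ι F => (X : Matrix ι ι F)) h3
    simp only [Units.val_mul] at h4
    exact h4
  have hmat : (((d₀ * d₀ : ↥(Cfsg.Geo.quadSimilarityGroup (F := F) ⇑Q)) :
        Matrix.GeneralLinearGroup ι F) : Matrix ι ι F)
      = ν • (((incl Q (reflO Q w' * reflO Q w) : ↥(Cfsg.Geo.quadSimilarityGroup (F := F) ⇑Q)) :
        Matrix.GeneralLinearGroup ι F) : Matrix ι ι F) := by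
    rw [hd₀def, Subgroup.coe_mul, Subgroup.coe_mul, coe_incl, coe_incl, coe_mul]
    simp only [Units.val_mul]
    rw [hDR, mul_assoc, ← hDR, ← mul_assoc ((d : Matrix.GeneralLinearGroup ι F) : Matrix ι ι F),
      hD, Matrix.smul_mul, one_mul, Matrix.mul_smul]
  have hsim : simAut Q (d₀ * d₀) = simAut Q (incl Q (reflO Q w' * reflO Q w)) :=
    simAut_congr Q _ _ ν hmat
  rw [hsim, simAut_incl]
  intro hin
  have hz := mem_omega_of_inn Q hQ hn hH hneg _ hin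
  have h3 := (prodRefl_mem_omega_iff h2 Q [w', w] (by
    intro y hy
    rw [List.mem_cons, List.mem_singleton] at hy
    rcases hy with rfl | rfl
    · exact hw'0
    · exact hw)).1 (by rw [prodRefl_cons, prodRefl_cons, prodRefl_nil, mul_one]; exact hz)
  apply hns
  have h4 : IsSquare (Q w ^ 2 * (mu Q d : F)) := by
    have h5 := h3.2
    simp only [List.map_cons, List.map_nil, List.prod_cons, List.prod_nil, mul_one] at h5
    rw [hw'Q] at h5
    have h6 : Q w ^ 2 * (mu Q d : F) = (mu Q d : F) * Q w * Q w := by ring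
    rw [h6]
    exact h5
  exact (Cfsg.Agent.Lib.Helper15.Gram.isSquare_sq_mul (Q w) _ hw).1 h4

end General

section Explicit

variable {F : Type*} [Field F] {m : ℕ}

/-- The matrix of `x ↦ ν y`, `y ↦ x`, `z ↦ u z̄` (`u = u₁ + u₂ ω` in the quadratic extension). -/
def emat (m : ℕ) (a b ν u₁ u₂ : F) :
    Matrix ((Fin m ⊕ Fin m) ⊕ Fin 2) ((Fin m ⊕ Fin m) ⊕ Fin 2) F :=
  Matrix.fromBlocks (Matrix.fromBlocks 0 (ν • (1 : Matrix (Fin m) (Fin m) F)) 1 0) 0 0
    !![u₁, a * u₁ + b * u₂; u₂, -u₁]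

theorem emat_mulVec (a b ν u₁ u₂ : F) (v : (Fin m ⊕ Fin m) ⊕ Fin 2 → F) :
    (emat m a b ν u₁ u₂).mulVec v
      = Sum.elim (Sum.elim (fun i => ν * v (Sum.inl (Sum.inr i)))
          (fun i => v (Sum.inl (Sum.inl i))))
        ![u₁ * v (Sum.inr 0) + (a * u₁ + b * u₂) * v (Sum.inr 1),
          u₂ * v (Sum.inr 0) - u₁ * v (Sum.inr 1)] := by
  funext i
  rcases i with (i | i) | i
  · simp [emat, Matrix.mulVec, dotProduct, Fintype.sum_sum_type, Matrix.one_apply]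
  · simp [emat, Matrix.mulVec, dotProduct, Fintype.sum_sum_type, Matrix.one_apply]
  · fin_cases i
    · simp [emat, Matrix.mulVec, dotProduct, Fintype.sum_sum_type]
    · simp [emat, Matrix.mulVec, dotProduct, Fintype.sum_sum_type]
      ring

theorem emat_Q (a b ν u₁ u₂ : F) (hν : ν = u₁ ^ 2 + a * u₁ * u₂ + b * u₂ ^ 2)
    (v : (Fin m ⊕ Fin m) ⊕ Fin 2 → F) :
    Cfsg.quadFormMinus m F a b ((emat m a b ν u₁ u₂).mulVec v)
      = ν * Cfsg.quadFormMinus m F a b v := by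
  rw [emat_mulVec]
  unfold Cfsg.quadFormMinus
  simp only [Sum.elim_inl, Sum.elim_inr, Matrix.cons_val_zero, Matrix.cons_val_one]
  have hs : ∑ i : Fin m, ν * v (Sum.inl (Sum.inr i)) * v (Sum.inl (Sum.inl i))
      = ν * ∑ i : Fin m, v (Sum.inl (Sum.inl i)) * v (Sum.inl (Sum.inr i)) := by
    rw [Finset.mul_sum]
    apply Finset.sum_congr rfl
    intro i _
    ring
  rw [hs, hν]
  ring

theorem emat_sq (a b ν u₁ u₂ : F) (hν : ν = u₁ ^ 2 + a * u₁ * u₂ + b * u₂ ^ 2) :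
    emat m a b ν u₁ u₂ * emat m a b ν u₁ u₂ = ν • 1 := by
  apply mat_ext
  intro v
  rw [← Matrix.mulVec_mulVec, emat_mulVec, emat_mulVec, Matrix.smul_mulVec, Matrix.one_mulVec]
  funext i
  rcases i with (i | i) | i
  · simp
  · simp
  · fin_cases i
    · simp
      rw [hν]
      ring
    · simp
      rw [hν]
      ring

theorem det_emat (a b ν u₁ u₂ : F) (hν : ν = u₁ ^ 2 + a * u₁ * u₂ + b * u₂ ^ 2) :
    (emat m a b ν u₁ u₂).det = (-ν) ^ (m + 1) := by
  have h1 : Matrix.fromBlocks (0 : Matrix (Fin m) (Fin m) F) (ν • (1 : Matrix (Fin m) (Fin m) F))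
        1 0
      = Matrix.fromBlocks (0 : Matrix (Fin m) (Fin m) F) 1 1 0
        * Matrix.fromBlocks (1 : Matrix (Fin m) (Fin m) F) 0 0 (ν • (1 : Matrix (Fin m) (Fin m) F)) := by
    rw [Matrix.fromBlocks_multiply]
    simp
  unfold emat
  rw [Matrix.det_fromBlocks_zero₂₁, h1, Matrix.det_mul,
    Cfsg.Agent.Lib.Helper15.Gram.det_swap_blocks, Matrix.det_fromBlocks_zero₂₁, Matrix.det_one,
    Matrix.det_smul, Matrix.det_one, Fintype.card_fin, Matrix.det_fin_two_of]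
  have h3 : u₁ * -u₁ - (a * u₁ + b * u₂) * u₂ = -ν := by
    rw [hν]
    ring
  rw [h3, pow_succ, neg_pow ν m]
  ring

end Explicit

section Minus

variable {F : Type*} [Field F] [Fintype F] {m : ℕ}

set_option maxHeartbeats 1000000 in
/-- For `m` even and `-1 ∈ Ω⁻`, the image of the kernel of `delta` modulo the inner automorphisms
is cyclic of order four. -/
theorem minus_c4 (h2 : (2 : F) ≠ 0) (hm : 3 ≤ m) (hme : Even m) (a b : F)
    (hab : ∀ z₁ z₂ : F, z₁ ^ 2 + a * z₁ * z₂ + b * z₂ ^ 2 = 0 → z₁ = 0 ∧ z₂ = 0)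
    (hne : ∃ v, minusQF m F a b v ≠ 0)
    (hneg : ∃ g : ↥(Cfsg.isometryGroup F ⇑(minusQF m F a b)),
      g ∈ Cfsg.Omega F ⇑(minusQF m F a b) ∧
      ((g : Matrix.GeneralLinearGroup ((Fin m ⊕ Fin m) ⊕ Fin 2) F) :
        Matrix ((Fin m ⊕ Fin m) ⊕ Fin 2) ((Fin m ⊕ Fin m) ⊕ Fin 2) F) = -1) :
    ∃ φ : ↥(idg (minusQF m F a b) hne (m + 1)) →* Multiplicative (ZMod 4),
      Function.Surjective φ ∧
      φ.ker = (Cfsg.Inn (Cfsg.POmega F ⇑(minusQF m F a b))).subgroupOf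
        (idg (minusQF m F a b) hne (m + 1)) := by
  classical
  have hn : 5 ≤ Fintype.card ((Fin m ⊕ Fin m) ⊕ Fin 2) := by
    rw [Fintype.card_sum, Fintype.card_sum, Fintype.card_fin, Fintype.card_fin]; omega
  have hk : Fintype.card ((Fin m ⊕ Fin m) ⊕ Fin 2) = (m + 1) + (m + 1) := by
    rw [Fintype.card_sum, Fintype.card_sum, Fintype.card_fin, Fintype.card_fin]; omega
  have hQ := minus_nondeg (F := F) m a b hab
  have hH := hp2_minus (F := F) m (by omega) a b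
  obtain ⟨ν, hν⟩ := FiniteField.exists_nonsquare (F := F) (ringChar_ne_two h2)
  have hν0 : ν ≠ 0 := by
    rintro rfl
    exact hν ⟨0, by simp⟩
  obtain ⟨x, hx⟩ := Cfsg.Agent.Lib.Helper15.CartanD.universal h2 (minusQF 0 F a b)
    (minus_nondeg (F := F) 0 a b hab) (by
      rw [Fintype.card_sum, Fintype.card_sum, Fintype.card_fin, Fintype.card_fin]) ν
  rw [minusQF_apply] at hx
  unfold Cfsg.quadFormMinus at hx
  rw [Finset.univ_eq_empty, Finset.sum_empty, zero_add] at hx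
  obtain ⟨u₁, hu₁⟩ : ∃ u₁ : F, u₁ = x (Sum.inr 0) := ⟨_, rfl⟩
  obtain ⟨u₂, hu₂⟩ : ∃ u₂ : F, u₂ = x (Sum.inr 1) := ⟨_, rfl⟩
  rw [← hu₁, ← hu₂] at hx
  have hνu : ν = u₁ ^ 2 + a * u₁ * u₂ + b * u₂ ^ 2 := hx.symm
  have hsq := emat_sq (m := m) a b ν u₁ u₂ hνu
  have hEQ : ∀ v, minusQF m F a b ((emat m a b ν u₁ u₂).mulVec v)
      = ν * minusQF m F a b v := by
    intro v
    rw [minusQF_apply, minusQF_apply]
    exact emat_Q a b ν u₁ u₂ hνu v
  obtain ⟨d, hd⟩ : ∃ d : ↥(Cfsg.Geo.quadSimilarityGroup (F := F) ⇑(minusQF m F a b)),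
      ((d : Matrix.GeneralLinearGroup ((Fin m ⊕ Fin m) ⊕ Fin 2) F) :
        Matrix ((Fin m ⊕ Fin m) ⊕ Fin 2) ((Fin m ⊕ Fin m) ⊕ Fin 2) F) = emat m a b ν u₁ u₂ :=
    ⟨⟨⟨emat m a b ν u₁ u₂, ν⁻¹ • emat m a b ν u₁ u₂, by
        rw [Matrix.mul_smul, hsq, smul_smul, inv_mul_cancel₀ hν0, one_smul], by
        rw [Matrix.smul_mul, hsq, smul_smul, inv_mul_cancel₀ hν0, one_smul]⟩,
      ⟨Units.mk0 ν hν0, hEQ⟩⟩, rfl⟩
  have hμ : (mu (minusQF m F a b) d : F) = ν :=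
    mu_unique _ hne _ ν (by rw [hd]; exact hEQ)
  apply idg_c4_of_sq h2 _ hQ hn hH hne (m + 1) hk hneg d (by rw [hμ]; exact hν) ν
    (by rw [hd]; exact hsq)
  rw [delta_apply]
  apply Units.ext
  rw [Units.val_mul, Matrix.GeneralLinearGroup.val_det_apply, hd, det_emat a b ν u₁ u₂ hνu,
    Units.val_pow_eq_pow_val, Units.val_inv_eq_inv_val, hμ, Units.val_neg, Units.val_one,
    ← mul_pow, neg_mul, mul_inv_cancel₀ hν0]
  exact Odd.neg_one_pow (Even.add_one hme)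

end Minus

end Cfsg.Agent.Lib.Helper15.MinusDiag
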