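import Mathlib
import Cfsg.Agent.Lib.Helper15.Spinor
import Cfsg.Agent.Lib.Helper15.OrthGen

set_option autoImplicit false

namespace Cfsg.Agent.Lib.Helper15.OrthSum

open Module Cfsg.Agent.Lib.Helper15.Spinor Cfsg.Agent.Lib.Helper15.OrthGen

variable {F : Type*} [Field F] {ι : Type} [Fintype ι] [DecidableEq ι]
  {κ : Type} [Fintype κ] [DecidableEq κ]

omit [Fintype ι] [DecidableEq ι] [Fintype κ] [DecidableEq κ] in
theorem sumQF_inl (Q₁ : QuadraticForm F (ι → F)) (Q₂ : QuadraticForm F (κ → F)) (u : ι → F) :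
    sumQF Q₁ Q₂ (Sum.elim u 0) = Q₁ u := by
  rw [sumQF_apply, Sum.elim_comp_inl, Sum.elim_comp_inr, map_zero, add_zero]

/-- The reflection in a vector of the first summand is the block diagonal matrix `diag(r, 1)`. -/
theorem sum_reflO (Q₁ : QuadraticForm F (ι → F)) (Q₂ : QuadraticForm F (κ → F)) (u : ι → F)
    (hu : Q₁ u ≠ 0) :
    ((reflO (sumQF Q₁ Q₂) (Sum.elim u 0) : Matrix.GeneralLinearGroup (ι ⊕ κ) F)
        : Matrix (ι ⊕ κ) (ι ⊕ κ) F)
      = Matrix.fromBlocks ((reflO Q₁ u : Matrix.GeneralLinearGroup ι F) : Matrix ι ι F) 0 0 1 := by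
  have hu' : sumQF Q₁ Q₂ (Sum.elim u 0) ≠ 0 := by rw [sumQF_inl]; exact hu
  rw [coe_reflO _ _ hu', coe_reflO _ _ hu]
  apply mat_ext
  intro x
  have hpol : QuadraticMap.polar ⇑(sumQF Q₁ Q₂) (Sum.elim u 0) x
      = QuadraticMap.polar ⇑Q₁ u (x ∘ Sum.inl) := by
    rw [polar_sum, Sum.elim_comp_inl, Sum.elim_comp_inr]
    have h0 : QuadraticMap.polar ⇑Q₂ 0 (x ∘ Sum.inr) = 0 := by simp [QuadraticMap.polar]
    rw [h0, add_zero]
  rw [refl_mulVec, sumQF_inl, hpol]
  funext i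
  rcases i with i | i
  · have h1 := congrFun (fromBlocks_mulVec_inl (Cfsg.reflectionMatrix ⇑Q₁ u) (1 : Matrix κ κ F) x) i
    rw [Function.comp_apply] at h1
    rw [h1, refl_mulVec]
    simp
  · have h1 := congrFun (fromBlocks_mulVec_inr (Cfsg.reflectionMatrix ⇑Q₁ u) (1 : Matrix κ κ F) x) i
    rw [Function.comp_apply] at h1
    rw [h1, Matrix.one_mulVec]
    simp

/-- A product of reflections of the first summand is `diag(g, 1)`. -/
theorem sum_prodRefl (Q₁ : QuadraticForm F (ι → F)) (Q₂ : QuadraticForm F (κ → F))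
    (vs : List (ι → F)) (hvs : ∀ v ∈ vs, Q₁ v ≠ 0) :
    ((prodRefl (sumQF Q₁ Q₂) (vs.map (fun u => Sum.elim u (0 : κ → F)))
        : Matrix.GeneralLinearGroup (ι ⊕ κ) F) : Matrix (ι ⊕ κ) (ι ⊕ κ) F)
      = Matrix.fromBlocks ((prodRefl Q₁ vs : Matrix.GeneralLinearGroup ι F) : Matrix ι ι F)
          0 0 1 := by
  induction vs with
  | nil =>
    rw [List.map_nil]
    unfold prodRefl
    rw [List.map_nil, List.map_nil, List.prod_nil, List.prod_nil, coe_one, coe_one,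
      Matrix.fromBlocks_one]
  | cons v vs ih =>
    have e1 : prodRefl (sumQF Q₁ Q₂) ((v :: vs).map (fun u => Sum.elim u (0 : κ → F)))
        = reflO (sumQF Q₁ Q₂) (Sum.elim v 0)
          * prodRefl (sumQF Q₁ Q₂) (vs.map (fun u => Sum.elim u (0 : κ → F))) := by
      unfold prodRefl
      rw [List.map_cons, List.map_cons, List.prod_cons]
    have e2 : prodRefl Q₁ (v :: vs) = reflO Q₁ v * prodRefl Q₁ vs := by
      unfold prodRefl
      rw [List.map_cons, List.prod_cons]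
    rw [e1, e2, coe_mul, coe_mul, ih (fun w hw => hvs w (List.mem_cons_of_mem _ hw)),
      sum_reflO Q₁ Q₂ v (hvs v (List.mem_cons_self ..)), Matrix.fromBlocks_multiply]
    simp

omit [Fintype ι] [DecidableEq ι] [Fintype κ] [DecidableEq κ] in
theorem sum_norms (Q₁ : QuadraticForm F (ι → F)) (Q₂ : QuadraticForm F (κ → F))
    (vs : List (ι → F)) :
    ((vs.map (fun u => Sum.elim u (0 : κ → F))).map (fun v => sumQF Q₁ Q₂ v))
      = vs.map (fun v => Q₁ v) := by
  rw [List.map_map]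
  apply List.map_congr_left
  intro u _
  exact sumQF_inl Q₁ Q₂ u

omit [Fintype ι] [DecidableEq ι] [Fintype κ] [DecidableEq κ] in
theorem sum_nonsing (Q₁ : QuadraticForm F (ι → F)) (Q₂ : QuadraticForm F (κ → F))
    (vs : List (ι → F)) (hvs : ∀ v ∈ vs, Q₁ v ≠ 0) :
    ∀ w ∈ vs.map (fun u => Sum.elim u (0 : κ → F)), sumQF Q₁ Q₂ w ≠ 0 := by
  intro w hw
  rw [List.mem_map] at hw
  obtain ⟨u, hu, rfl⟩ := hw
  rw [sumQF_inl]
  exact hvs u hu

end Cfsg.Agent.Lib.Helper15.OrthSum
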