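import Mathlib
import Cfsg.Agent.Lib.Helper15.TwoRank
import Cfsg.Agent.Lib.Helper15.OrthGen
import Cfsg.Agent.Lib.Helper15.Dickson
import Cfsg.Agent.Lib.Helper15.QForm

/-!
# Reflections of one norm class generate a subgroup of index two

For a non-degenerate quadratic form over a finite field of odd characteristic, the reflections in
vectors whose norm lies in a fixed square class generate a subgroup of index two of the isometry
group (dimension four over the field of three elements excepted).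
-/

set_option autoImplicit false

namespace Cfsg.Agent.Lib.Helper15.ReflIndex

open Module Cfsg.Agent.Lib.Helper15.Spinor Cfsg.Agent.Lib.Helper15.CD2
  Cfsg.Agent.Lib.Helper15.Witt Cfsg.Agent.Lib.Helper15.Frames
  Cfsg.Agent.Lib.Helper15.TwoRank

variable {F : Type*} [Field F] [Fintype F] {ι : Type} [Fintype ι] [DecidableEq ι]

omit [Fintype F] [Fintype ι] [DecidableEq ι] in
theorem Q_comb (Q : QuadraticForm F (ι → F)) (w w' : ι → F) (a b : F) :
    Q (a • w + b • w') = a ^ 2 * Q w + b ^ 2 * Q w' + a * b * QuadraticMap.polar ⇑Q w w' := by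
  rw [QuadraticMap.map_add ⇑Q, QuadraticMap.map_smul, QuadraticMap.map_smul,
    QuadraticMap.polar_smul_left, QuadraticMap.polar_smul_right]
  simp only [smul_eq_mul]
  ring

omit [Fintype F] [Fintype ι] [DecidableEq ι] in
theorem polar_self' (Q : QuadraticForm F (ι → F)) (w : ι → F) :
    QuadraticMap.polar ⇑Q w w = 2 * Q w := by
  rw [QuadraticMap.polar_self]
  simp [two_mul]

omit [Fintype F] in
/-- The product of three reflections in vectors of a plane is a reflection. -/
theorem triple_refl (Q : QuadraticForm F (ι → F)) (w w' : ι → F) (α β : F)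
    (hw : Q w ≠ 0) (hw' : Q w' ≠ 0) (hu : Q (α • w + β • w') ≠ 0) :
    Q ((β * Q w') • w + (α * Q w) • w') = Q w * Q w' * Q (α • w + β • w') ∧
    reflO Q w * reflO Q (α • w + β • w') * reflO Q w'
      = reflO Q ((β * Q w') • w + (α * Q w) • w') := by
  have hn : Q ((β * Q w') • w + (α * Q w) • w') = Q w * Q w' * Q (α • w + β • w') := by
    rw [Q_comb, Q_comb]
    ring
  refine ⟨hn, ?_⟩
  have hu' : Q ((β * Q w') • w + (α * Q w) • w') ≠ 0 := by
    rw [hn]
    exact mul_ne_zero (mul_ne_zero hw hw') hu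
  apply act_ext
  intro x
  rw [act_mul, act_mul, act_reflO Q w' hw', act_reflO Q _ hu, act_reflO Q w hw,
    act_reflO Q _ hu', hn]
  have hC : Q (α • w + β • w')
      = α ^ 2 * Q w + β ^ 2 * Q w' + α * β * QuadraticMap.polar ⇑Q w w' := Q_comb Q w w' α β
  simp only [QuadraticMap.polar_add_left, QuadraticMap.polar_smul_left,
    QuadraticMap.polar_add_right, QuadraticMap.polar_sub_right, QuadraticMap.polar_smul_right,
    smul_eq_mul, polar_self']
  generalize QuadraticMap.polar ⇑Q w x = p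
  generalize QuadraticMap.polar ⇑Q w' x = p'
  generalize QuadraticMap.polar ⇑Q w w' = M at hC ⊢
  generalize Q (α • w + β • w') = C at hC hu ⊢
  generalize Q w = A at hw hC ⊢
  generalize Q w' = A' at hw' hC ⊢
  match_scalars
  · ring
  · field_simp
    rw [hC]
    ring
  · field_simp
    rw [hC]
    ring

/-- Vectors whose norm lies in the square class of `c`. -/
def TypeC (Q : QuadraticForm F (ι → F)) (c : F) (u : ι → F) : Prop :=
  ∃ t : F, t ≠ 0 ∧ Q u = c * t ^ 2

omit [Fintype F] [Fintype ι] [DecidableEq ι] in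
theorem typeC_ne (Q : QuadraticForm F (ι → F)) (c : F) (hc : c ≠ 0) (u : ι → F)
    (hu : TypeC Q c u) : Q u ≠ 0 := by
  obtain ⟨t, ht, hQ⟩ := hu
  rw [hQ]
  exact mul_ne_zero hc (pow_ne_zero 2 ht)

/-- Two reflections of the same non-`c` class whose vectors span a non-degenerate plane have their
product in any subgroup containing the reflections of class `c`. -/
theorem pair_mem (h2 : (2 : F) ≠ 0) (Q : QuadraticForm F (ι → F)) (c : F) (hc : c ≠ 0)
    (N : Subgroup ↥(Cfsg.isometryGroup F ⇑Q)) (hN : ∀ u, TypeC Q c u → reflO Q u ∈ N)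
    (w w' : ι → F) (hw : Q w ≠ 0) (hw' : Q w' ≠ 0) (hsq : IsSquare (Q w * Q w'))
    (hdisc : QuadraticMap.polar ⇑Q w w' ^ 2 ≠ 4 * Q w * Q w') :
    reflO Q w * reflO Q w' ∈ N := by
  have hww : QuadraticMap.polar ⇑Q w w = 2 * Q w := polar_self' Q w
  have hww' : QuadraticMap.polar ⇑Q w' w' = 2 * Q w' := polar_self' Q w'
  have hcomm : QuadraticMap.polar ⇑Q w' w = QuadraticMap.polar ⇑Q w w' :=
    QuadraticMap.polar_comm _ _ _
  -- the two coefficients of a vector orthogonal to `w` and `w'` vanish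
  have hzero : ∀ a b : F, QuadraticMap.polar ⇑Q (a • w + b • w') w = 0 →
      QuadraticMap.polar ⇑Q (a • w + b • w') w' = 0 → a = 0 ∧ b = 0 := by
    intro a b h1 h3
    rw [QuadraticMap.polar_add_left, QuadraticMap.polar_smul_left, QuadraticMap.polar_smul_left,
      hww, hcomm, smul_eq_mul, smul_eq_mul] at h1
    rw [QuadraticMap.polar_add_left, QuadraticMap.polar_smul_left, QuadraticMap.polar_smul_left,
      hww', smul_eq_mul, smul_eq_mul] at h3
    have hd : 4 * Q w * Q w' - QuadraticMap.polar ⇑Q w w' ^ 2 ≠ 0 :=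
      sub_ne_zero.2 (Ne.symm hdisc)
    have ha : (4 * Q w * Q w' - QuadraticMap.polar ⇑Q w w' ^ 2) * a = 0 := by
      linear_combination (2 * Q w') * h1 - QuadraticMap.polar ⇑Q w w' * h3
    have hb : (4 * Q w * Q w' - QuadraticMap.polar ⇑Q w w' ^ 2) * b = 0 := by
      linear_combination (2 * Q w) * h3 - QuadraticMap.polar ⇑Q w w' * h1
    exact ⟨(mul_eq_zero.1 ha).resolve_left hd, (mul_eq_zero.1 hb).resolve_left hd⟩
  have hli : LinearIndependent F ![w, w'] := by
    rw [LinearIndependent.pair_iff]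
    intro a b hab
    apply hzero a b
    · rw [hab]
      simp [QuadraticMap.polar]
    · rw [hab]
      simp [QuadraticMap.polar]
  have hmem : ∀ x ∈ Submodule.span F (Set.range ![w, w']), ∃ a b : F, x = a • w + b • w' := by
    intro x hx
    obtain ⟨d, rfl⟩ := (Submodule.mem_span_range_iff_exists_fun F).1 hx
    exact ⟨d 0, d 1, by simp [Fin.sum_univ_two]⟩
  have hwU : w ∈ Submodule.span F (Set.range ![w, w']) := Submodule.subset_span ⟨0, rfl⟩
  have hw'U : w' ∈ Submodule.span F (Set.range ![w, w']) := Submodule.subset_span ⟨1, rfl⟩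
  have hgood : Good Q (Submodule.span F (Set.range ![w, w'])) := by
    constructor
    · intro h
      rw [h] at hwU
      rw [(Submodule.mem_bot F).1 hwU] at hw
      exact hw (map_zero _)
    · intro x hx hxy
      obtain ⟨a, b, rfl⟩ := hmem x hx
      obtain ⟨ha, hb⟩ := hzero a b (hxy w hwU) (hxy w' hw'U)
      rw [ha, hb]
      simp
  have hfr : 2 ≤ finrank F ↥(Submodule.span F (Set.range ![w, w'])) := by
    rw [finrank_span_eq_card hli, Fintype.card_fin]
  obtain ⟨u, huU, hQu⟩ := universal_sub h2 Q _ hgood hfr c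
  obtain ⟨α, β, rfl⟩ := hmem u huU
  have hu0 : Q (α • w + β • w') ≠ 0 := by rw [hQu]; exact hc
  obtain ⟨hn, htriple⟩ := triple_refl Q w w' α β hw hw' hu0
  obtain ⟨r, hr⟩ := hsq
  have hr0 : r ≠ 0 := by
    rintro rfl
    rw [mul_zero] at hr
    exact mul_ne_zero hw hw' hr
  have h1 : reflO Q ((β * Q w') • w + (α * Q w) • w') ∈ N := by
    apply hN
    refine ⟨r, hr0, ?_⟩
    rw [hn, hQu, hr]
    ring
  have h3 : reflO Q w * reflO Q (α • w + β • w') * (reflO Q w)⁻¹ ∈ N := by
    rw [conj_reflO Q (reflO Q w) _ hu0]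
    apply hN
    refine ⟨1, one_ne_zero, ?_⟩
    have e : Q (((reflO Q w : Matrix.GeneralLinearGroup ι F) : Matrix ι ι F).mulVec
        (α • w + β • w')) = Q (α • w + β • w') := act_Q Q (reflO Q w) _
    rw [e, hQu]
    ring
  have h4 : reflO Q w * reflO Q w'
      = reflO Q w * reflO Q (α • w + β • w') * (reflO Q w)⁻¹
        * reflO Q ((β * Q w') • w + (α * Q w) • w') := by
    rw [← htriple]
    have e1 : reflO Q w * reflO Q (α • w + β • w') * (reflO Q w)⁻¹
        * (reflO Q w * reflO Q (α • w + β • w') * reflO Q w')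
        = reflO Q w * (reflO Q (α • w + β • w') * reflO Q (α • w + β • w')) * reflO Q w' := by
      group
    rw [e1, reflO_mul_self, mul_one]
  rw [h4]
  exact N.mul_mem h3 h1

/-- The product of two reflections whose norms have a square product lies in any subgroup
containing the reflections of class `c`. -/
theorem star (h2 : (2 : F) ≠ 0) (Q : QuadraticForm F (ι → F))
    (hQ : (QuadraticMap.polarBilin Q).Nondegenerate) (c : F) (hc : c ≠ 0)
    (N : Subgroup ↥(Cfsg.isometryGroup F ⇑Q)) (hN : ∀ u, TypeC Q c u → reflO Q u ∈ N)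
    (hcase : (∃ τ : F, τ ≠ 0 ∧ τ ^ 2 ≠ 1) ∨ Fintype.card ι = 2 ∨ 5 ≤ Fintype.card ι)
    (w w₀ : ι → F) (hw : Q w ≠ 0) (hw₀ : Q w₀ ≠ 0) (hsq : IsSquare (Q w * Q w₀)) :
    reflO Q w * reflO Q w₀ ∈ N := by
  by_cases hdisc : QuadraticMap.polar ⇑Q w w₀ ^ 2 ≠ 4 * Q w * Q w₀
  · exact pair_mem h2 Q c hc N hN w w₀ hw hw₀ hsq hdisc
  rw [not_not] at hdisc
  have h2A : 2 * Q w ≠ 0 := mul_ne_zero h2 hw
  have h4A : 4 * Q w ≠ 0 := by
    have e : (4 : F) = 2 * 2 := by norm_num
    rw [e]
    exact mul_ne_zero (mul_ne_zero h2 h2) hw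
  obtain ⟨lam, hlam⟩ : ∃ lam : F, lam * (2 * Q w) = QuadraticMap.polar ⇑Q w w₀ :=
    ⟨QuadraticMap.polar ⇑Q w w₀ / (2 * Q w), div_mul_cancel₀ _ h2A⟩
  have hlam0 : lam ≠ 0 := by
    rintro rfl
    rw [zero_mul] at hlam
    rw [← hlam] at hdisc
    have h0 : 4 * Q w * Q w₀ = 0 := by rw [← hdisc]; ring
    exact mul_ne_zero h4A hw₀ h0
  have hQw₀ : Q w₀ = lam ^ 2 * Q w := by
    have h0 : (4 * Q w) * (Q w₀ - lam ^ 2 * Q w) = 0 := by
      linear_combination -hdisc - (lam * (2 * Q w) + QuadraticMap.polar ⇑Q w w₀) * hlam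
    exact sub_eq_zero.1 ((mul_eq_zero.1 h0).resolve_left h4A)
  obtain ⟨y, hy⟩ : ∃ y, y = w₀ - lam • w := ⟨_, rfl⟩
  have hw₀eq : w₀ = lam • w + y := by rw [hy]; abel
  have hwy : QuadraticMap.polar ⇑Q w y = 0 := by
    rw [hy, QuadraticMap.polar_sub_right, QuadraticMap.polar_smul_right, polar_self', smul_eq_mul]
    linear_combination -hlam
  have hyw : QuadraticMap.polar ⇑Q y w = 0 := by rw [QuadraticMap.polar_comm]; exact hwy
  have hQy : Q y = 0 := by
    have e : y = (1 : F) • w₀ + (-lam) • w := by rw [hy]; module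
    have h0 : (4 * Q w) * Q y = 0 := by
      rw [e, Q_comb, QuadraticMap.polar_comm ⇑Q w₀ w]
      linear_combination (lam * (2 * Q w) - QuadraticMap.polar ⇑Q w w₀) * hlam - hdisc
    exact (mul_eq_zero.1 h0).resolve_left h4A
  have hyy : QuadraticMap.polar ⇑Q y y = 0 := by rw [polar_self', hQy, mul_zero]
  by_cases hy0 : y = 0
  · rw [hy0, add_zero] at hw₀eq
    rw [hw₀eq, Cfsg.Agent.Lib.Helper15.Dickson.reflO_smul Q lam hlam0 w hw, reflO_mul_self]
    exact N.one_mem
  have hnd : ∀ x, (∀ z, QuadraticMap.polar ⇑Q x z = 0) → x = 0 := fun x hx => hQ.1 x hx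
  have hchain : ∀ w'' : ι → F, Q w'' ≠ 0 → IsSquare (Q w * Q w'') → IsSquare (Q w'' * Q w₀) →
      QuadraticMap.polar ⇑Q w w'' ^ 2 ≠ 4 * Q w * Q w'' →
      QuadraticMap.polar ⇑Q w'' w₀ ^ 2 ≠ 4 * Q w'' * Q w₀ → reflO Q w * reflO Q w₀ ∈ N := by
    intro w'' h0 s1 s2 d1 d2
    have e : reflO Q w * reflO Q w₀
        = (reflO Q w * reflO Q w'') * (reflO Q w'' * reflO Q w₀) := by
      rw [mul_assoc, ← mul_assoc (reflO Q w''), reflO_mul_self, one_mul]
    rw [e]
    exact N.mul_mem (pair_mem h2 Q c hc N hN w w'' hw h0 s1 d1)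
      (pair_mem h2 Q c hc N hN w'' w₀ h0 hw₀ s2 d2)
  -- a singular partner of `y` orthogonal to `w`
  obtain ⟨f, hQf, hyf⟩ := Cfsg.Agent.Lib.Helper15.QForm.exists_partner Q hnd y hy0 hQy
  obtain ⟨mu, hmu⟩ : ∃ mu : F, mu * (2 * Q w) = QuadraticMap.polar ⇑Q f w :=
    ⟨QuadraticMap.polar ⇑Q f w / (2 * Q w), div_mul_cancel₀ _ h2A⟩
  obtain ⟨y', hQy', hyy', hy'w⟩ : ∃ y', Q y' = 0 ∧ QuadraticMap.polar ⇑Q y y' = 1
      ∧ QuadraticMap.polar ⇑Q y' w = 0 := by
    have hf1w : QuadraticMap.polar ⇑Q (f - mu • w) w = 0 := by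
      rw [QuadraticMap.polar_sub_left, QuadraticMap.polar_smul_left, polar_self', smul_eq_mul]
      linear_combination -hmu
    have hyf1 : QuadraticMap.polar ⇑Q y (f - mu • w) = 1 := by
      rw [QuadraticMap.polar_sub_right, QuadraticMap.polar_smul_right, hyf, hyw]
      simp
    refine ⟨(f - mu • w) - Q (f - mu • w) • y, ?_, ?_, ?_⟩
    · have e : (f - mu • w) - Q (f - mu • w) • y
          = (1 : F) • (f - mu • w) + (-Q (f - mu • w)) • y := by module
      rw [e, Q_comb, hQy, QuadraticMap.polar_comm ⇑Q (f - mu • w) y, hyf1]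
      ring
    · rw [QuadraticMap.polar_sub_right, QuadraticMap.polar_smul_right, hyf1, hyy]
      simp
    · rw [QuadraticMap.polar_sub_left, QuadraticMap.polar_smul_left, hf1w, hyw]
      simp
  have hwy' : QuadraticMap.polar ⇑Q w y' = 0 := by rw [QuadraticMap.polar_comm]; exact hy'w
  have hy'y : QuadraticMap.polar ⇑Q y' y = 1 := by rw [QuadraticMap.polar_comm]; exact hyy'
  have hy'y' : QuadraticMap.polar ⇑Q y' y' = 0 := by rw [polar_self', hQy', mul_zero]
  rcases hcase with ⟨τ, hτ0, hτ1⟩ | hcard | hcard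
  · -- a field with more than three elements
    have hs : Q w * (τ ^ 2 - 1) ≠ 0 := mul_ne_zero hw (sub_ne_zero.2 hτ1)
    obtain ⟨β, hβ0, hfβ⟩ : ∃ β : F, β ≠ 0 ∧
        β ^ 2 + 4 * Q w * lam * β - 4 * Q w * lam ^ 2 * (Q w * (τ ^ 2 - 1)) ≠ 0 := by
      by_cases h1 : (1 : F) ^ 2 + 4 * Q w * lam * 1
          - 4 * Q w * lam ^ 2 * (Q w * (τ ^ 2 - 1)) ≠ 0
      · exact ⟨1, one_ne_zero, h1⟩
      · rw [not_not] at h1
        refine ⟨-1, neg_ne_zero.2 one_ne_zero, ?_⟩
        intro h3
        have h8 : (2 : F) * (4 * Q w) * lam = 0 := by linear_combination h1 - h3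
        exact mul_ne_zero (mul_ne_zero h2 h4A) hlam0 h8
    obtain ⟨α, hα⟩ : ∃ α : F, α * β = Q w * (τ ^ 2 - 1) :=
      ⟨Q w * (τ ^ 2 - 1) / β, div_mul_cancel₀ _ hβ0⟩
    have hQw'' : Q (w + α • y + β • y') = Q w * τ ^ 2 := by
      rw [add_assoc, QuadraticMap.map_add ⇑Q, Q_comb, hQy, hQy', hyy',
        QuadraticMap.polar_add_right, QuadraticMap.polar_smul_right,
        QuadraticMap.polar_smul_right, hwy, hwy']
      simp only [smul_eq_mul, mul_zero, add_zero, mul_one, zero_add]
      linear_combination hα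
    have hp1 : QuadraticMap.polar ⇑Q w (w + α • y + β • y') = 2 * Q w := by
      rw [QuadraticMap.polar_add_right, QuadraticMap.polar_add_right,
        QuadraticMap.polar_smul_right, QuadraticMap.polar_smul_right, hwy, hwy', polar_self']
      simp
    have hp2 : QuadraticMap.polar ⇑Q (w + α • y + β • y') w₀ = 2 * Q w * lam + β := by
      rw [hw₀eq]
      simp only [QuadraticMap.polar_add_left, QuadraticMap.polar_add_right,
        QuadraticMap.polar_smul_left, QuadraticMap.polar_smul_right, polar_self', hwy, hyw,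
        hyy, hy'w, hy'y, smul_eq_mul]
      ring
    refine hchain (w + α • y + β • y') ?_ ?_ ?_ ?_ ?_
    · rw [hQw'']
      exact mul_ne_zero hw (pow_ne_zero 2 hτ0)
    · rw [hQw'']
      exact ⟨Q w * τ, by ring⟩
    · rw [hQw'', hQw₀]
      exact ⟨Q w * τ * lam, by ring⟩
    · rw [hp1, hQw'']
      intro h
      apply hs
      have h0 : (4 * Q w) * (Q w * (τ ^ 2 - 1)) = 0 := by linear_combination -h
      exact (mul_eq_zero.1 h0).resolve_left h4A
    · rw [hp2, hQw'', hQw₀]
      intro h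
      apply hfβ
      linear_combination h
  · -- dimension two: no singular vector orthogonal to `w`
    exfalso
    have hw0 : w ≠ 0 := by
      rintro rfl
      exact hw (map_zero _)
    have hyP : y ∈ perp Q (Submodule.span F ({w} : Set (ι → F))) := by
      intro s hs
      obtain ⟨a, rfl⟩ := Submodule.mem_span_singleton.1 hs
      rw [QuadraticMap.polar_smul_right, hyw, smul_zero]
    have hfr : finrank F ↥(perp Q (Submodule.span F ({w} : Set (ι → F)))) = 1 := by
      rw [finrank_perp Q hQ, finrank_span_singleton hw0, hcard]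
    have hall := (finrank_eq_one_iff_of_nonzero' (⟨y, hyP⟩ :
      ↥(perp Q (Submodule.span F ({w} : Set (ι → F))))) (fun h => hy0 (congrArg Subtype.val h))).1 hfr
    apply hy0
    apply hnd
    intro z
    obtain ⟨k, hk⟩ : ∃ k : F, k * (2 * Q w) = QuadraticMap.polar ⇑Q z w :=
      ⟨QuadraticMap.polar ⇑Q z w / (2 * Q w), div_mul_cancel₀ _ h2A⟩
    have hzP : z - k • w ∈ perp Q (Submodule.span F ({w} : Set (ι → F))) := by
      intro s hs
      obtain ⟨a, rfl⟩ := Submodule.mem_span_singleton.1 hs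
      rw [QuadraticMap.polar_smul_right, QuadraticMap.polar_sub_left,
        QuadraticMap.polar_smul_left, polar_self', smul_eq_mul, smul_eq_mul]
      linear_combination -a * hk
    obtain ⟨d, hd⟩ := hall ⟨z - k • w, hzP⟩
    have hd' : d • y = z - k • w := congrArg Subtype.val hd
    have hz : z = d • y + k • w := by rw [hd']; abel
    rw [hz, QuadraticMap.polar_add_right, QuadraticMap.polar_smul_right,
      QuadraticMap.polar_smul_right, hyy, hyw]
    simp
  · -- dimension at least five: a vector of the right norm orthogonal to `w` and `w₀`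
    have hQ1 : Q (y + y') = 1 := by
      have e : y + y' = (1 : F) • y + (1 : F) • y' := by module
      rw [e, Q_comb, hQy, hQy', hyy']
      ring
    have hQ2 : Q (y - y') = -1 := by
      have e : y - y' = (1 : F) • y + (-1 : F) • y' := by module
      rw [e, Q_comb, hQy, hQy', hyy']
      ring
    have h01 : QuadraticMap.polar ⇑Q w (y + y') = 0 := by
      rw [QuadraticMap.polar_add_right, hwy, hwy', add_zero]
    have h02 : QuadraticMap.polar ⇑Q w (y - y') = 0 := by
      rw [QuadraticMap.polar_sub_right, hwy, hwy', sub_zero]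
    have h12 : QuadraticMap.polar ⇑Q (y + y') (y - y') = 0 := by
      rw [QuadraticMap.polar_add_left, QuadraticMap.polar_sub_right,
        QuadraticMap.polar_sub_right, hyy, hyy', hy'y, hy'y']
      ring
    have he : Frame Q ![w, y + y', y - y'] := by
      constructor
      · intro i
        fin_cases i
        · exact hw
        · change Q (y + y') ≠ 0
          rw [hQ1]
          exact one_ne_zero
        · change Q (y - y') ≠ 0
          rw [hQ2]
          exact neg_ne_zero.2 one_ne_zero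
      · intro i j hij
        fin_cases i <;> fin_cases j
        · exact absurd rfl hij
        · exact h01
        · exact h02
        · change QuadraticMap.polar ⇑Q (y + y') w = 0
          rw [QuadraticMap.polar_comm]
          exact h01
        · exact absurd rfl hij
        · exact h12
        · change QuadraticMap.polar ⇑Q (y - y') w = 0
          rw [QuadraticMap.polar_comm]
          exact h02
        · change QuadraticMap.polar ⇑Q (y - y') (y + y') = 0
          rw [QuadraticMap.polar_comm]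
          exact h12
        · exact absurd rfl hij
    have hgood := good_perp h2 Q hQ ![w, y + y', y - y'] he (by omega)
    have hfr : 2 ≤ finrank F ↥(perp Q (Submodule.span F (Set.range ![w, y + y', y - y']))) := by
      rw [finrank_perp Q hQ]
      have h3 := finrank_span_frame (F := F) ![w, y + y', y - y']
      omega
    obtain ⟨w'', hw''P, hQw''⟩ := universal_sub h2 Q _ hgood hfr (Q w)
    have hp0 : QuadraticMap.polar ⇑Q w'' w = 0 := hw''P w (Submodule.subset_span ⟨0, rfl⟩)
    have hp1 : QuadraticMap.polar ⇑Q w'' (y + y') = 0 :=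
      hw''P _ (Submodule.subset_span ⟨1, rfl⟩)
    have hp2 : QuadraticMap.polar ⇑Q w'' (y - y') = 0 :=
      hw''P _ (Submodule.subset_span ⟨2, rfl⟩)
    have hpy : QuadraticMap.polar ⇑Q w'' y = 0 := by
      rw [QuadraticMap.polar_add_right] at hp1
      rw [QuadraticMap.polar_sub_right] at hp2
      have h0 : 2 * QuadraticMap.polar ⇑Q w'' y = 0 := by linear_combination hp1 + hp2
      exact (mul_eq_zero.1 h0).resolve_left h2
    have hpw₀ : QuadraticMap.polar ⇑Q w'' w₀ = 0 := by
      rw [hw₀eq, QuadraticMap.polar_add_right, QuadraticMap.polar_smul_right, hp0, hpy]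
      simp
    have hpw : QuadraticMap.polar ⇑Q w w'' = 0 := by rw [QuadraticMap.polar_comm]; exact hp0
    refine hchain w'' ?_ ?_ ?_ ?_ ?_
    · rw [hQw'']
      exact hw
    · rw [hQw'']
      exact ⟨Q w, rfl⟩
    · rw [hQw'']
      exact hsq
    · rw [hpw, hQw'']
      intro h
      have h0 : (4 * Q w) * Q w = 0 := by linear_combination -h
      exact mul_ne_zero h4A hw h0
    · rw [hpw₀, hQw'']
      intro h
      have h0 : (4 * Q w) * Q w₀ = 0 := by linear_combination -h
      exact mul_ne_zero h4A hw₀ h0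

omit [Fintype F] [Fintype ι] [DecidableEq ι] in
theorem normal_closure_of_conj {G : Type*} [Group G] (s : Set G)
    (h : ∀ g x, x ∈ s → g * x * g⁻¹ ∈ s) : (Subgroup.closure s).Normal := by
  constructor
  intro n hn g
  induction hn using Subgroup.closure_induction with
  | mem x hx => exact Subgroup.subset_closure (h g x hx)
  | one => simp
  | mul x y _ _ hx hy =>
    have e : g * (x * y) * g⁻¹ = (g * x * g⁻¹) * (g * y * g⁻¹) := by group
    rw [e]
    exact (Subgroup.closure s).mul_mem hx hy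
  | inv x _ hx =>
    have e : g * x⁻¹ * g⁻¹ = (g * x * g⁻¹)⁻¹ := by group
    rw [e]
    exact (Subgroup.closure s).inv_mem hx

/-- **Index two**: the reflections of one norm class generate a subgroup of index two. -/
theorem refl_index (h2 : (2 : F) ≠ 0) (Q : QuadraticForm F (ι → F))
    (hQ : (QuadraticMap.polarBilin Q).Nondegenerate) (hn : 2 ≤ Fintype.card ι)
    (hcase : (∃ τ : F, τ ≠ 0 ∧ τ ^ 2 ≠ 1) ∨ Fintype.card ι = 2 ∨ 5 ≤ Fintype.card ι)
    (c : F) (hc : c ≠ 0) :
    (Subgroup.closure {g : ↥(Cfsg.isometryGroup F ⇑Q) | ∃ (v : ι → F) (t : F), t ≠ 0 ∧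
      Q v = c * t ^ 2 ∧ ((g : Matrix.GeneralLinearGroup ι F) : Matrix ι ι F)
        = Cfsg.reflectionMatrix ⇑Q v}).index = 2 := by
  have hnd : ∀ x, (∀ z, QuadraticMap.polar ⇑Q x z = 0) → x = 0 := fun x hx => hQ.1 x hx
  have hgen : ∀ g : ↥(Cfsg.isometryGroup F ⇑Q),
      g ∈ {g : ↥(Cfsg.isometryGroup F ⇑Q) | ∃ (v : ι → F) (t : F), t ≠ 0 ∧
        Q v = c * t ^ 2 ∧ ((g : Matrix.GeneralLinearGroup ι F) : Matrix ι ι F)
          = Cfsg.reflectionMatrix ⇑Q v} ↔ ∃ u, TypeC Q c u ∧ g = reflO Q u := by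
    intro g
    constructor
    · rintro ⟨v, t, ht, hQv, hg⟩
      refine ⟨v, ⟨t, ht, hQv⟩, ?_⟩
      apply iso_ext
      rw [hg, coe_reflO Q v (typeC_ne Q c hc v ⟨t, ht, hQv⟩)]
    · rintro ⟨u, ⟨t, ht, hQu⟩, rfl⟩
      exact ⟨u, t, ht, hQu, coe_reflO Q u (typeC_ne Q c hc u ⟨t, ht, hQu⟩)⟩
  have hnormal : (Subgroup.closure {g : ↥(Cfsg.isometryGroup F ⇑Q) | ∃ (v : ι → F) (t : F),
      t ≠ 0 ∧ Q v = c * t ^ 2 ∧ ((g : Matrix.GeneralLinearGroup ι F) : Matrix ι ι F)
        = Cfsg.reflectionMatrix ⇑Q v}).Normal := by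
    apply normal_closure_of_conj
    intro g x hx
    obtain ⟨u, hu, rfl⟩ := (hgen x).1 hx
    rw [hgen, conj_reflO Q g u (typeC_ne Q c hc u hu)]
    obtain ⟨t, ht, hQu⟩ := hu
    refine ⟨_, ⟨t, ht, ?_⟩, rfl⟩
    rw [← hQu]
    exact act_Q Q g u
  generalize hNdef : Subgroup.closure {g : ↥(Cfsg.isometryGroup F ⇑Q) | ∃ (v : ι → F) (t : F),
      t ≠ 0 ∧ Q v = c * t ^ 2 ∧ ((g : Matrix.GeneralLinearGroup ι F) : Matrix ι ι F)
        = Cfsg.reflectionMatrix ⇑Q v} = N at hnormal ⊢
  have hN : ∀ u, TypeC Q c u → reflO Q u ∈ N := by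
    intro u hu
    rw [← hNdef]
    exact Subgroup.subset_closure ((hgen _).2 ⟨u, hu, rfl⟩)
  obtain ⟨δ, hδ⟩ := FiniteField.exists_nonsquare (F := F) (ringChar_ne_two h2)
  obtain ⟨w₀, hw₀⟩ := Cfsg.Agent.Lib.Helper15.CartanD.universal h2 Q hQ hn (c * δ)
  obtain ⟨u₀, hu₀⟩ := Cfsg.Agent.Lib.Helper15.CartanD.universal h2 Q hQ hn c
  have hu₀c : TypeC Q c u₀ := ⟨1, one_ne_zero, by rw [hu₀]; ring⟩
  have hδ0 : δ ≠ 0 := by
    rintro rfl
    exact hδ ⟨0, by simp⟩
  have hw₀0 : Q w₀ ≠ 0 := by
    rw [hw₀]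
    exact mul_ne_zero hc hδ0
  have hprod : ∀ v, Q v ≠ 0 → ¬ TypeC Q c v → IsSquare (Q v * Q w₀) := by
    intro v hv hvc
    have h1 : ¬ IsSquare (Q v / c) := by
      rintro ⟨r, hr⟩
      apply hvc
      have hr0 : r ≠ 0 := by
        rintro rfl
        rw [mul_zero] at hr
        exact (div_ne_zero hv hc) hr
      refine ⟨r, hr0, ?_⟩
      rw [div_eq_iff hc] at hr
      rw [hr]
      ring
    have h3 : sqc ((Q v / c) * δ) = sqc (Q v / c) + sqc δ :=
      sqc_mul h2 _ _ (div_ne_zero hv hc) hδ0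
    have e1 : sqc (Q v / c) = 1 := by
      unfold sqc
      rw [if_neg h1]
    have e2 : sqc δ = 1 := by
      unfold sqc
      rw [if_neg hδ]
    rw [e1, e2] at h3
    have h4 : sqc ((Q v / c) * δ) = 0 := by
      rw [h3]
      decide
    obtain ⟨r, hr⟩ := (sqc_eq_zero _).1 h4
    refine ⟨c * r, ?_⟩
    rw [hw₀]
    have h5 : Q v * δ = c * (r * r) := by
      rw [← hr]
      field_simp
    linear_combination c * h5
  have hinv₀ : (reflO Q w₀)⁻¹ = reflO Q w₀ := inv_eq_of_mul_eq_one_right (reflO_mul_self Q w₀)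
  -- the reflection in `w₀` is not in `N`
  have hr₀ : reflO Q w₀ ∉ N := by
    intro hmem
    have hker : ∀ g : ↥(Cfsg.isometryGroup F ⇑Q), Abelianization.of g = 1
        ↔ g ∈ commutator ↥(Cfsg.isometryGroup F ⇑Q) := by
      intro g
      rw [← Abelianization.ker_of, MonoidHom.mem_ker]
    have hpair : ∀ a b : ι → F, Q a ≠ 0 → Q b ≠ 0 →
        (reflO Q a * reflO Q b ∈ commutator ↥(Cfsg.isometryGroup F ⇑Q) ↔ IsSquare (Q a * Q b)) := by
      intro a b ha hb
      have h := prodRefl_mem_omega_iff h2 Q [a, b] (by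
        intro v hv
        simp only [List.mem_cons, List.not_mem_nil, or_false] at hv
        rcases hv with rfl | rfl
        · exact ha
        · exact hb)
      rw [prodRefl_cons, prodRefl_cons, prodRefl_nil, mul_one] at h
      rw [h]
      simp only [List.map_cons, List.map_nil, List.prod_cons, List.prod_nil, mul_one]
      constructor
      · exact fun h' => h'.2
      · exact fun h' => ⟨⟨1, rfl⟩, h'⟩
    have hsq₀ : Abelianization.of (reflO Q u₀) * Abelianization.of (reflO Q u₀) = 1 := by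
      rw [← map_mul, reflO_mul_self, map_one]
    have hρ : ∀ u, TypeC Q c u → Abelianization.of (reflO Q u) = Abelianization.of (reflO Q u₀) := by
      intro u hu
      have h1 : reflO Q u * reflO Q u₀ ∈ commutator ↥(Cfsg.isometryGroup F ⇑Q) := by
        rw [hpair u u₀ (typeC_ne Q c hc u hu) (typeC_ne Q c hc u₀ hu₀c)]
        obtain ⟨t, ht, hQu⟩ := hu
        rw [hQu, hu₀]
        exact ⟨c * t, by ring⟩
      have h3 : Abelianization.of (reflO Q u) * Abelianization.of (reflO Q u₀) = 1 := by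
        rw [← map_mul]
        exact (hker _).2 h1
      exact mul_right_cancel (h3.trans hsq₀.symm)
    have hle : N ≤ Subgroup.comap Abelianization.of
        (Subgroup.zpowers (Abelianization.of (reflO Q u₀))) := by
      rw [← hNdef, Subgroup.closure_le]
      intro g hg
      obtain ⟨u, hu, rfl⟩ := (hgen g).1 hg
      rw [SetLike.mem_coe, Subgroup.mem_comap, hρ u hu]
      exact Subgroup.mem_zpowers _
    obtain ⟨k, hk⟩ := Subgroup.mem_zpowers_iff.1 (hle hmem)
    have hsq : Abelianization.of (reflO Q u₀) ^ (2 : ℤ) = 1 := by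
      rw [zpow_two]
      exact hsq₀
    rcases Int.even_or_odd' k with ⟨j, rfl | rfl⟩
    · rw [zpow_mul, hsq, one_zpow] at hk
      have h1 := (hker _).1 hk.symm
      have h3 := (prodRefl_mem_omega_iff h2 Q [w₀] (by
        intro v hv
        simp only [List.mem_cons, List.not_mem_nil, or_false] at hv
        rw [hv]
        exact hw₀0)).1 (by rwa [prodRefl_cons, prodRefl_nil, mul_one])
      have h5 : Even 1 := h3.1
      exact absurd h5 (by decide)
    · rw [zpow_add, zpow_mul, hsq, one_zpow, one_mul, zpow_one] at hk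
      have h1 : reflO Q w₀ * reflO Q u₀ ∈ commutator ↥(Cfsg.isometryGroup F ⇑Q) := by
        rw [← hker, map_mul, ← hk]
        exact hsq₀
      rw [hpair w₀ u₀ hw₀0 (typeC_ne Q c hc u₀ hu₀c), hw₀, hu₀] at h1
      obtain ⟨r, hr⟩ := h1
      apply hδ
      refine ⟨r / c, ?_⟩
      field_simp
      linear_combination hr
  have hF2 : Fintype.card F ≠ 2 := by
    intro h
    have h0 := Nat.cast_card_eq_zero F
    rw [h] at h0
    exact h2 (by exact_mod_cast h0)
  have hstar : ∀ v, Q v ≠ 0 → ¬ TypeC Q c v → reflO Q v * reflO Q w₀ ∈ N :=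
    fun v hv hvc => star h2 Q hQ c hc N hN hcase v w₀ hv hw₀0 (hprod v hv hvc)
  have hor : ∀ vs : List (ι → F), (∀ v ∈ vs, Q v ≠ 0) →
      prodRefl Q vs ∈ N ∨ prodRefl Q vs * reflO Q w₀ ∈ N := by
    intro vs
    induction vs with
    | nil =>
      intro _
      left
      rw [prodRefl_nil]
      exact N.one_mem
    | cons v vs ih =>
      intro hvs
      have hv := hvs v (List.mem_cons_self ..)
      have ih' := ih (fun x hx => hvs x (List.mem_cons_of_mem _ hx))
      rw [prodRefl_cons]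
      by_cases hvc : TypeC Q c v
      · rcases ih' with h | h
        · left
          exact N.mul_mem (hN v hvc) h
        · right
          rw [mul_assoc]
          exact N.mul_mem (hN v hvc) h
      · have h1 := hstar v hv hvc
        rcases ih' with h | h
        · right
          have e : reflO Q v * prodRefl Q vs * reflO Q w₀
              = (reflO Q v * reflO Q w₀) * ((reflO Q w₀)⁻¹ * prodRefl Q vs * (reflO Q w₀)⁻¹⁻¹) := by
            group
          rw [e]
          exact N.mul_mem h1 (hnormal.conj_mem _ h _)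
        · left
          have h1' : reflO Q v * (reflO Q w₀)⁻¹ ∈ N := by
            rw [hinv₀]
            exact h1
          have e : reflO Q v * prodRefl Q vs
              = (reflO Q v * (reflO Q w₀)⁻¹)
                * (reflO Q w₀ * (prodRefl Q vs * reflO Q w₀) * (reflO Q w₀)⁻¹) := by
            group
          rw [e]
          exact N.mul_mem h1' (hnormal.conj_mem _ h _)
  rw [Subgroup.index_eq_two_iff]
  refine ⟨reflO Q w₀, fun b => ?_⟩
  obtain ⟨vs, hvs, rfl⟩ := Cfsg.Agent.Lib.Helper15.OrthGen.cd_all Q hnd (Or.inl hF2) b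
  rcases hor vs hvs with h | h
  · right
    refine ⟨h, fun h' => hr₀ ?_⟩
    have h3 := N.mul_mem (N.inv_mem h) h'
    rwa [inv_mul_cancel_left] at h3
  · left
    refine ⟨h, fun h' => hr₀ ?_⟩
    have h3 := N.mul_mem (N.inv_mem h') h
    rwa [inv_mul_cancel_left] at h3

end Cfsg.Agent.Lib.Helper15.ReflIndex
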