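import Mathlib

set_option autoImplicit false

namespace Cfsg.Agent.Lib.Helper15.RegNil

open Module

variable {K V : Type*} [Field K] [AddCommGroup V] [Module K V]

theorem finrank_ker_comp_le [FiniteDimensional K V] (f g : End K V) :
    finrank K (LinearMap.ker (f * g)) ≤ finrank K (LinearMap.ker f) + finrank K (LinearMap.ker g) := by
  let g' : LinearMap.ker (f * g) →ₗ[K] LinearMap.ker f :=
    (g.comp (LinearMap.ker (f * g)).subtype).codRestrict (LinearMap.ker f) (fun x => by
      have h : (f * g) x.1 = 0 := LinearMap.mem_ker.mp x.2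
      exact LinearMap.mem_ker.mpr h)
  have h1 := g'.finrank_range_add_finrank_ker
  have h2 : finrank K (LinearMap.range g') ≤ finrank K (LinearMap.ker f) := Submodule.finrank_le _
  have h3 : finrank K (LinearMap.ker g') ≤ finrank K (LinearMap.ker g) := by
    have hle : (LinearMap.ker g').map (LinearMap.ker (f * g)).subtype ≤ LinearMap.ker g := by
      rintro _ ⟨x, hx, rfl⟩
      have := congrArg Subtype.val (LinearMap.mem_ker.mp hx)
      simpa [g'] using this
    calc finrank K (LinearMap.ker g')
        = finrank K ((LinearMap.ker g').map (LinearMap.ker (f * g)).subtype) :=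
          (Submodule.finrank_map_subtype_eq _ _).symm
      _ ≤ _ := Submodule.finrank_mono hle
  omega

theorem finrank_ker_pow_le [FiniteDimensional K V] (T : End K V)
    (h1 : finrank K (LinearMap.ker T) ≤ 1) (k : ℕ) : finrank K (LinearMap.ker (T ^ k)) ≤ k := by
  induction k with
  | zero =>
    have : LinearMap.ker (T ^ 0) = ⊥ := by
      rw [pow_zero]; exact LinearMap.ker_id
    rw [this]; simp
  | succ k ih =>
    rw [pow_succ]
    have := finrank_ker_comp_le (T ^ k) T
    omega

theorem finrank_ker_pow [FiniteDimensional K V] (T : End K V) (hn : T ^ finrank K V = 0)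
    (h1 : finrank K (LinearMap.ker T) ≤ 1) {k : ℕ} (hk : k ≤ finrank K V) :
    finrank K (LinearMap.ker (T ^ k)) = k := by
  have h2 := finrank_ker_comp_le (T ^ k) (T ^ (finrank K V - k))
  rw [← pow_add, Nat.add_sub_cancel' hk, hn] at h2
  have h3 : finrank K (LinearMap.ker (0 : End K V)) = finrank K V := by
    rw [LinearMap.ker_zero]; exact finrank_top K V
  have h4 := finrank_ker_pow_le T h1 k
  have h5 := finrank_ker_pow_le T h1 (finrank K V - k)
  omega

theorem restrict_pow_apply (T : End K V) (W : Submodule K V) (hW : ∀ w ∈ W, T w ∈ W) (k : ℕ)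
    (w : W) : (((T.restrict hW : End K W) ^ k) w : V) = (T ^ k) w := by
  induction k generalizing w with
  | zero => simp
  | succ k ih =>
    rw [pow_succ, pow_succ, Module.End.mul_apply, Module.End.mul_apply, ih]
    rfl

theorem invariant_le_ker_pow [FiniteDimensional K V] (T : End K V) (hn : T ^ finrank K V = 0)
    (W : Submodule K V) (hW : ∀ w ∈ W, T w ∈ W) : W ≤ LinearMap.ker (T ^ finrank K W) := by
  have hnil : (T.restrict hW : End K W) ^ finrank K V = 0 := by
    ext w
    rw [restrict_pow_apply, hn]; simp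
  have hker := Module.End.ker_pow_le_ker_pow_finrank (T.restrict hW : End K W) (finrank K V)
  intro w hw
  have hmem : (⟨w, hw⟩ : W) ∈ LinearMap.ker ((T.restrict hW : End K W) ^ finrank K W) :=
    hker (by rw [hnil]; simp)
  rw [LinearMap.mem_ker] at hmem ⊢
  have h2 := restrict_pow_apply T W hW (finrank K W) ⟨w, hw⟩
  rw [hmem] at h2
  simpa using h2.symm

theorem invariant_eq_ker_pow [FiniteDimensional K V] (T : End K V) (hn : T ^ finrank K V = 0)
    (h1 : finrank K (LinearMap.ker T) ≤ 1)
    (W : Submodule K V) (hW : ∀ w ∈ W, T w ∈ W) : W = LinearMap.ker (T ^ finrank K W) := by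
  apply Submodule.eq_of_le_of_finrank_eq (invariant_le_ker_pow T hn W hW)
  rw [finrank_ker_pow T hn h1 (Submodule.finrank_le W)]

theorem range_pow_eq_ker_pow [FiniteDimensional K V] (T : End K V) (hn : T ^ finrank K V = 0)
    (h1 : finrank K (LinearMap.ker T) ≤ 1) {k : ℕ} (hk : k ≤ finrank K V) :
    LinearMap.range (T ^ k) = LinearMap.ker (T ^ (finrank K V - k)) := by
  apply Submodule.eq_of_le_of_finrank_eq
  · rintro _ ⟨x, rfl⟩
    rw [LinearMap.mem_ker, ← Module.End.mul_apply, ← pow_add, Nat.sub_add_cancel hk, hn]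
    simp
  · have h2 := (T ^ k).finrank_range_add_finrank_ker
    rw [finrank_ker_pow T hn h1 hk] at h2
    rw [finrank_ker_pow T hn h1 (Nat.sub_le _ _)]
    omega

theorem mulVecLin_pow {ι : Type*} [Fintype ι] [DecidableEq ι] (N : Matrix ι ι K) (k : ℕ) :
    (Matrix.mulVecLin N : End K (ι → K)) ^ k = Matrix.mulVecLin (N ^ k) := by
  induction k with
  | zero => simp [Module.End.one_eq_id]
  | succ k ih =>
    rw [pow_succ, pow_succ, ih, Matrix.mulVecLin_mul]
    rfl

theorem matrix_regnil {ι : Type*} [Fintype ι] [DecidableEq ι] (N : Matrix ι ι K)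
    (hnil : N ^ Fintype.card ι = 0) (hrank : N.rank = Fintype.card ι - 1) :
    (Matrix.mulVecLin N : End K (ι → K)) ^ finrank K (ι → K) = 0 ∧
      finrank K (LinearMap.ker (Matrix.mulVecLin N)) ≤ 1 := by
  have hfin : finrank K (ι → K) = Fintype.card ι := Module.finrank_fintype_fun_eq_card K
  refine ⟨?_, ?_⟩
  · rw [hfin, mulVecLin_pow, hnil]
    ext v; simp
  · have h2 := (Matrix.mulVecLin N).finrank_range_add_finrank_ker
    have h3 : finrank K (LinearMap.range (Matrix.mulVecLin N)) = N.rank := rfl
    rw [h3, hrank, hfin] at h2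
    omega

end Cfsg.Agent.Lib.Helper15.RegNil
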