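import Mathlib

set_option autoImplicit false

namespace Cfsg.Agent.Lib.Helper15.Transpose

open Polynomial Module

/-- For a monic polynomial `g` the algebra `F[X]/(g)` carries a linear functional whose associated
bilinear form `(a, b) ↦ l (a b)` is non-degenerate. -/
theorem frob_monic {F : Type*} [Field F] (g : F[X]) (hg : g.Monic) :
    ∃ l : AdjoinRoot g →ₗ[F] F, ∀ a : AdjoinRoot g, (∀ b, l (a * b) = 0) → a = 0 := by
  classical
  set pb := AdjoinRoot.powerBasis' hg with hpb
  rcases Nat.eq_zero_or_pos pb.dim with hd | hd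
  · refine ⟨0, fun a _ => ?_⟩
    apply pb.basis.repr.injective
    ext i
    exact absurd i.2 (by omega)
  · set top : Fin pb.dim := ⟨pb.dim - 1, by omega⟩ with htop
    refine ⟨pb.basis.coord top, fun a ha => ?_⟩
    by_contra hne
    have hS : (Finset.univ.filter (fun j : Fin pb.dim => pb.basis.repr a j ≠ 0)).Nonempty := by
      by_contra hempty
      rw [Finset.not_nonempty_iff_eq_empty] at hempty
      apply hne
      apply pb.basis.repr.injective
      ext j
      by_contra hj
      have : j ∈ Finset.univ.filter (fun j : Fin pb.dim => pb.basis.repr a j ≠ 0) := by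
        rw [Finset.mem_filter]
        exact ⟨Finset.mem_univ _, by simpa using hj⟩
      rw [hempty] at this
      simp at this
    obtain ⟨k, hk, hkmax⟩ := Finset.exists_max_image _ (fun j : Fin pb.dim => (j : ℕ)) hS
    rw [Finset.mem_filter] at hk
    have hkmax' : ∀ j : Fin pb.dim, pb.basis.repr a j ≠ 0 → (j : ℕ) ≤ k := by
      intro j hj
      exact hkmax j (by rw [Finset.mem_filter]; exact ⟨Finset.mem_univ _, hj⟩)
    have hexp : a * pb.gen ^ (pb.dim - 1 - (k : ℕ))
        = ∑ j : Fin pb.dim, pb.basis.repr a j • pb.gen ^ ((j : ℕ) + (pb.dim - 1 - (k : ℕ))) := by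
      conv_lhs => rw [← pb.basis.sum_repr a]
      rw [Finset.sum_mul]
      apply Finset.sum_congr rfl
      intro j _
      rw [pb.basis_eq_pow, smul_mul_assoc, ← pow_add]
    have h := ha (pb.gen ^ (pb.dim - 1 - (k : ℕ)))
    rw [hexp, map_sum] at h
    rw [Finset.sum_eq_single k] at h
    · rw [map_smul, smul_eq_mul] at h
      have hk1 : (k : ℕ) + (pb.dim - 1 - (k : ℕ)) = pb.dim - 1 := by
        have := k.2
        omega
      have : pb.gen ^ ((k : ℕ) + (pb.dim - 1 - (k : ℕ))) = pb.basis top := by
        rw [pb.basis_eq_pow, hk1]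
      rw [this, Basis.coord_apply, Basis.repr_self, Finsupp.single_eq_same, mul_one] at h
      exact hk.2 h
    · intro j _ hjk
      by_cases hj : pb.basis.repr a j = 0
      · rw [hj, zero_smul, map_zero]
      · have hjle := hkmax' j hj
        have hjlt : (j : ℕ) < k := lt_of_le_of_ne hjle (fun h => hjk (Fin.ext h))
        have hlt : (j : ℕ) + (pb.dim - 1 - (k : ℕ)) < pb.dim := by
          have := k.2
          omega
        have : pb.gen ^ ((j : ℕ) + (pb.dim - 1 - (k : ℕ)))
            = pb.basis ⟨(j : ℕ) + (pb.dim - 1 - (k : ℕ)), hlt⟩ := by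
          rw [pb.basis_eq_pow]
        rw [map_smul, this, Basis.coord_apply, Basis.repr_self, Finsupp.single_eq_of_ne, smul_zero]
        intro heq
        have := congrArg Fin.val heq
        simp only [htop] at this
        have := k.2
        omega
    · intro hk'
      exact absurd (Finset.mem_univ k) hk'

/-- The same for an arbitrary non-zero polynomial, in elementary terms. -/
theorem frob {F : Type*} [Field F] (g : F[X]) (hg : g ≠ 0) :
    ∃ l : (F[X] ⧸ Ideal.span {g}) →+ F,
      (∀ (c : F) (a : F[X] ⧸ Ideal.span {g}),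
        l (Ideal.Quotient.mk (Ideal.span {g}) (C c) * a) = c * l a) ∧
      ∀ a : F[X] ⧸ Ideal.span {g}, (∀ b, l (a * b) = 0) → a = 0 := by
  set g₁ : F[X] := g * C g.leadingCoeff⁻¹ with hg₁
  have hmon : g₁.Monic := monic_mul_leadingCoeff_inv hg
  have hunit : IsUnit (C g.leadingCoeff⁻¹ : F[X]) :=
    Polynomial.isUnit_C.2 (IsUnit.mk0 _ (inv_ne_zero (leadingCoeff_ne_zero.2 hg)))
  have hI : Ideal.span {g} = Ideal.span {g₁} := (Ideal.span_singleton_mul_right_unit hunit g).symm
  obtain ⟨l₁, hl₁⟩ := frob_monic g₁ hmon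
  let e : (F[X] ⧸ Ideal.span {g}) ≃+* AdjoinRoot g₁ := Ideal.quotEquivOfEq hI
  refine ⟨l₁.toAddMonoidHom.comp e.toAddMonoidHom, ?_, ?_⟩
  · intro c a
    change l₁ (e (Ideal.Quotient.mk (Ideal.span {g}) (C c) * a)) = c * l₁ (e a)
    rw [map_mul]
    have h1 : e (Ideal.Quotient.mk (Ideal.span {g}) (C c)) = AdjoinRoot.of g₁ c := by
      change Ideal.quotEquivOfEq hI (Ideal.Quotient.mk (Ideal.span {g}) (C c)) = _
      rw [Ideal.quotEquivOfEq_mk]
      exact AdjoinRoot.mk_C c
    rw [h1, ← AdjoinRoot.algebraMap_eq, ← Algebra.smul_def, map_smul, smul_eq_mul]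
  · intro a ha
    have h2 : e a = 0 := by
      apply hl₁
      intro b
      have := ha (e.symm b)
      change l₁ (e (a * e.symm b)) = 0 at this
      rwa [map_mul, RingEquiv.apply_symm_apply] at this
    exact (map_eq_zero_iff e e.injective).1 h2

/-- The polynomial-module scalar action on a cyclic quotient is multiplication. -/
theorem smul_quot {F : Type*} [Field F] (g r : F[X]) (a : F[X] ⧸ Submodule.span F[X] {g}) :
    r • a = Ideal.Quotient.mk (Ideal.span {g}) r * a := by
  induction a using Submodule.Quotient.induction_on with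
  | _ f => rfl

/-- Every endomorphism of a finite-dimensional space is self-adjoint for some non-degenerate
symmetric bilinear form. -/
theorem exists_selfadjoint_form {F : Type*} [Field F] {ι : Type*} [Fintype ι] [DecidableEq ι] (A : Matrix ι ι F) :
    ∃ B : LinearMap.BilinForm F (ι → F), (∀ x, (∀ y, B x y = 0) → x = 0) ∧
      (∀ x y, B x y = B y x) ∧ ∀ x y, B (A.mulVec x) y = B x (A.mulVec y) := by
  classical
  set φ : (ι → F) →ₗ[F] (ι → F) := Matrix.toLin' A with hφ
  have hT : Module.IsTorsion F[X] (Module.AEval' φ) := by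
    intro x
    refine ⟨⟨φ.charpoly, mem_nonZeroDivisors_of_ne_zero φ.charpoly_monic.ne_zero⟩, ?_⟩
    obtain ⟨m, rfl⟩ := (Module.AEval'.of φ).surjective x
    change φ.charpoly • (Module.AEval'.of φ) m = 0
    have h := Module.AEval.of_aeval_smul (R := F) (M := ι → F) φ φ.charpoly m
    rw [LinearMap.aeval_self_charpoly, zero_smul, map_zero] at h
    exact h.symm
  obtain ⟨κ, hκ, p, hp, e, ⟨Φ⟩⟩ := Module.equiv_directSum_of_isTorsion hT
  have hne : ∀ i, p i ^ e i ≠ 0 := fun i => pow_ne_zero _ (hp i).ne_zero
  choose l hl1 hl2 using fun i => frob (p i ^ e i) (hne i)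
  -- the components
  let Ψ : (ι → F) → ∀ i, F[X] ⧸ Ideal.span {p i ^ e i} :=
    fun x i => (Φ (Module.AEval'.of φ x)) i
  have hΨadd : ∀ x y i, Ψ (x + y) i = Ψ x i + Ψ y i := by
    intro x y i
    change (Φ (Module.AEval'.of φ (x + y))) i = _
    rw [map_add, map_add]
    rfl
  have hΨsmul : ∀ (c : F) x i,
      Ψ (c • x) i = Ideal.Quotient.mk (Ideal.span {p i ^ e i}) (C c) * Ψ x i := by
    intro c x i
    change (Φ (Module.AEval'.of φ (c • x))) i = _
    rw [map_smul, ← Module.AEval.C_smul, map_smul, DirectSum.smul_apply]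
    exact smul_quot _ _ _
  have hΨX : ∀ x i,
      Ψ (A.mulVec x) i = Ideal.Quotient.mk (Ideal.span {p i ^ e i}) X * Ψ x i := by
    intro x i
    change (Φ (Module.AEval'.of φ (A.mulVec x))) i = _
    have h1 : A.mulVec x = φ x := (Matrix.toLin'_apply A x).symm
    rw [h1, ← Module.AEval'.X_smul_of, map_smul, DirectSum.smul_apply]
    exact smul_quot _ _ _
  let B : LinearMap.BilinForm F (ι → F) :=
    LinearMap.mk₂ F (fun x y => ∑ i, l i (Ψ x i * Ψ y i))
      (fun x x' y => by
        rw [← Finset.sum_add_distrib]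
        apply Finset.sum_congr rfl
        intro i _
        rw [hΨadd, add_mul, map_add])
      (fun c x y => by
        rw [smul_eq_mul, Finset.mul_sum]
        apply Finset.sum_congr rfl
        intro i _
        rw [hΨsmul, mul_assoc, hl1])
      (fun x y y' => by
        rw [← Finset.sum_add_distrib]
        apply Finset.sum_congr rfl
        intro i _
        rw [hΨadd, mul_add, map_add])
      (fun c x y => by
        rw [smul_eq_mul, Finset.mul_sum]
        apply Finset.sum_congr rfl
        intro i _
        rw [hΨsmul, mul_left_comm, hl1])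
  have hB : ∀ x y, B x y = ∑ i, l i (Ψ x i * Ψ y i) := fun x y => rfl
  refine ⟨B, ?_, ?_, ?_⟩
  · intro x hx
    have h0 : Φ (Module.AEval'.of φ x) = 0 := by
      apply DirectSum.ext
      intro i
      apply hl2 i
      intro b
      have h := hx ((Module.AEval'.of φ).symm (Φ.symm (DirectSum.of _ i b)))
      rw [hB] at h
      rw [Finset.sum_eq_single i] at h
      · have h3 : Ψ ((Module.AEval'.of φ).symm (Φ.symm (DirectSum.of _ i b))) i = b := by
          change (Φ (Module.AEval'.of φ ((Module.AEval'.of φ).symm (Φ.symm (DirectSum.of _ i b))))) i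
            = b
          rw [LinearEquiv.apply_symm_apply, LinearEquiv.apply_symm_apply, DirectSum.of_eq_same]
        rw [h3] at h
        exact h
      · intro j _ hji
        have h3 : Ψ ((Module.AEval'.of φ).symm (Φ.symm (DirectSum.of _ i b))) j = 0 := by
          change (Φ (Module.AEval'.of φ ((Module.AEval'.of φ).symm (Φ.symm (DirectSum.of _ i b))))) j
            = 0
          rw [LinearEquiv.apply_symm_apply, LinearEquiv.apply_symm_apply,
            DirectSum.of_eq_of_ne _ _ _ hji]
        rw [h3, mul_zero, map_zero]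
      · intro hi
        exact absurd (Finset.mem_univ i) hi
    have h1 : Module.AEval'.of φ x = 0 := (map_eq_zero_iff Φ Φ.injective).1 h0
    exact (map_eq_zero_iff _ (Module.AEval'.of φ).injective).1 h1
  · intro x y
    rw [hB, hB]
    apply Finset.sum_congr rfl
    intro i _
    rw [mul_comm]
  · intro x y
    rw [hB, hB]
    apply Finset.sum_congr rfl
    intro i _
    rw [hΨX, hΨX, mul_left_comm, mul_assoc]

/-- A square matrix over a field is conjugate to its transpose. -/
theorem isConj_transpose {F : Type*} [Field F] {ι : Type*} [Fintype ι] [DecidableEq ι] (A : Matrix ι ι F) :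
    IsConj A A.transpose := by
  classical
  obtain ⟨B, hnd, hsymm, hadj⟩ := exists_selfadjoint_form A
  set G := LinearMap.BilinForm.toMatrix' B with hG
  have hBG : ∀ x y, B x y = x ⬝ᵥ G.mulVec y := by
    intro x y
    have h := Matrix.toBilin'_apply' G x y
    rw [hG, Matrix.toBilin'_toMatrix'] at h
    exact h
  have hcomm : G * A = A.transpose * G := by
    have h1 : B.compLeft (Matrix.toLin' A) = B.compRight (Matrix.toLin' A) := by
      apply LinearMap.ext₂
      intro x y
      rw [LinearMap.BilinForm.compLeft_apply, LinearMap.BilinForm.compRight_apply,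
        Matrix.toLin'_apply, Matrix.toLin'_apply]
      exact hadj _ _
    have h2 := congrArg LinearMap.BilinForm.toMatrix' h1
    rw [LinearMap.BilinForm.toMatrix'_compLeft, LinearMap.BilinForm.toMatrix'_compRight,
      LinearMap.toMatrix'_toLin'] at h2
    exact h2.symm
  have hinj : Function.Injective G.mulVec := by
    intro y y' hyy'
    have h0 : y - y' = 0 := by
      apply hnd
      intro x
      rw [hsymm, hBG, Matrix.mulVec_sub, hyy', sub_self, dotProduct_zero]
    exact sub_eq_zero.1 h0
  have hunit : IsUnit G := Matrix.mulVec_injective_iff_isUnit.1 hinj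
  refine ⟨hunit.unit, ?_⟩
  change hunit.unit.1 * A = A.transpose * hunit.unit.1
  rw [IsUnit.unit_spec]
  exact hcomm

end Cfsg.Agent.Lib.Helper15.Transpose
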